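import Cfsg.Agent.J4T.PDefs

/-! The group `L₃(2)` acting on `Z3`, its dual action, and finite checks. -/

set_option autoImplicit false
set_option maxRecDepth 100000

namespace Cfsg.Lib.J4T.PA

open Subgroup Equiv

/-- The additive permutations of `Z3`. -/
def G3 : Subgroup (Perm Z3) where
  carrier := {A | ∀ ζ η, A (ζ + η) = A ζ + A η}
  one_mem' _ _ := rfl
  mul_mem' ha hb ζ η := by rw [Perm.mul_apply, hb, ha]; rfl
  inv_mem' {A} ha ζ η := A.injective (by rw [ha]; simp)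

theorem g3_zero (A : G3) : A.1 0 = 0 := by simpa using A.2 0 0

theorem comb_add' (a b c ζ η : Z3) : comb a b c (ζ + η) = comb a b c ζ + comb a b c η :=
  comb_add (Bits.add_self _) (Bits.add_self _) (Bits.add_self _) ζ η

/-- The element with given images of the basis. -/
noncomputable def mkA (a b c : Z3) (h : Ind a b c) : G3 :=
  ⟨Equiv.ofBijective (comb a b c) (Finite.injective_iff_bijective.1 fun ζ η e =>
    add_eq_zero_iff_eq_neg.1 (h _ (by rw [comb_add', e, Bits.add_self]))), comb_add' a b c⟩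

theorem mkA_apply (a b c : Z3) (h : Ind a b c) (ζ : Z3) : (mkA a b c h).1 ζ = comb a b c ζ := rfl

theorem card_G3_le : Nat.card G3 ≤ 168 := by
  have h : Nat.card {t : Z3 × Z3 × Z3 // Ind t.1 t.2.1 t.2.2} = 168 := by
    rw [Nat.card_eq_fintype_card]; decide +kernel
  refine h ▸ Nat.card_le_card_of_injective
    (fun A => ⟨(A.1 (bv 3 1), A.1 (bv 3 2), A.1 (bv 3 4)), ind_of_add A.2⟩) fun A B e => ?_
  simp only [Subtype.mk.injEq, Prod.mk.injEq] at e
  exact Subtype.ext (Equiv.ext fun ζ => by rw [eq_comb A.2, eq_comb B.2, e.1, e.2.1, e.2.2])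

theorem span_dec : ∀ f f' ξ : Z3, ξ = f + f' ∨ ξ = 0 ∨ ξ = f ∨ ξ = f' ∨
    ∃ a b c, comb a b c f = f ∧ comb a b c f' = f' ∧ comb a b c ξ ≠ ξ ∧ Ind a b c := by
  decide +kernel

theorem span_of_fix {f f' ξ : Z3} (h : ∀ A : G3, A.1 f = f → A.1 f' = f' → A.1 ξ = ξ) :
    ξ = f + f' ∨ ξ = 0 ∨ ξ = f ∨ ξ = f' := by
  rcases span_dec f f' ξ with e | e | e | e | ⟨a, b, c, h1, h2, h3, h4⟩
  exacts [.inl e, .inr (.inl e), .inr (.inr (.inl e)), .inr (.inr (.inr e)),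
    absurd (h (mkA a b c h4) h1 h2) h3]

theorem eq_one_of_comm {A : G3} (h : ∀ B, A * B = B * A) : A = 1 := Subtype.ext (Equiv.ext fun ζ => by
  have h1 := span_of_fix (f := ζ) (f' := 0) (ξ := A.1 ζ) fun B h1 _ => by
    rw [← Perm.mul_apply, ← coe_mul, ← h, coe_mul, Perm.mul_apply, h1]
  have h2 : A.1 ζ = 0 → A.1 ζ = ζ := fun e => by
    rw [A.1.injective (e.trans (g3_zero A).symm), g3_zero]
  rcases h1 with e | e | e | e
  exacts [e.trans (add_zero _), h2 e, e, h2 e])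

/-- The central transvection. -/
noncomputable def tau : G3 := mkA (bv 3 1) (bv 3 2) (bv 3 5) (by decide)
/-- A transvection fixing the first vector. -/
noncomputable def t1 : G3 := mkA (bv 3 1) (bv 3 4) (bv 3 2) (by decide)
/-- A transvection fixing the plane. -/
noncomputable def t3 : G3 := mkA (bv 3 2) (bv 3 1) (bv 3 4) (by decide)

theorem y_apply (ζ : Z3) : (t1 * (tau * t3)).1 ζ = comb (bv 3 4) (bv 3 1) (bv 3 3) ζ := by
  change comb _ _ _ (comb _ _ _ (comb _ _ _ ζ)) = _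
  revert ζ; decide

theorem y_pow (k : ℕ) (ζ : Z3) :
    ((t1 * (tau * t3)) ^ k).1 ζ = (comb (bv 3 4) (bv 3 1) (bv 3 3))^[k] ζ := by
  rw [coe_pow, Perm.coe_pow, funext y_apply]

theorem y_seven : (t1 * (tau * t3)) ^ 7 = 1 := Subtype.ext (Equiv.ext fun ζ => by
  rw [y_pow]
  change _ = ζ
  revert ζ; decide)

theorem y_ne : t1 * (tau * t3) ≠ 1 := fun h =>
  absurd ((y_apply (bv 3 1)).symm.trans (show _ = bv 3 1 by rw [h]; rfl)) (by decide)

theorem exists_seven {f f' : Z3} (h : f ≠ 0) (h' : f' ≠ 0) : ∃ A : G3, A ^ 7 = 1 ∧ A.1 f = f' := by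
  obtain ⟨k, hk⟩ := (by decide : ∀ f f' : Z3, f ≠ 0 → f' ≠ 0 →
    ∃ k : Fin 7, (comb (bv 3 4) (bv 3 1) (bv 3 3))^[k.1] f = f') f f' h h'
  exact ⟨_ ^ k.1, by rw [← pow_mul, mul_comm, pow_mul, y_seven, one_pow], (y_pow _ _).trans hk⟩

theorem conj_t1 : ∃ g, t1 * g = g * tau :=
  ⟨mkA (bv 3 6) (bv 3 1) (bv 3 2) (by decide), Subtype.ext (Equiv.ext fun ζ => by
    change comb _ _ _ (comb _ _ _ ζ) = comb _ _ _ (comb _ _ _ ζ)
    revert ζ; decide)⟩

theorem conj_t3 : ∃ g, t3 * g = g * tau :=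
  ⟨mkA (bv 3 3) (bv 3 4) (bv 3 1) (by decide), Subtype.ext (Equiv.ext fun ζ => by
    change comb _ _ _ (comb _ _ _ ζ) = comb _ _ _ (comb _ _ _ ζ)
    revert ζ; decide)⟩

/-- The standard bilinear form. -/
def dot (f ζ : Z3) : Bool := (f.v.testBit 0 && ζ.v.testBit 0) ^^ (f.v.testBit 1 && ζ.v.testBit 1) ^^
  (f.v.testBit 2 && ζ.v.testBit 2)

/-- The cross product. -/
def cross (f g : Z3) : Z3 :=
  mk3 ((f.v.testBit 1 && g.v.testBit 2) ^^ (f.v.testBit 2 && g.v.testBit 1))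
    ((f.v.testBit 0 && g.v.testBit 2) ^^ (f.v.testBit 2 && g.v.testBit 0))
    ((f.v.testBit 0 && g.v.testBit 1) ^^ (f.v.testBit 1 && g.v.testBit 0))

/-- The transpose. -/
def tr (A : Z3 → Z3) (f : Z3) : Z3 :=
  mk3 (dot f (A (bv 3 1))) (dot f (A (bv 3 2))) (dot f (A (bv 3 4)))

theorem add_dot : ∀ f g ζ, dot (f + g) ζ = (dot f ζ ^^ dot g ζ) := by decide +kernel

theorem dot_ext : ∀ f g : Z3, (∀ ζ, dot f ζ = dot g ζ) → f = g := by decide +kernel

theorem dot_comm : ∀ f g : Z3, dot f g = dot g f := by decide +kernel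

theorem dot_tr (A : G3) (f ζ : Z3) : dot (tr A.1 f) ζ = dot f (A.1 ζ) := by
  rw [eq_comb A.2 ζ]
  exact (by decide +kernel : ∀ f a b c ζ : Z3,
    dot (mk3 (dot f a) (dot f b) (dot f c)) ζ = dot f (comb a b c ζ)) _ _ _ _ _

/-- The inverse transpose. -/
def dual : G3 →* G3 := MonoidHom.mk'
  (fun A => ⟨⟨tr (A⁻¹).1, tr A.1, fun f => dot_ext _ _ fun ζ => by rw [dot_tr, dot_tr]; simp,
    fun f => dot_ext _ _ fun ζ => by
      rw [dot_tr, dot_tr]; simp⟩, fun f g => dot_ext _ _ fun ζ => by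
    simp only [coe_fn_mk, dot_tr, add_dot]⟩)
  fun A B => Subtype.ext (Equiv.ext fun f => dot_ext _ _ fun ζ => by
    change dot (tr _ f) ζ = dot (tr _ (tr _ f)) ζ
    rw [dot_tr, dot_tr, dot_tr, mul_inv_rev]; rfl)

theorem dot_dual (A : G3) (f ζ : Z3) : dot ((dual A).1 f) (A.1 ζ) = dot f ζ :=
  (dot_tr A⁻¹ f _).trans (by simp)

theorem dual_surj : Function.Surjective dual :=
  Finite.injective_iff_surjective.1 ((injective_iff_map_eq_one _).2 fun A h =>
    Subtype.ext (Equiv.ext fun ζ => dot_ext _ _ fun f => by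
      have := dot_dual A f ζ
      rw [h] at this
      exact (dot_comm _ _).trans (this.trans (dot_comm _ _))))

variable (B : Z3 →+ Z3 →+ Z3)

theorem biadd_eq {X : Z3 → Z3 → Z3} (h1 : ∀ f, X 0 f = 0) (h2 : ∀ f, X f 0 = 0)
    (h3 : ∀ f g, X f (f + g) + X f g = X f f)
    (h : ∀ f g, f ≠ 0 → g ≠ 0 → f ≠ g → B f g = X f g) (f g : Z3) : B f g = X f g := by
  by_cases e1 : f = 0
  · simp [e1, h1]
  by_cases e2 : g = 0
  · simp [e2, h2]
  by_cases e3 : f = g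
  · subst e3
    obtain ⟨g, g1, g2, g3, g4⟩ := (by decide : ∀ f : Z3, f ≠ 0 → ∃ g, g ≠ 0 ∧ f ≠ g ∧ f + g ≠ 0 ∧
      f ≠ f + g) f e1
    rw [← h3 f g, ← h f g e1 g1 g2, ← h f _ e1 g3 g4, ← map_add, add_assoc, Bits.add_self, add_zero]
  · exact h f g e1 e2 e3

theorem nat_zero (h : ∀ (A : G3) f g, B (A.1 f) (A.1 g) = A.1 (B f g)) (f g : Z3) : B f g = 0 := by
  have k := fun a b c hi => h (mkA a b c hi) (bv 3 1) (bv 3 2)
  have a1 : B (bv 3 1) (bv 3 2) = _ := k (bv 3 1) (bv 3 2) (bv 3 5) (by decide)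
  have a2 : B (bv 3 1) (bv 3 4) = _ := k (bv 3 1) (bv 3 4) (bv 3 2) (by decide)
  have a3 : B (bv 3 1) (bv 3 2 + bv 3 4) = _ := k (bv 3 1) (bv 3 6) (bv 3 4) (by decide)
  have a4 : B (bv 3 4) (bv 3 2) = _ := k (bv 3 4) (bv 3 2) (bv 3 1) (by decide)
  have a5 : B (bv 3 1 + bv 3 4) (bv 3 2) = _ := k (bv 3 5) (bv 3 2) (bv 3 4) (by decide)
  rw [map_add, a2] at a3
  rw [map_add, AddMonoidHom.add_apply, a4] at a5
  simp only [mkA_apply] at a1 a3 a5
  have h0 : B (bv 3 1) (bv 3 2) = 0 := by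
    revert a1 a3 a5
    generalize B (bv 3 1) (bv 3 2) = z
    revert z; decide
  refine biadd_eq B (X := fun _ _ => 0) (fun _ => rfl) (fun _ => rfl) (fun _ _ => rfl)
    (fun f g h1 h2 h3 => ?_) f g
  obtain ⟨c, hc⟩ := (by decide : ∀ f g : Z3, f ≠ 0 → g ≠ 0 → f ≠ g → ∃ c, Ind f g c) f g h1 h2 h3
  have := k f g c hc
  rw [h0, g3_zero] at this
  have e : B (f + 0 + 0) (0 + g + 0) = 0 := this
  simpa using e

theorem dual_form (h : ∀ (A : G3) f g, B ((dual A).1 f) ((dual A).1 g) = A.1 (B f g)) :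
    (B (bv 3 1) (bv 3 2) = 0 ∨ B (bv 3 1) (bv 3 2) = bv 3 4) ∧
      ∀ f g, B f g = if B (bv 3 1) (bv 3 2) = 0 then 0 else cross f g := by
  have k : ∀ a b c (hi : Ind a b c) f g,
      comb a b c (B (tr (comb a b c) f) (tr (comb a b c) g)) = B f g := fun a b c hi f g =>
    (congrArg (mkA a b c hi).1 (h (mkA a b c hi)⁻¹ f g)).trans (by simp)
  have h0 : B (bv 3 1) (bv 3 2) = 0 ∨ B (bv 3 1) (bv 3 2) = bv 3 4 := by
    have a1 : comb _ _ _ (B (bv 3 1) (bv 3 2)) = _ :=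
      k (bv 3 5) (bv 3 2) (bv 3 4) (by decide) (bv 3 1) (bv 3 2)
    have a2 : comb _ _ _ (B (bv 3 1) (bv 3 2)) = _ :=
      k (bv 3 1) (bv 3 6) (bv 3 4) (by decide) (bv 3 1) (bv 3 2)
    revert a1 a2
    generalize B (bv 3 1) (bv 3 2) = z
    revert z; decide
  refine ⟨h0, biadd_eq B (fun f => ?_) (fun f => ?_) (fun f g => ?_) fun f g h1 h2 h3 => ?_⟩
  · split_ifs
    exacts [rfl, by revert f; decide]
  · split_ifs
    exacts [rfl, by revert f; decide]
  · split_ifs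
    exacts [rfl, by revert f g; decide]
  · obtain ⟨a, b, c, e1, e2, e3, hi⟩ := (by decide +kernel : ∀ f g : Z3, f ≠ 0 → g ≠ 0 → f ≠ g →
      ∃ a b c, tr (comb a b c) f = bv 3 1 ∧ tr (comb a b c) g = bv 3 2 ∧
        comb a b c (bv 3 4) = cross f g ∧ Ind a b c) f g h1 h2 h3
    rw [← k a b c hi f g, e1, e2]
    rcases h0 with h0 | h0
    · rw [if_pos h0, h0]
      exact g3_zero (mkA a b c hi)
    · rw [h0, if_neg (by decide), e3]

/-- The base vector. -/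
abbrev u0 : N4 := bv 4 1

/-- An element of order four fixing the base vector. -/
def g4 : Perm (Fin 5) := swap 1 3 * swap 3 2 * swap 2 4

theorem rho_g4 : rho g4 u0 = u0 := by decide +kernel

theorem g4_cube : ∀ u : N4, u + rho g4 u + rho g4 (u + rho g4 u) +
    rho g4 (u + rho g4 u + rho g4 (u + rho g4 u)) = bif beta u0 u then u0 else 0 := by
  decide +kernel

theorem g4_range : ∀ u : N4, beta u0 u = false → ∃ a, u = rho g4 a + a := by decide +kernel

theorem rho_trans : ∀ u : N4, u ≠ 0 → ∃ s, rho s u0 = u := by decide +kernel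

theorem rho_ne : ∀ s, rho s u0 ≠ 0 := by decide +kernel

theorem stab_pow : ∀ s : Perm (Fin 5), rho s u0 = u0 → s ^ 4 = 1 := by decide +kernel

theorem exists_three : ∀ u u' : N4, u = 0 ∨ u' = 0 ∨ u = u' ∨
    ∃ s : Perm (Fin 5), rho s u = u' ∧ rho s u' = u + u' ∧ s ^ 3 = 1 ∧ s ≠ 1 := by decide +kernel

theorem dual_basis : ∀ j : Fin 4, ∃ s, ∀ i : Fin 4,
    beta u0 (rho s (bv 4 (2 ^ i.1))) = decide (i = j) := by decide +kernel

/-- The map of rank one. -/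
def one (u : N4) (f : Z3) : M12 := (bif f.v.testBit 0 then u else 0, bif f.v.testBit 1 then u else 0,
  bif f.v.testBit 2 then u else 0)

theorem ev_one' : ∀ u f ζ, ev (one u f) ζ = bif dot f ζ then u else 0 := by decide +kernel

end Cfsg.Lib.J4T.PA
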