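import Cfsg.Agent.J4T.PA1

/-! Identification of the `S₅ × L₃(2)`-module of order `2 ^ 12`. -/

set_option autoImplicit false
set_option maxRecDepth 100000

namespace Cfsg.Lib.J4T.PA

open Subgroup Equiv

/-- The acting group. -/
abbrev Γ : Type := Perm (Fin 5) × G3

variable {V : Type*} [AddCommGroup V] [DistribMulAction Γ V]

@[simp] theorem one_one (v : V) : ((1, 1) : Γ) • v = v := one_smul Γ v

/-- The hypotheses on the module. -/
structure Hy (V : Type*) [AddCommGroup V] [DistribMulAction Γ V] : Prop where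
  two : ∀ v : V, v + v = 0
  card : Nat.card V = 2 ^ 12
  h3 : ∀ s : Perm (Fin 5), s ^ 3 = 1 → s ≠ 1 → ∀ v : V, ((s, 1) : Γ) • v = v → v = 0
  h7 : ∀ A : G3, A ^ 7 = 1 → A ≠ 1 → ∀ v : V, ((1, A) : Γ) • v = v → v = 0

/-- The vectors fixed by the stabiliser of the base vector and by `E`. -/
def Fx (V : Type*) [AddCommGroup V] [DistribMulAction Γ V] (E : Set G3) : AddSubgroup V where
  carrier := {v | ∀ s, rho s u0 = u0 → ∀ A ∈ E, ((s, A) : Γ) • v = v}
  zero_mem' _ _ _ _ := smul_zero _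
  add_mem' ha hb s hs A hA := by rw [smul_add, ha s hs A hA, hb s hs A hA]
  neg_mem' ha s hs A hA := by rw [smul_neg, ha s hs A hA]

theorem Fx_mono {E E' : Set G3} (h : E ⊆ E') : Fx V E' ≤ Fx V E :=
  fun _ hv s hs A hA => hv s hs A (h hA)

theorem smul_mem_Fx {E : Set G3} {B : G3} (h : ∀ A ∈ E, B⁻¹ * A * B ∈ E) {v : V} (hv : v ∈ Fx V E) :
    ((1, B) : Γ) • v ∈ Fx V E := fun s hs A hA => by
  conv_rhs => rw [← hv s hs _ (h A hA)]
  simp only [smul_smul, Prod.mk_mul_mk, one_mul, mul_one, ← mul_assoc, mul_inv_cancel]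

theorem smul_mem_W (B : G3) {v : V} (hv : v ∈ Fx V {1}) : ((1, B) : Γ) • v ∈ Fx V {1} :=
  smul_mem_Fx (by simp) hv

open Classical in
/-- The tensor of a vector of `N4` and a fixed vector. -/
noncomputable def Θ (u : N4) : V →+ V :=
  if h : ∃ s, rho s u0 = u then DistribSMul.toAddMonoidHom V ((h.choose, 1) : Γ) else 0

theorem Θ_zero (w : V) : Θ 0 w = 0 := by rw [Θ, dif_neg fun ⟨s, h⟩ => rho_ne s h]; rfl

theorem Θ_rho (s : Perm (Fin 5)) {w : V} (hw : w ∈ Fx V {1}) :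
    Θ (rho s u0) w = ((s, 1) : Γ) • w := by
  have h : ∃ t, rho t u0 = rho s u0 := ⟨s, rfl⟩
  rw [Θ, dif_pos h]
  have := hw (s⁻¹ * h.choose) (by rw [rho_mul, h.choose_spec, ← rho_mul, inv_mul_cancel, rho_one])
    1 rfl
  conv_rhs => rw [← this]
  simp [smul_smul]

theorem Θ_u0 {w : V} (hw : w ∈ Fx V {1}) : Θ u0 w = w := by
  simpa [rho_one] using Θ_rho 1 hw

theorem smul_Θ (s : Perm (Fin 5)) (A : G3) (u : N4) {w : V} (hw : w ∈ Fx V {1}) :
    ((s, A) : Γ) • Θ u w = Θ (rho s u) (((1, A) : Γ) • w) := by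
  by_cases h : u = 0
  · rw [h, rho_zero, Θ_zero, Θ_zero, smul_zero]
  obtain ⟨t, rfl⟩ := rho_trans u h
  rw [← rho_mul, Θ_rho _ hw, Θ_rho _ (smul_mem_W A hw)]
  simp [smul_smul]

theorem smul_Θ' (s : Perm (Fin 5)) (u : N4) {w : V} (hw : w ∈ Fx V {1}) :
    ((s, 1) : Γ) • Θ u w = Θ (rho s u) w := by
  rw [smul_Θ s 1 u hw, Prod.mk_one_one, one_smul]

/-- The map `1 + g`. -/
def e1 (V : Type*) [AddCommGroup V] [DistribMulAction Γ V] : V →+ V :=
  AddMonoidHom.id V + DistribSMul.toAddMonoidHom V ((g4, 1) : Γ)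

/-- The map `(1 + g) ^ 3 s`. -/
def pr (V : Type*) [AddCommGroup V] [DistribMulAction Γ V] (s : Perm (Fin 5)) : V →+ V :=
  (e1 V).comp ((e1 V).comp ((e1 V).comp (DistribSMul.toAddMonoidHom V ((s, 1) : Γ))))

namespace Hy

variable (h : Hy V)
include h

theorem finite : Finite V := Nat.finite_of_card_ne_zero (by rw [h.card]; norm_num)

theorem eq_of_add {a b : V} (e : a + b = 0) : a = b :=
  add_right_cancel (e.trans (h.two b).symm)

theorem three {s : Perm (Fin 5)} (h1 : s ^ 3 = 1) (h2 : s ≠ 1) (v : V) :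
    v + ((s, 1) : Γ) • v + ((s, 1) : Γ) • ((s, 1) : Γ) • v = 0 := h.h3 s h1 h2 _ (by
  have : ((s, 1) : Γ) • ((s, 1) : Γ) • ((s, 1) : Γ) • v = v := by
    simp only [smul_smul, Prod.mk_mul_mk, mul_one, ← pow_three, h1, Prod.mk_one_one, one_smul]
  rw [smul_add, smul_add, this]
  abel)

theorem Θ_add (u u' : N4) {w : V} (hw : w ∈ Fx V {1}) : Θ (u + u') w = Θ u w + Θ u' w := by
  rcases exists_three u u' with rfl | rfl | rfl | ⟨s, h1, h2, h3, h4⟩
  · rw [zero_add, Θ_zero, zero_add]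
  · rw [add_zero, Θ_zero, add_zero]
  · rw [Bits.add_self, Θ_zero, h.two]
  · have := h.three h3 h4 (Θ u w)
    rw [smul_Θ' s u hw, smul_Θ' s _ hw, h1, h2] at this
    exact (h.eq_of_add this).symm

theorem pr_Θ (s : Perm (Fin 5)) (u : N4) {w : V} (hw : w ∈ Fx V {1}) :
    pr V s (Θ u w) = bif beta u0 (rho s u) then w else 0 := by
  have k : ∀ u, e1 V (Θ u w) = Θ (u + rho g4 u) w := fun u => by
    rw [h.Θ_add _ _ hw, ← smul_Θ' _ _ hw]; rfl
  change e1 V (e1 V (e1 V (((s, 1) : Γ) • Θ u w))) = _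
  rw [smul_Θ' s u hw, k, k, k, g4_cube]
  cases beta u0 (rho s u)
  exacts [Θ_zero w, Θ_u0 hw]

theorem T_inj : Function.Injective fun w : Fin 4 → Fx V {1} => ∑ i, Θ (bv 4 (2 ^ i.1)) (w i).1 := by
  have k : ∀ j, ∃ s, ∀ w : Fin 4 → Fx V {1}, pr V s (∑ i, Θ (bv 4 (2 ^ i.1)) (w i).1) = w j :=
    fun j => by
      obtain ⟨s, hs⟩ := dual_basis j
      exact ⟨s, fun w => by simp [map_sum, h.pr_Θ s _ (w _).2, hs, Bool.cond_decide]⟩
  intro w w' e
  funext j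
  obtain ⟨s, hs⟩ := k j
  exact Subtype.ext (by rw [← hs w, ← hs w']; exact congrArg _ e)

theorem exists_ne {E : Subgroup G3} (hE : ∀ A ∈ E, A ^ 4 = 1) : ∃ v ∈ Fx V E, v ≠ 0 := by
  have := h.finite
  let H : Subgroup Γ :=
    { carrier := {g | rho g.1 u0 = u0 ∧ g.2 ∈ E}
      one_mem' := ⟨rho_one _, one_mem E⟩
      mul_mem' := fun ha hb => ⟨by rw [Prod.fst_mul, rho_mul, hb.1, ha.1], mul_mem ha.2 hb.2⟩
      inv_mem' := fun {a} ha => ⟨by
        conv_lhs => rw [← ha.1, ← rho_mul, Prod.fst_inv, inv_mul_cancel, rho_one], inv_mem ha.2⟩ }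
  have h1 : IsPGroup 2 H := fun g =>
    ⟨2, Subtype.ext (Prod.ext (stab_pow _ g.2.1) (hE _ g.2.2))⟩
  obtain ⟨v, h2, h3⟩ := h1.exists_fixed_point_of_prime_dvd_card_of_fixed_point (α := V)
    (by rw [h.card]; norm_num) (a := 0) fun g => smul_zero g
  exact ⟨v, fun s hs A hA => h2 ⟨(s, A), hs, hA⟩, h3.symm⟩

theorem card_mod {U : AddSubgroup V} (hU : ∀ v ∈ U, ((1, t1 * (tau * t3)) : Γ) • v ∈ U) :
    Nat.card U % 7 = 1 := by
  classical
  have := h.finite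
  have := Fintype.ofFinite U
  have : Fact (Nat.Prime 7) := ⟨by norm_num⟩
  let f : Function.End U := fun v => ⟨_, hU v.1 v.2⟩
  have h1 : ∀ n v, ((f ^ n) v).1 = ((1, (t1 * (tau * t3)) ^ n) : Γ) • v.1 := fun n v => by
    induction n with
    | zero => exact (one_one _).symm
    | succ n ih =>
      rw [pow_succ', pow_succ']
      change ((1, t1 * (tau * t3)) : Γ) • ((f ^ n) v).1 = _
      rw [ih, smul_smul, Prod.mk_mul_mk, one_mul]
  have h2 := Perm.card_fixedPoints_modEq (f := f) (p := 7) (n := 1) (funext fun v =>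
    Subtype.ext (by rw [h1, pow_one, y_seven, Prod.mk_one_one, one_smul]; rfl))
  have h3 : Fintype.card (Function.fixedPoints f) = 1 :=
    Fintype.card_eq_one_iff.2 ⟨⟨(0 : U), Subtype.ext (smul_zero _)⟩,
      fun v => Subtype.ext (Subtype.ext (h.h7 _ y_seven y_ne _ (congrArg Subtype.val v.2)))⟩
  rw [Nat.card_eq_fintype_card]
  exact (h3 ▸ h2 : Fintype.card U ≡ 1 [MOD 7])

theorem one_lt_card {U : AddSubgroup V} {v : V} (hv : v ∈ U) (h0 : v ≠ 0) : 1 < Nat.card U := by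
  have := h.finite
  exact Finite.one_lt_card_iff_nontrivial.2 ⟨⟨v, hv⟩, 0, fun e => h0 (congrArg Subtype.val e)⟩

theorem card_W : Nat.card (Fx V {1}) = 8 := by
  have := h.finite
  have h1 := Nat.card_le_card_of_injective _ h.T_inj
  rw [Nat.card_fun, Nat.card_eq_fintype_card (α := Fin 4), Fintype.card_fin, h.card,
    show 2 ^ 12 = 8 ^ 4 by norm_num, Nat.pow_le_pow_iff_left (by norm_num)] at h1
  have h2 := h.card_mod (U := Fx V {1}) fun v => smul_mem_W _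
  obtain ⟨v, hv, h0⟩ := h.exists_ne (E := ⊥) (by simp)
  have := h.one_lt_card (U := Fx V {1}) hv h0
  omega

theorem induction {P : V → Prop} (h0 : P 0) (h1 : ∀ a b, P a → P b → P (a + b))
    (h2 : ∀ u, ∀ w ∈ Fx V {1}, P (Θ u w)) (v : V) : P v := by
  have := h.finite
  obtain ⟨w, rfl⟩ := ((Nat.bijective_iff_injective_and_card _).2 ⟨h.T_inj, by
    rw [Nat.card_fun, h.card_W, h.card]; simp⟩).2 v
  exact Finset.sum_induction _ P h1 h0 fun i _ => h2 _ _ (w i).2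

end Hy

/-- Transvections with centre the first vector. -/
def E1 : Subgroup G3 where
  carrier := {A | A.1 (bv 3 1) = bv 3 1 ∧ ∀ ζ, A.1 ζ = ζ ∨ A.1 ζ = ζ + bv 3 1}
  one_mem' := ⟨rfl, fun _ => .inl rfl⟩
  mul_mem' {A B} ha hb := ⟨by rw [coe_mul, Perm.mul_apply, hb.1, ha.1], fun ζ => by
    rw [coe_mul, Perm.mul_apply]
    rcases hb.2 ζ with e | e
    · rw [e]; exact ha.2 ζ
    · rw [e, A.2, ha.1]
      exact (ha.2 ζ).symm.imp (fun e => by rw [e, add_assoc, Bits.add_self, add_zero])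
        fun e => by rw [e]⟩
  inv_mem' {A} ha := ⟨Perm.inv_eq_iff_eq.2 ha.1.symm, fun ζ => (ha.2 ζ).imp
    (fun e => Perm.inv_eq_iff_eq.2 e.symm) fun e => Perm.inv_eq_iff_eq.2 (by
      rw [A.2, ha.1, e, add_assoc, Bits.add_self, add_zero])⟩

/-- Transvections with axis the first plane. -/
def E2 : Subgroup G3 where
  carrier := {A | ∀ ζ, dot (bv 3 4) ζ = false → A.1 ζ = ζ}
  one_mem' _ _ := rfl
  mul_mem' ha hb ζ e := by rw [coe_mul, Perm.mul_apply, hb ζ e, ha ζ e]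
  inv_mem' ha ζ e := Perm.inv_eq_iff_eq.2 (ha ζ e).symm

theorem E1_pow : ∀ A ∈ E1, A ^ 4 = 1 := fun A hA => by
  have : A * A = 1 := Subtype.ext (Equiv.ext fun ζ => by
    rw [coe_mul, Perm.mul_apply]
    rcases hA.2 ζ with e | e
    · rw [e, e]; rfl
    · rw [e, A.2, hA.1, e, add_assoc, Bits.add_self, add_zero]; rfl)
  rw [show 4 = 2 * 2 from rfl, pow_mul, sq A, this, one_pow]

theorem E2_pow : ∀ A ∈ E2, A ^ 4 = 1 := fun A hA => by
  have : A * A = 1 := Subtype.ext (Equiv.ext fun ζ => by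
    have h1 := ind_of_add A.2
    rw [coe_mul, Perm.mul_apply, eq_comb A.2, eq_comb A.2 ζ]
    rw [hA (bv 3 1) rfl, hA (bv 3 2) rfl] at h1 ⊢
    change _ = ζ
    revert h1 ζ
    generalize A.1 (bv 3 4) = c
    revert c; decide)
  rw [show 4 = 2 * 2 from rfl, pow_mul, sq A, this, one_pow]

theorem norm_E1 {B : G3} (h : B.1 (bv 3 1) = bv 3 1) : ∀ A ∈ E1, B⁻¹ * A * B ∈ E1 := fun A hA => by
  have h' : (B⁻¹).1 (bv 3 1) = bv 3 1 := Perm.inv_eq_iff_eq.2 h.symm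
  refine ⟨by rw [coe_mul, coe_mul, Perm.mul_apply, Perm.mul_apply, h, hA.1, h'], fun ζ => ?_⟩
  rw [coe_mul, coe_mul, Perm.mul_apply, Perm.mul_apply]
  exact (hA.2 _).imp (fun e => by rw [e]; simp) fun e => by rw [e, (B⁻¹).2, h']; simp

theorem norm_E2 {B : G3} (h : (dual B).1 (bv 3 4) = bv 3 4) : ∀ A ∈ E2, B⁻¹ * A * B ∈ E2 :=
  fun A hA ζ e => by
    rw [coe_mul, coe_mul, Perm.mul_apply, Perm.mul_apply, hA _ (by rw [← e, ← dot_dual B _ ζ, h])]
    simp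

theorem dual_y : (dual (tau * t3)).1 (bv 3 4) = bv 3 4 := dot_ext _ _ fun ζ => by
  obtain ⟨ζ, rfl⟩ := (tau * t3).1.surjective ζ
  rw [dot_dual]
  change _ = dot _ (comb _ _ _ (comb _ _ _ ζ))
  revert ζ; decide

namespace Hy

variable (h : Hy V)
include h

theorem fix_of_two {U : AddSubgroup V} (hU : Nat.card U = 2) {v : V} (hv : v ∈ U) (h0 : v ≠ 0)
    {g : Γ} (hg : g • v ∈ U) : g • v = v := by
  obtain ⟨y, -, hy⟩ := (Nat.card_eq_two_iff' (0 : U)).1 hU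
  exact congrArg Subtype.val ((hy ⟨_, hg⟩ fun e => h0 ((smul_eq_zero_iff_eq g).1
    (congrArg Subtype.val e))).trans (hy ⟨v, hv⟩ fun e => h0 (congrArg Subtype.val e)).symm)

theorem exists_v : ∃ v ∈ Fx V {1}, v ≠ 0 ∧
    ((∀ A : G3, A.1 (bv 3 1) = bv 3 1 → ((1, A) : Γ) • v = v) ∨
      ∀ A : G3, (dual A).1 (bv 3 4) = bv 3 4 → ((1, A) : Γ) • v = v) := by
  have := h.finite
  obtain ⟨v1, a1, a2⟩ := h.exists_ne E1_pow
  obtain ⟨v2, b1, b2⟩ := h.exists_ne E2_pow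
  have c0 : Fx V {1, tau} ≤ Fx V {1} := Fx_mono (by simp)
  have c1 : Fx V E1 ≤ Fx V {1, tau} := Fx_mono (by
    rintro _ (rfl | rfl)
    · exact E1.one_mem
    · exact ⟨rfl, by simp only [tau, mkA_apply]; decide⟩)
  have c2 : Fx V E2 ≤ Fx V {1, tau} := Fx_mono (by
    rintro _ (rfl | rfl)
    · exact E2.one_mem
    · exact show ∀ ζ, _ → tau.1 ζ = ζ by simp only [tau, mkA_apply]; decide)
  have d0 : Nat.card (Fx V {1, tau}) ∣ 8 := h.card_W ▸ AddSubgroup.card_dvd_of_le c0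
  have d1 := AddSubgroup.card_dvd_of_le c1
  have d2 := AddSubgroup.card_dvd_of_le c2
  have l1 := h.one_lt_card a1 a2
  have l2 := h.one_lt_card b1 b2
  have n0 : Nat.card (Fx V {1, tau}) ≠ 8 := fun e => by
    have e' := AddSubgroup.eq_of_le_of_card_ge c0 (by rw [e, h.card_W])
    have k : ∀ t g : G3, t * g = g * tau → ∀ w ∈ Fx V {1}, ((1, t) : Γ) • w = w := fun t g e w hw => by
      have := (e'.ge (smul_mem_W g⁻¹ hw)) 1 (rho_one _) tau (by simp)
      rw [show t = g * tau * g⁻¹ from eq_mul_inv_of_mul_eq e, ← one_mul (1 : Perm (Fin 5)),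
        ← Prod.mk_mul_mk, mul_smul, ← one_mul (1 : Perm (Fin 5)), ← Prod.mk_mul_mk, mul_smul,
        one_mul, this]
      simp [smul_smul]
    obtain ⟨g1, e1⟩ := conj_t1
    obtain ⟨g3, e3⟩ := conj_t3
    have hv := c0 (c1 a1)
    refine a2 (h.h7 _ y_seven y_ne _ ?_)
    rw [← one_mul (1 : Perm (Fin 5)), ← Prod.mk_mul_mk, mul_smul, ← one_mul (1 : Perm (Fin 5)),
      ← Prod.mk_mul_mk, mul_smul, one_mul, k _ _ e3 _ hv, k tau 1 (by simp) _ hv, k _ _ e1 _ hv]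
  have n1 : Fx V E1 ≠ Fx V E2 := fun e => by
    have := h.card_mod (U := Fx V E1) fun v hv => by
      rw [← one_mul (1 : Perm (Fin 5)), ← Prod.mk_mul_mk, mul_smul]
      exact smul_mem_Fx (norm_E1 rfl) (e.ge (smul_mem_Fx (norm_E2 dual_y) (e.le hv)))
    have := Nat.le_of_dvd Nat.card_pos d1
    have := Nat.le_of_dvd (by norm_num) d0
    omega
  have h4 : Nat.card (Fx V {1, tau}) ≤ 4 := by
    have := Nat.le_of_dvd (by norm_num) d0
    generalize Nat.card (Fx V {1, tau}) = n at *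
    interval_cases n <;> simp_all
  have k : ∀ n, n ∣ 8 → 1 < n → n < 4 → n = 2 := fun n h1 h2 h3 => by
    interval_cases n <;> simp_all
  by_cases e : Nat.card (Fx V E1) < 4
  · exact ⟨v1, c0 (c1 a1), a2, .inl fun A hA => h.fix_of_two (k _ (d1.trans d0) l1 e) a1 a2
      (smul_mem_Fx (norm_E1 hA) a1)⟩
  refine ⟨v2, c0 (c2 b1), b2, .inr fun A hA => h.fix_of_two (k _ (d2.trans d0) l2 ?_) b1 b2
    (smul_mem_Fx (norm_E2 hA) b1)⟩
  by_contra e'
  exact n1 ((AddSubgroup.eq_of_le_of_card_ge c1 (by omega)).trans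
    (AddSubgroup.eq_of_le_of_card_ge c2 (by omega)).symm)

theorem exists_theta {m : G3 →* G3} (hm : Function.Surjective m) {f0 : Z3} (hf : f0 ≠ 0) {v : V}
    (hv : v ∈ Fx V {1}) (h0 : v ≠ 0) (hs : ∀ A, (m A).1 f0 = f0 → ((1, A) : Γ) • v = v) :
    ∃ θ : Z3 →+ V, (∀ f, θ f ∈ Fx V {1}) ∧ (∀ w ∈ Fx V {1}, ∃ f, θ f = w) ∧
      ∀ A f, θ ((m A).1 f) = ((1, A) : Γ) • θ f := by
  classical
  have := h.finite
  have hi := Finite.injective_iff_surjective.2 hm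
  have k0 : ∀ {f f' : Z3}, f ≠ 0 → f' ≠ 0 → ∃ A, A ^ 7 = 1 ∧ (m A).1 f = f' := fun h1 h2 => by
    obtain ⟨A, a1, a2⟩ := exists_seven h1 h2
    obtain ⟨A, rfl⟩ := hm A
    exact ⟨A, hi (by rw [map_pow, a1, map_one]), a2⟩
  let θ : Z3 → V := fun f => if h : ∃ A, (m A).1 f0 = f then ((1, h.choose) : Γ) • v else 0
  have k1 : ∀ A, θ ((m A).1 f0) = ((1, A) : Γ) • v := fun A => by
    have h1 : ∃ B, (m B).1 f0 = (m A).1 f0 := ⟨A, rfl⟩
    have := hs (A⁻¹ * h1.choose) (by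
      rw [map_mul, coe_mul, Perm.mul_apply, h1.choose_spec, map_inv]; simp)
    simp only [θ, dif_pos h1]
    conv_rhs => rw [← this]
    simp [smul_smul]
  have k2 : θ 0 = 0 := dif_neg fun ⟨A, e⟩ => hf ((m A).1.injective (e.trans (g3_zero _).symm))
  have k3 : ∀ A f, θ ((m A).1 f) = ((1, A) : Γ) • θ f := fun A f => by
    by_cases e : f = 0
    · rw [e, g3_zero, k2, smul_zero]
    obtain ⟨B, -, rfl⟩ := k0 hf e
    rw [← Perm.mul_apply, ← coe_mul, ← map_mul, k1, k1, smul_smul, Prod.mk_mul_mk, one_mul]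
  have k4 : ∀ f, θ f = 0 → f = 0 := fun f e => by
    by_contra e'
    obtain ⟨B, -, rfl⟩ := k0 hf e'
    exact h0 ((smul_eq_zero_iff_eq _).1 ((k1 B).symm.trans e))
  have k5 : Function.Injective θ := fun f f' e => by
    by_cases e1 : f = 0
    · rw [e1, k4 f' (by rw [← e, e1, k2])]
    by_cases e2 : f' = 0
    · rw [e2, k4 f (by rw [e, e2, k2])]
    obtain ⟨A, a1, rfl⟩ := k0 e1 e2
    by_contra e3
    exact e1 (k4 f (h.h7 A a1 (by rintro rfl; simp at e3) _ ((k3 A f).symm.trans e.symm)))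
  have k6 : ∀ f, θ f ∈ Fx V {1} := fun f => by
    by_cases e : f = 0
    · rw [e, k2]; exact zero_mem _
    obtain ⟨B, -, rfl⟩ := k0 hf e
    exact k1 B ▸ smul_mem_W B hv
  have k7 : ∀ w ∈ Fx V {1}, ∃ f, θ f = w := fun w hw => by
    obtain ⟨f, e⟩ := ((Nat.bijective_iff_injective_and_card
      (fun f => (⟨θ f, k6 f⟩ : Fx V {1}))).2 ⟨fun f f' e => k5 (congrArg Subtype.val e), by
        rw [h.card_W, card_bits]; rfl⟩).2 ⟨w, hw⟩
    exact ⟨f, congrArg Subtype.val e⟩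
  refine ⟨AddMonoidHom.mk' θ fun f f' => ?_, k6, k7, k3⟩
  obtain ⟨ξ, e⟩ := k7 _ (add_mem (k6 f) (k6 f'))
  rcases span_of_fix (f := f) (f' := f') (ξ := ξ) fun A a1 a2 => by
    obtain ⟨A, rfl⟩ := hm A
    exact k5 (by rw [k3, e, smul_add, ← k3, ← k3, a1, a2]) with rfl | rfl | rfl | rfl
  · exact e
  · rw [k5 (h.eq_of_add (e.symm.trans k2)), Bits.add_self, k2, h.two]
  · rw [k4 f' (by simpa using e), add_zero, k2, add_zero]
  · rw [k4 f (by simpa using e), zero_add, k2, zero_add]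

theorem main (c : V →+ V →+ Z3) (hc : ∀ (g : Γ) v w, c (g • v) (g • w) = g.2.1 (c v w))
    (hc0 : ∃ v w, c v w ≠ 0) (q : V → Z3) (hq : ∀ v w, q (v + w) = q v + q w + c v w)
    (hq' : ∀ (s : Perm (Fin 5)) v, q (((s, 1) : Γ) • v) = q v) :
    ∃ Φ : V ≃+ M12, (∀ (g : Γ) v ζ, ev (Φ (g • v)) (g.2.1 ζ) = rho g.1 (ev (Φ v) ζ)) ∧
      (∀ v w, c v w = br (Φ v) (Φ w)) ∧ ∀ v, q v = sqm (Φ v) := by
  have := h.finite
  have z0 : (∀ u u', ∀ w ∈ Fx V {1}, ∀ w' ∈ Fx V {1}, c (Θ u w) (Θ u' w') = 0) → False := fun k => by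
    obtain ⟨v, w, e⟩ := hc0
    refine e (h.induction (P := fun v => c v w = 0) (by simp) (fun a b ha hb => by simp [ha, hb])
      (fun u x hx => h.induction (P := fun w => c (Θ u x) w = 0) (by simp)
        (fun a b ha hb => by simp [ha, hb]) (fun u' => k u u' x hx) w) v)
  have eq : ∀ {m : G3 →* G3} {θ : Z3 →+ V}, (∀ f, θ f ∈ Fx V {1}) →
      (∀ A f, θ ((m A).1 f) = ((1, A) : Γ) • θ f) → ∀ s A u f,
      ((s, A) : Γ) • Θ u (θ f) = Θ (rho s u) (θ ((m A).1 f)) := fun t1 t3 s A u f => by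
    rw [smul_Θ s A u (t1 f), t3]
  let B : (Z3 →+ V) → N4 → N4 → Z3 →+ Z3 →+ Z3 := fun θ u u' =>
    (c.comp ((Θ u).comp θ)).compl₂ ((Θ u').comp θ)
  obtain ⟨v, hv, h0, hs | hs⟩ := h.exists_v
  · obtain ⟨θ, t1, t2, t3⟩ := h.exists_theta (m := MonoidHom.id _) Function.surjective_id
      (by decide) hv h0 hs
    refine (z0 fun u u' w hw w' hw' => ?_).elim
    obtain ⟨f, rfl⟩ := t2 w hw
    obtain ⟨f', rfl⟩ := t2 w' hw'
    refine nat_zero (B θ u u') (fun A f g => ?_) f f'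
    have := hc (1, A) (Θ u (θ f)) (Θ u' (θ g))
    simp only [eq t1 t3, rho_one] at this
    exact this
  obtain ⟨θ, t1, t2, t3⟩ := h.exists_theta dual_surj (by decide) hv h0 hs
  have e1 := eq t1 t3
  have b1 := fun u u' => dual_form (B θ u u') fun A f g => by
    have := hc (1, A) (Θ u (θ f)) (Θ u' (θ g))
    simp only [e1, rho_one] at this
    exact this
  have b2 : ∀ s u u', B θ (rho s u) (rho s u') (bv 3 1) (bv 3 2) = B θ u u' (bv 3 1) (bv 3 2) :=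
    fun s u u' => by
      have := hc (s, 1) (Θ u (θ (bv 3 1))) (Θ u' (θ (bv 3 2)))
      simp only [e1, map_one] at this
      exact this
  have b3 : ∀ u a b, B θ u (a + b) (bv 3 1) (bv 3 2) =
      B θ u a (bv 3 1) (bv 3 2) + B θ u b (bv 3 1) (bv 3 2) := fun u a b => by
    change c _ (Θ (a + b) _) = _
    rw [h.Θ_add _ _ (t1 _), map_add]; rfl
  have b4 : ∀ u, beta u0 u = false → B θ u0 u (bv 3 1) (bv 3 2) = 0 := fun u hu => by
    obtain ⟨a, rfl⟩ := g4_range u hu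
    rw [b3, ← b2 g4 u0 a, rho_g4, Bits.add_self]
  have b5 : ∀ u u', B θ u u' (bv 3 1) (bv 3 2) =
      bif beta u u' then B θ u0 (bv 4 8) (bv 3 1) (bv 3 2) else 0 := fun u u' => by
    by_cases e : u = 0
    · rw [e, beta_zero]
      change c (Θ 0 (θ (bv 3 1))) (Θ u' (θ (bv 3 2))) = _
      simp [Θ_zero]
    obtain ⟨s, rfl⟩ := rho_trans u e
    obtain ⟨u', rfl⟩ : ∃ x, rho s x = u' := ⟨rho s⁻¹ u', by rw [← rho_mul, mul_inv_cancel, rho_one]⟩
    rw [b2, beta_rho]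
    cases e' : beta u0 u'
    · exact b4 _ e'
    · rw [← add_zero u', ← Bits.add_self (bv 4 8), ← add_assoc, b3, b4 _ (by
        rw [beta_add', e']; decide), zero_add]; rfl
  have b6 : ∀ u u' f f', c (Θ u (θ f)) (Θ u' (θ f')) = bif beta u u' then cross f f' else 0 := by
    have k := (b1 u0 (bv 4 8)).1.resolve_left fun e => z0 fun u u' w hw w' hw' => by
      obtain ⟨f, rfl⟩ := t2 w hw
      obtain ⟨f', rfl⟩ := t2 w' hw'
      exact ((b1 u u').2 f f').trans (if_pos (by rw [b5, e]; simp))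
    intro u u' f f'
    refine ((b1 u u').2 f f').trans ?_
    rw [b5, k]
    cases beta u u'
    exacts [if_pos rfl, if_neg (by decide)]
  let Ψ : M12 →+ V := AddMonoidHom.mk'
    (fun f => Θ f.1 (θ (bv 3 1)) + Θ f.2.1 (θ (bv 3 2)) + Θ f.2.2 (θ (bv 3 4))) fun f g => by
      simp only [Prod.fst_add, Prod.snd_add, h.Θ_add _ _ (t1 _)]
      abel
  have p1 : ∀ u f, Ψ (one u f) = Θ u (θ f) := fun u f => by
    rw [show Θ u (θ f) = _ from eq_comb ((Θ u).comp θ).map_add f]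
    simp only [Ψ, one, comb, AddMonoidHom.mk'_apply]
    cases f.v.testBit 0 <;> cases f.v.testBit 1 <;> cases f.v.testBit 2 <;> simp [Θ_zero]
  have p2 : Function.Bijective Ψ := (Nat.bijective_iff_surjective_and_card _).2
    ⟨h.induction ⟨0, map_zero _⟩ (fun _ _ ⟨a, ha⟩ ⟨b, hb⟩ => ⟨a + b, by rw [map_add, ha, hb]⟩)
      fun u w hw => by
        obtain ⟨f, rfl⟩ := t2 w hw
        exact ⟨_, p1 u f⟩, by rw [Nat.card_prod, Nat.card_prod, card_bits, h.card]; norm_num⟩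
  let Φ := (AddEquiv.ofBijective Ψ p2).symm
  have p3 : ∀ u f, Φ (Θ u (θ f)) = one u f := fun u f => (AddEquiv.symm_apply_eq _).2 (p1 u f).symm
  have p4 : ∀ (g : Γ) v ζ, ev (Φ (g • v)) (g.2.1 ζ) = rho g.1 (ev (Φ v) ζ) := fun g v ζ => by
    have e0 : ∀ ζ, ev 0 ζ = 0 := by decide
    refine h.induction (P := fun v => ev (Φ (g • v)) (g.2.1 ζ) = rho g.1 (ev (Φ v) ζ))
      (by simp only [smul_zero, map_zero, e0, rho_zero])
      (fun a b ha hb => by simp only [smul_add, map_add, add_ev, rho_add, ha, hb])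
      (fun u w hw => ?_) v
    obtain ⟨f, rfl⟩ := t2 w hw
    simp only [e1 g.1 g.2, p3, ev_one', dot_dual]
    cases dot f ζ
    exacts [(rho_zero _).symm, rfl]
  have p5 : ∀ v w, c v w = br (Φ v) (Φ w) := fun v w => by
    obtain ⟨f, rfl⟩ := p2.2 v
    obtain ⟨g, rfl⟩ := p2.2 w
    rw [show Φ (Ψ f) = f from AddEquiv.symm_apply_apply _ f,
      show Φ (Ψ g) = g from AddEquiv.symm_apply_apply _ g]
    simp only [Ψ, AddMonoidHom.mk'_apply, map_add, AddMonoidHom.add_apply, b6, br]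
    generalize beta f.1 g.1 = a1, beta f.1 g.2.1 = a2, beta f.1 g.2.2 = a3, beta f.2.1 g.1 = a4,
      beta f.2.1 g.2.1 = a5, beta f.2.1 g.2.2 = a6, beta f.2.2 g.1 = a7, beta f.2.2 g.2.1 = a8,
      beta f.2.2 g.2.2 = a9
    revert a1 a2 a3 a4 a5 a6 a7 a8 a9
    decide +kernel
  refine ⟨Φ, p4, p5, fun v => ?_⟩
  have d1 : ∀ a b, q (a + b) + sqm (Φ (a + b)) = q a + sqm (Φ a) + (q b + sqm (Φ b)) := fun a b => by
    have : ∀ f g : M12, sqm (f + g) = sqm f + sqm g + br f g := fun f g => by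
      simp only [sqm, br, Prod.fst_add, Prod.snd_add, beta_add, beta_add', mk3_add,
        beta_comm f.2.2 g.2.1, beta_comm f.2.2 g.1, beta_comm f.2.1 g.1]
      congr 1 <;> simp only [Bool.xor_assoc, Bool.xor_comm, Bool.xor_left_comm]
    rw [hq, map_add, this, p5]
    generalize br (Φ a) (Φ b) = z
    calc _ = q a + sqm (Φ a) + (q b + sqm (Φ b)) + (z + z) := by abel
      _ = _ := by rw [Bits.add_self, add_zero]
  have d2 : ∀ s a, q (((s, 1) : Γ) • a) + sqm (Φ (((s, 1) : Γ) • a)) = q a + sqm (Φ a) :=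
    fun s a => by
      have k := p4 (s, 1) a
      have k1 : _ = _ := (ev_one _).symm.trans (k (bv 3 1))
      have k2 : _ = _ := (ev_two _).symm.trans (k (bv 3 2))
      have k3 : _ = _ := (ev_four _).symm.trans (k (bv 3 4))
      rw [hq', sqm, k1, k2, k3, ev_one, ev_two, ev_four, beta_rho, beta_rho, beta_rho, sqm]
  have d3 := d1 0 0
  have d4 := congrArg (fun a => q a + sqm (Φ a))
    (h.three (s := swap 0 1 * swap 1 2) (by decide) (by decide) v)
  rw [add_zero, Bits.add_self] at d3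
  simp only [d1, d2, d3, Bits.add_self, zero_add] at d4
  exact add_eq_zero_iff_eq_neg.1 d4

end Hy

end Cfsg.Lib.J4T.PA
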