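import Cfsg.Agent.J4T.PA2
import Cfsg.Agent.Spor.LXSplit
import Cfsg.Agent.S0242
import Cfsg.Agent.Solv.FrattiniP
import Cfsg.Agent.Known.PSLAut

/-! Existence of coordinates for a group of shape `2^(3+12).(S₅ × L₃(2))`. -/

set_option autoImplicit false
set_option maxRecDepth 100000

namespace Cfsg.Lib.J4T

open Subgroup Equiv Function Cfsg.Lib.Solv Cfsg.Lib.Known

namespace PA

theorem fix_lift {P : Type*} [Group P] [Finite P] {p : ℕ} [Fact p.Prime]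
    (hp : ¬ p ∣ Nat.card (center P)) {σ : MulAut P} (h : σ ^ p = 1) {a : P}
    (ha : autQuot P σ a = a) : ∃ b, σ b = b ∧ (b : P ⧸ center P) = a := by
  classical
  have := Fintype.ofFinite P
  have h1 : ∀ b : P, ((MulAut.toPerm P σ b : P) : P ⧸ center P) = a ↔ (b : P ⧸ center P) = a :=
    fun b => by rw [← (autQuot P σ).injective.eq_iff (a := b), ha]; rfl
  obtain ⟨b, hb⟩ := Perm.exists_fixed_point_of_prime (p := p) (n := 1)
    (σ := (MulAut.toPerm P σ).subtypePerm (p := fun b : P => (b : P ⧸ center P) = a) h1) (by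
      rw [← QuotientGroup.ker_mk' (center P),
        ← Nat.card_congr ((QuotientGroup.mk' (center P)).fiberEquivKer a)] at hp
      rwa [← Nat.card_eq_fintype_card])
    (by simp only [pow_one, Perm.subtypePerm_pow, ← map_pow, h, map_one]; rfl)
  exact ⟨b, congrArg Subtype.val hb, b.2⟩

theorem core {H P : Type*} [Group H] [Group P] [Finite P] (φ : H →* MulAut P) (e : H →* Γ)
    (he : Surjective e) (hk : ∀ k, e k = 1 → ∃ a, φ k = MulAut.conj a) (hP : IsSpecial 2 P)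
    (hc : Nat.card P = 2 ^ 15) (hZ : Nat.card (center P) = 8) (ψ : P → Z3)
    (ψm : ∀ a ∈ center P, ∀ b ∈ center P, ψ (a * b) = ψ a + ψ b)
    (ψi : ∀ a ∈ center P, ψ a = 0 → a = 1)
    (ψc : ∀ k, ∀ a ∈ center P, ψ (φ k a) = (e k).2.1 (ψ a))
    (h3 : ∀ s, s ^ 3 = 1 → s ≠ 1 → ∃ x, e x = (s, 1) ∧ x ^ 3 = 1 ∧ ∀ a, φ x a = a → a ∈ center P)
    (h7 : ∀ A, A ^ 7 = 1 → A ≠ 1 → ∃ y, e y = (1, A) ∧ y ^ 7 = 1 ∧ ∀ a, φ y a = a → a ∈ center P) :
    ∃ Φ : P → M12, (∀ a b, Φ (a * b) = Φ a + Φ b) ∧ (∀ a, Φ a = 0 ↔ a ∈ center P) ∧ Surjective Φ ∧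
      (∀ k a ζ, ev (Φ (φ k a)) ((e k).2.1 ζ) = rho (e k).1 (ev (Φ a) ζ)) ∧
      (∀ a b, a * b * a⁻¹ * b⁻¹ ∈ center P ∧ ψ (a * b * a⁻¹ * b⁻¹) = br (Φ a) (Φ b)) ∧
      ∀ a, a * a ∈ center P ∧ ψ (a * a) = sqm (Φ a) := by
  have s1 : ∀ a : P, a * a ∈ center P := fun a => by
    rw [← sq, ← hP.2.1]; exact pow_mem_frattini hP.1 a
  have s2 : ∀ a b : P, a * b * a⁻¹ * b⁻¹ ∈ center P := fun a b =>
    hP.2.2 ▸ commutator_mem_commutator (mem_top a) (mem_top b)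
  have := (ElemAb.quotient_iff (p := 2) (center P)).2 ⟨hP.2.2.le, fun a => sq a ▸ s1 a⟩
  let V := Vec 2 (P ⧸ center P)
  let p : P → V := fun a => Vec.ofMul 2 (a : P ⧸ center P)
  have ps : Surjective p := QuotientGroup.mk_surjective
  let φ' : Γ →* MulAut (P ⧸ center P) := e.liftOfSurjective he ⟨(autQuot P).comp φ, fun k h => by
    obtain ⟨a, ha⟩ := hk k h
    rw [MonoidHom.mem_ker, MonoidHom.comp_apply, ha, autQuot_conj]
    ext x
    rw [MulAut.conj_apply, ElemAb.comm 2 (a : P ⧸ center P), mul_inv_cancel_right]; rfl⟩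
  letI : DistribMulAction Γ V := DistribMulAction.compHom V (Vec.rep 2 φ')
  have a1 : ∀ k a, e k • p a = p (φ k a) := fun k a =>
    congrArg (fun σ : MulAut (P ⧸ center P) => Vec.ofMul 2 (σ a))
      (show φ' (e k) = autQuot P (φ k) from e.liftOfRightInverse_comp_apply _ _ _ k)
  have a2 : ∀ (r : ℕ) [Fact r.Prime] (k : H), ¬ r ∣ 8 → k ^ r = 1 → (∀ a, φ k a = a → a ∈ center P) →
      ∀ v : V, e k • v = v → v = 0 := fun r _ k h1 h2 h3 => ps.forall.2 fun a h => by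
    obtain ⟨b, b1, b2⟩ := fix_lift (p := r) (hZ ▸ h1) (σ := φ k) (by rw [← map_pow, h2, map_one])
      ((a1 k a).symm.trans h)
    exact b2.symm.trans ((QuotientGroup.eq_one_iff b).2 (h3 b b1))
  have hy : Hy V := ⟨fun v => by
      rw [← two_smul (ZMod 2), show (2 : ZMod 2) = 0 from rfl, zero_smul], by
      have := card_eq_card_quotient_mul_card_subgroup (center P)
      rw [hc, hZ] at this
      change Nat.card (P ⧸ center P) = _
      omega, fun s h1 h2 => by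
      obtain ⟨x, x1, x2, x3⟩ := h3 s h1 h2
      exact x1 ▸ a2 3 x (by norm_num) x2 x3, fun s h1 h2 => by
      obtain ⟨x, x1, x2, x3⟩ := h7 s h1 h2
      have : Fact (Nat.Prime 7) := ⟨by norm_num⟩
      exact x1 ▸ a2 7 x (by norm_num) x2 x3⟩
  let c0 : V → V → Z3 := fun v w => ψ ((Vec.toMul v).out * (Vec.toMul w).out *
    (Vec.toMul v).out⁻¹ * (Vec.toMul w).out⁻¹)
  have c1 : ∀ a b, c0 (p a) (p b) = ψ (a * b * a⁻¹ * b⁻¹) := fun a b => by
    obtain ⟨z, hz⟩ := QuotientGroup.mk_out_eq_mul (center P) a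
    obtain ⟨y, hy⟩ := QuotientGroup.mk_out_eq_mul (center P) b
    simp only [c0, p, Vec.toMul_ofMul, hz, hy]
    rw [mul_assoc a z, ← mem_center_iff.1 z.2, mul_inv_rev a, mul_assoc a, mul_assoc (_ * _) z.1,
      mul_inv_cancel_left, mul_assoc b, ← mem_center_iff.1 y.2]
    congr 1; group
  let c : V →+ V →+ Z3 := AddMonoidHom.mk' (fun v => AddMonoidHom.mk' (c0 v) (by
    obtain ⟨a, rfl⟩ := ps v
    refine ps.forall₂.2 fun b b' => (c1 a (b * b')).trans ?_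
    rw [c1, c1, ← ψm _ (s2 _ _) _ (s2 _ _), ← mul_inv_cancel_right (a * b' * a⁻¹ * b'⁻¹) b,
      ← mem_center_iff.1 (s2 a b') b]
    congr 1; group)) (ps.forall₂.2 fun a a' => AddMonoidHom.ext (ps.forall.2 fun b =>
      (c1 (a * a') b).trans (by
        change _ = c0 _ _ + c0 _ _
        rw [c1, c1, add_comm, ← ψm _ (s2 _ _) _ (s2 _ _),
          ← mul_inv_cancel_right (a' * b * a'⁻¹ * b⁻¹) a, ← mem_center_iff.1 (s2 a' b) a]
        congr 1; group)))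
  have c2 : ∀ a b, c (p a) (p b) = ψ (a * b * a⁻¹ * b⁻¹) := c1
  let q : V → Z3 := fun v => ψ ((Vec.toMul v).out * (Vec.toMul v).out)
  have q1 : ∀ a, q (p a) = ψ (a * a) := fun a => by
    obtain ⟨z, hz⟩ := QuotientGroup.mk_out_eq_mul (center P) a
    simp only [q, p, Vec.toMul_ofMul, hz]
    rw [mul_assoc a z, ← mem_center_iff.1 z.2, mul_assoc a z, ← mul_assoc, ψm _ (s1 a) _ (s1 _),
      ψm _ z.2 _ z.2, Bits.add_self, add_zero]
  obtain ⟨Φ, f1, f2, f3⟩ := hy.main c (he.forall.2 fun k => ps.forall₂.2 fun a b => by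
      rw [a1, a1, c2, c2, ← ψc k _ (s2 a b)]; simp only [map_mul, map_inv])
    (by
      by_contra! h
      have : commutator P = ⊥ := eq_bot_iff.2 (commutator_le.2 fun a _ b _ =>
        ψi _ (s2 a b) ((c2 a b).symm.trans (h _ _)))
      rw [← hP.2.2, this] at hZ
      simp at hZ) q (ps.forall₂.2 fun a b => (q1 (a * b)).trans (by
        rw [q1, q1, c2, add_comm, ← ψm _ (s1 _) _ (s1 _), ← ψm _ (s2 _ _) _ (mul_mem (s1 _) (s1 _)),
          ← mul_assoc (a * a), ← mem_center_iff.1 (s1 a) b]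
        congr 1; group)) fun s => ps.forall.2 fun a => by
      obtain ⟨k, hk⟩ := he (s, 1)
      rw [← hk, a1, q1, q1, ← map_mul, ψc k _ (s1 a), hk]; rfl
  exact ⟨fun a => Φ (p a), fun a b => map_add Φ (p a) (p b),
    fun a => Φ.map_eq_zero_iff.trans (QuotientGroup.eq_one_iff a), Φ.surjective.comp ps,
    fun k a ζ => by simpa only [a1] using f1 (e k) (p a) ζ, fun a b => ⟨s2 a b, c2 a b ▸ f2 _ _⟩,
    fun a => ⟨s1 a, q1 a ▸ f3 _⟩⟩

variable {G : Type*} [Group G] [Finite G]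

theorem exists_psi {Z : Subgroup G} (h : IsElementaryAbelian 2 Z) (hc : Nat.card Z = 8) :
    ∃ (ψ : G → Z3) (κ : normalizer (Z : Set G) →* G3),
      (∀ a ∈ Z, ∀ b ∈ Z, ψ (a * b) = ψ a + ψ b) ∧ (∀ a ∈ Z, ∀ b ∈ Z, ψ a = ψ b → a = b) ∧
      (∀ ζ, ∃ a ∈ Z, ψ a = ζ) ∧ ∀ k : normalizer (Z : Set G), ∀ a ∈ Z,
        ψ (k * a * (k : G)⁻¹) = (κ k).1 (ψ a) := by
  classical
  have := ElemAb.of_isElementaryAbelian h
  letI : Module (ZMod 2) Z3 := AddCommGroup.zmodModule fun x => by rw [two_smul, Bits.add_self]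
  let e : Vec 2 Z ≃ₗ[ZMod 2] Z3 := LinearEquiv.ofFinrankEq _ _ (Nat.pow_right_injective le_rfl (by
    have h1 := Module.natCard_eq_pow_finrank (K := ZMod 2) (V := Vec 2 Z)
    have h2 := Module.natCard_eq_pow_finrank (K := ZMod 2) (V := Z3)
    rw [Nat.card_zmod] at h1 h2
    exact h1.symm.trans ((hc.trans (card_bits 3).symm).trans h2)))
  let e' : Z ≃ Z3 := (Vec.ofMul 2).trans e.toEquiv
  have m : ∀ a b, e' (a * b) = e' a + e' b := fun a b => map_add e _ _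
  refine ⟨fun a => if h : a ∈ Z then e' ⟨a, h⟩ else 0, MonoidHom.codRestrict
    (e'.permCongrHom.toMonoidHom.comp ((MulAut.toPerm Z).comp Z.normalizerMonoidHom)) G3
      fun k => e'.surjective.forall₂.2 fun a b => ?_, fun a ha b hb => ?_, fun a ha b hb e => ?_,
    e'.surjective.forall.2 fun a => ⟨a, a.2, dif_pos a.2⟩, fun k a ha => ?_⟩
  · have : ∀ a, (e'.permCongrHom (MulAut.toPerm Z (Z.normalizerMonoidHom k))) (e' a) =
      e' (Z.normalizerMonoidHom k a) := fun a => by simp; rfl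
    exact (congrArg _ (m a b).symm).trans ((this _).trans (by rw [map_mul, m, ← this, ← this]; rfl))
  · simp only [dif_pos ha, dif_pos hb, dif_pos (mul_mem ha hb), ← m]; rfl
  · simp only [dif_pos ha, dif_pos hb] at e
    exact congrArg Subtype.val (e'.injective e)
  · simp only [dif_pos ha, dif_pos ((mem_normalizer_iff.1 k.2 a).1 ha)]
    exact congrArg e' (by simp; rfl)

theorem exists_lift {K L Z : Subgroup G} (hLc : Nat.card L = 2 ^ 15) {X Y : Type*} [Group X]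
    [Group Y] (e : K →* X × Y) (he : Surjective e) (hk : ∀ k, e k = 1 → k.1 ∈ L)
    (hxy : ∀ x y : G, x ∈ K → y ∈ K → orderOf x = 3 → orderOf y = 7 → x * y = y * x →
      L ⊓ centralizer ({x} : Set G) = Z ∧ L ⊓ centralizer ({y} : Set G) = ⊥)
    {s : X} {m : Y} (s1 : s ^ 3 = 1) (s2 : s ≠ 1) (m1 : m ^ 7 = 1) (m2 : m ≠ 1) :
    (∃ x, e x = (s, 1) ∧ x ^ 3 = 1 ∧ L ⊓ centralizer ({x.1} : Set G) = Z) ∧
      ∃ y, e y = (1, m) ∧ y ^ 7 = 1 ∧ L ⊓ centralizer ({y.1} : Set G) = ⊥ := by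
  have : Fact (Nat.Prime 7) := ⟨by norm_num⟩
  obtain ⟨k, h⟩ := he (s, m)
  have h0 : ∀ n, e (k ^ n) = (s ^ (n % 3), m ^ (n % 7)) := fun n => by
    rw [map_pow, h, ← pow_eq_pow_mod _ s1, ← pow_eq_pow_mod _ m1]; rfl
  have h1 : k ^ (21 * 2 ^ 15) = 1 := Subtype.ext (by
    rw [pow_mul, ← hLc]
    exact (congrArg Subtype.val (pow_card_eq_one' (x := (⟨_, hk _ ((h0 21).trans (by simp))⟩ : L))) :))
  have x1 : e (k ^ 1835008) = (s, 1) := by simpa using h0 1835008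
  have y1 : e (k ^ 3932160) = (1, m) := by simpa using h0 3932160
  have x2 : (k ^ 1835008) ^ 3 = 1 := by
    rw [← pow_mul, show 1835008 * 3 = 21 * 2 ^ 15 * 8 by norm_num, pow_mul, h1, one_pow]
  have y2 : (k ^ 3932160) ^ 7 = 1 := by
    rw [← pow_mul, show 3932160 * 7 = 21 * 2 ^ 15 * 40 by norm_num, pow_mul, h1, one_pow]
  obtain ⟨h2, h3⟩ := hxy _ _ (k ^ 1835008).2 (k ^ 3932160).2
    ((orderOf_coe _).trans (orderOf_eq_prime x2 fun e => s2 (by
      rw [e, map_one] at x1; exact (congrArg Prod.fst x1).symm)))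
    ((orderOf_coe _).trans (orderOf_eq_prime y2 fun e => m2 (by
      rw [e, map_one] at y1; exact (congrArg Prod.snd y1).symm)))
    (congrArg Subtype.val (pow_mul_comm k _ _))
  exact ⟨⟨_, x1, x2, h2⟩, _, y1, y2, h3⟩

end PA

open PA in
theorem exists_pent {G : Type*} [Group G] [Finite G] (K L Z : Subgroup G) (hLK : L ≤ K)
    (hZdef : Z = (Subgroup.center ↥L).map L.subtype) (hLs : Cfsg.IsSpecial 2 ↥L)
    (hLc : Nat.card ↥L = 2 ^ 15) (hZe : Cfsg.IsElementaryAbelian 2 Z) (hZc : Nat.card ↥Z = 8)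
    (hK : K = Subgroup.normalizer (Z : Set G))
    (hq : ∃ _ : (L.subgroupOf K).Normal, Nonempty (↥K ⧸ L.subgroupOf K ≃*
      Equiv.Perm (Fin 5) × Matrix.SpecialLinearGroup (Fin 3) (ZMod 2)))
    (hxy : ∀ x y : G, x ∈ K → y ∈ K → orderOf x = 3 → orderOf y = 7 → x * y = y * x →
      L ⊓ Subgroup.centralizer ({x} : Set G) = Z ∧ L ⊓ Subgroup.centralizer ({y} : Set G) = ⊥) :
    ∃ π κ ψ Φ, Pent K L Z π κ ψ Φ := by
  classical
  obtain ⟨hN, ⟨ε⟩⟩ := hq
  obtain ⟨ψ, κ, p1, p2, p3, p4⟩ := exists_psi hZe hZc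
  subst hK
  have p0 : ψ 1 = 0 := by simpa using p1 1 Z.one_mem 1 Z.one_mem
  have z1 : ∀ a : L, a ∈ center L ↔ a.1 ∈ Z := fun a => by
    rw [hZdef]; exact (mem_map_iff_mem L.subtype_injective).symm
  have ZL : Z ≤ L := hZdef ▸ map_subtype_le _
  let e := ε.toMonoidHom.comp (QuotientGroup.mk' _)
  have e1 : Surjective e := ε.surjective.comp (QuotientGroup.mk'_surjective _)
  have e2 : ∀ k, e k = 1 ↔ k.1 ∈ L := fun k =>
    ε.map_eq_one_iff.trans (QuotientGroup.eq_one_iff k)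
  let κ' := e.liftOfSurjective e1 ⟨κ, fun k h => Subtype.ext (Equiv.ext fun ζ => by
    obtain ⟨a, ha, rfl⟩ := p3 ζ
    rw [← p4 k a ha, show k.1 * a = a * k.1 from congrArg Subtype.val
      (mem_center_iff.1 ((z1 ⟨a, ZL ha⟩).2 ha) ⟨k, (e2 k).1 h⟩), mul_inv_cancel_right]; rfl)⟩
  have k1 : ∀ k, κ' (e k) = κ k := e.liftOfRightInverse_comp_apply _ _ _
  let l := κ'.comp (MonoidHom.inr _ _)
  have c3 : Nat.card (Matrix.SpecialLinearGroup (Fin 3) (ZMod 2)) = 168 := by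
    simpa [Fin.prod_univ_succ] using Agent.S0242.result (ZMod.card 2) 3 (by decide)
  have s1 : (swap 0 1 * swap 1 2 : Perm (Fin 5)) ^ 3 = 1 := by decide
  have s2 : (swap 0 1 * swap 1 2 : Perm (Fin 5)) ≠ 1 := by decide
  have l1 : Injective l := by
    have := Local.isSimpleGroup_SL_two (ι := Fin 3) le_rfl
    have : Fact (Nat.Prime 7) := ⟨by norm_num⟩
    refine l.ker_eq_bot_iff.1 ((IsSimpleGroup.eq_bot_or_eq_top_of_normal _ l.normal_ker).resolve_right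
      fun h => ?_)
    obtain ⟨m, hm⟩ := exists_prime_orderOf_dvd_card' (G := Matrix.SpecialLinearGroup (Fin 3) (ZMod 2))
      7 (by rw [c3]; norm_num)
    obtain ⟨-, y, y1, -, y2⟩ := exists_lift hLc e e1 (fun k => (e2 k).1) hxy s1 s2
      (hm ▸ pow_orderOf_eq_one m) (by rintro rfl; simp at hm)
    have : κ y = 1 := by rw [← k1, y1]; exact h.ge (mem_top m)
    have : Z = ⊥ := eq_bot_iff.2 (y2 ▸ le_inf ZL fun a ha => mem_centralizer_singleton_iff.2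
      (eq_mul_of_mul_inv_eq (p2 _ ((mem_normalizer_iff.1 y.2 a).1 ha) _ ha
        (by rw [p4 y a ha, this]; rfl))).symm)
    simp [this] at hZc
  have l2 : Surjective l := (l1.bijective_of_nat_card_le (c3 ▸ card_G3_le)).2
  have k2 : ∀ k, κ k = l (e k).2 := fun k => by
    rw [← k1, ← Prod.fst_mul_snd (e k), map_mul, eq_one_of_comm (A := κ' ((e k).1, 1))
      (l2.forall.2 fun m => (map_mul κ' _ _).symm.trans (.trans (by simp) (map_mul κ' _ _))), one_mul]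
    simp [l]
  let e' : normalizer (Z : Set G) →* Γ := ((MonoidHom.fst _ _).comp e).prod κ
  have f1 : Surjective e' := fun ⟨s, A⟩ => by
    obtain ⟨m, rfl⟩ := l2 A
    obtain ⟨k, hk⟩ := e1 (s, m)
    exact ⟨k, Prod.ext (congrArg Prod.fst hk :) ((k2 k).trans (by rw [hk]))⟩
  have f2 : ∀ k, e' k = 1 ↔ k.1 ∈ L := fun k => by
    rw [← e2, Prod.ext_iff, Prod.ext_iff]
    exact and_congr Iff.rfl (by
      rw [Prod.snd_one, Prod.snd_one, ← map_eq_one_iff l l1, ← k2]; rfl)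
  let φ := L.normalizerMonoidHom.comp (inclusion ((normal_subgroupOf_iff_le_normalizer hLK).1 hN))
  have φ1 : ∀ k a, (φ k a).1 = k.1 * a.1 * k.1⁻¹ := fun _ _ => rfl
  have φ2 : ∀ k (a : L), φ k a = a → a.1 ∈ L ⊓ centralizer {k.1} := fun k a h =>
    ⟨a.2, mem_centralizer_singleton_iff.2 (eq_mul_of_mul_inv_eq (congrArg Subtype.val h)).symm⟩
  obtain ⟨Φ, g1, g2, g3, g4, g5, g6⟩ := core φ e' f1
    (fun k h => ⟨⟨k, (f2 k).1 h⟩, MulEquiv.ext fun a => rfl⟩) hLs hLc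
    (by rw [← hZc, hZdef, card_map_of_injective L.subtype_injective]) (fun a => ψ a)
    (fun a ha b hb => p1 _ ((z1 a).1 ha) _ ((z1 b).1 hb))
    (fun a ha h => Subtype.ext (p2 _ ((z1 a).1 ha) _ Z.one_mem (h.trans p0.symm)))
    (fun k a ha => p4 k _ ((z1 a).1 ha))
    (fun s h1 h2 => by
      obtain ⟨⟨x, x1, x2, x3⟩, -⟩ := exists_lift hLc e' f1 (fun k => (f2 k).1) hxy h1 h2 y_seven y_ne
      exact ⟨x, x1, x2, fun a h => (z1 a).2 (x3.le (φ2 x a h))⟩)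
    fun s h1 h2 => by
      obtain ⟨-, x, x1, x2, x3⟩ := exists_lift hLc e' f1 (fun k => (f2 k).1) hxy s1 s2 h1 h2
      exact ⟨x, x1, x2, fun a h => (z1 a).2 (bot_le (a := Z) (x3.le (φ2 x a h)))⟩
  let π : G → Γ := fun g => if h : g ∈ normalizer (Z : Set G) then e' ⟨g, h⟩ else 1
  have π1 : ∀ g h, π g = e' ⟨g, h⟩ := fun g h => dif_pos h
  have π2 : ∀ a ∈ normalizer (Z : Set G), ∀ b ∈ normalizer (Z : Set G), π (a * b) = π a * π b :=
    fun a ha b hb => by rw [π1 a ha, π1 b hb, π1 _ (mul_mem ha hb), ← map_mul]; rfl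
  let Φ' : G → M12 := fun g => if h : g ∈ L then Φ ⟨g, h⟩ else 0
  have Φ1 : ∀ a : L, Φ' a = Φ a := fun a => dif_pos a.2
  refine ⟨fun g => (π g).1, fun g => (π g).2.1, ψ, Φ', rfl, ZL, hLK,
    fun a ha b hb => by rw [π2 a ha b hb]; rfl, fun a ha b hb => by rw [π2 a ha b hb]; rfl,
    fun k hk => ?_, fun k _ => (π k).2.2, fun σ a b c h => ?_, p1,
    fun a ha h => p2 _ ha _ Z.one_mem (h.trans p0.symm), p3,
    fun k hk a ha => by rw [π1 k hk]; exact p4 ⟨k, hk⟩ a ha, fun a ha b hb => ?_, fun a ha => ?_,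
    fun f => ?_, fun k hk a ha ζ => ?_, fun a ha b hb => ?_, fun a ha => ?_⟩
  · rw [← f2 ⟨k, hk⟩, ← π1, Prod.ext_iff, Subtype.ext_iff]; rfl
  · obtain ⟨k, hk⟩ := f1 (σ, mkA a b c h)
    exact ⟨k, k.2, by rw [π1 k k.2, hk], fun ζ => by rw [π1 k k.2, hk]; rfl⟩
  · lift a to L using ha
    lift b to L using hb
    rw [← coe_mul, Φ1, Φ1, Φ1, g1]
  · lift a to L using ha
    rw [Φ1, g2, z1]
  · obtain ⟨a, rfl⟩ := g3 f
    exact ⟨a, a.2, Φ1 a⟩
  · lift a to L using ha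
    rw [π1 k hk, ← φ1 ⟨k, hk⟩, Φ1, Φ1, g4]
  · lift a to L using ha
    lift b to L using hb
    rw [Φ1, Φ1]
    exact ⟨(z1 _).1 (g5 a b).1, (g5 a b).2⟩
  · lift a to L using ha
    rw [Φ1]
    exact ⟨(z1 _).1 (g6 a).1, (g6 a).2⟩

end Cfsg.Lib.J4T
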