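import Cfsg.Agent.J4T.PA1
import Cfsg.Agent.J4T.TA

/-! Coordinates for a group of shape `2^(3+12).(S₅ × L₃(2))`: basic facts. -/

set_option autoImplicit false
set_option maxRecDepth 100000

namespace Cfsg.Lib.J4T

open Subgroup Equiv Cfsg.Lib.Local

/-- First basis vector. -/
abbrev b1 : Z3 := bv 3 1
/-- Second basis vector. -/
abbrev b2 : Z3 := bv 3 2
/-- Third basis vector. -/
abbrev b3 : Z3 := bv 3 4

/-- The map `ρ(σ) ∘ f ∘ A`, where `A` sends the basis to `a, b, c`. -/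
def pull (σ : Perm (Fin 5)) (a b c : Z3) (f : M12) : M12 :=
  (rho σ (ev f a), rho σ (ev f b), rho σ (ev f c))

theorem M12.add_self (f : M12) : f + f = 0 :=
  Prod.ext (Bits.add_self _) (Prod.ext (Bits.add_self _) (Bits.add_self _))

theorem M12.eq_of_add {f g : M12} (h : f + g = 0) : f = g := by
  rw [← add_zero f, ← M12.add_self g, ← add_assoc, h, zero_add]

theorem Bits.eq_of_add {n : ℕ} {f g : Bits n} (h : f + g = 0) : f = g := by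
  rw [← add_zero f, ← Bits.add_self g, ← add_assoc, h, zero_add]

theorem rho_inv (σ : Perm (Fin 5)) (u : N4) : rho σ⁻¹ (rho σ u) = u := by
  rw [← rho_mul, inv_mul_cancel, rho_one]

theorem rho_inv' (σ : Perm (Fin 5)) (u : N4) : rho σ (rho σ⁻¹ u) = u := by
  rw [← rho_mul, mul_inv_cancel, rho_one]

theorem rho_eq_zero {σ : Perm (Fin 5)} {u : N4} : rho σ u = 0 ↔ u = 0 :=
  ⟨fun e => by rw [← rho_inv σ u, e, rho_zero], fun e => by rw [e, rho_zero]⟩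

theorem rho_faith : ∀ σ : Perm (Fin 5), (∀ u, rho σ u = u) → σ = 1 := by decide +kernel

theorem beta_nondeg : ∀ u : N4, (∀ v, beta u v = false) → u = 0 := by decide +kernel

theorem beta_zero' (u : N4) : beta u 0 = false := by rw [beta_comm, beta_zero]

theorem ev_zero (f : M12) : ev f 0 = 0 := by
  show 0 + 0 + 0 = (0 : N4); simp

theorem ncard_eq_sum {α β : Type*} [Finite α] [Fintype β] (Ω : Set α) (φ : α → β) :
    Ω.ncard = ∑ b, {a | a ∈ Ω ∧ φ a = b}.ncard := by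
  classical
  have := Fintype.ofFinite α
  rw [Set.ncard_eq_toFinset_card', Finset.card_eq_sum_card_fiberwise (f := φ) (t := Finset.univ)
    (fun _ _ => Finset.mem_univ _)]
  refine Finset.sum_congr rfl fun b _ => ?_
  rw [Set.ncard_eq_toFinset_card']
  congr 1
  ext a; simp

variable {G : Type*} [Group G] {K L Z Q : Subgroup G} {π : G → Perm (Fin 5)} {κ : G → Perm Z3}
  {ψ : G → Z3} {Φ : G → M12} {z s : G}

theorem ncard_coset (A : Subgroup G) (c : G) : {a | c⁻¹ * a ∈ A}.ncard = Nat.card A := by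
  rw [← Nat.card_coe_set_eq]
  exact Nat.card_congr ⟨fun a => ⟨c⁻¹ * a.1, a.2⟩, fun a => ⟨c * a.1, by simp⟩,
    fun a => by simp, fun a => by simp⟩

namespace Pent

variable (h : Pent K L Z π κ ψ Φ)
include h

/-- `π` as a homomorphism. -/
def πh : K →* Perm (Fin 5) := MonoidHom.mk' (fun k => π k) fun a b => h.π_mul a a.2 b b.2

/-- `κ` as a homomorphism. -/
def κh : K →* Perm Z3 := MonoidHom.mk' (fun k => κ k) fun a b => h.κ_mul a a.2 b b.2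

theorem ZK : Z ≤ K := h.ZL.trans h.LK

theorem π_one : π 1 = 1 := h.πh.map_one

theorem κ_one : κ 1 = 1 := h.κh.map_one

theorem π_inv {k : G} (hk : k ∈ K) : π k⁻¹ = (π k)⁻¹ := h.πh.map_inv ⟨k, hk⟩

theorem κ_inv {k : G} (hk : k ∈ K) : κ k⁻¹ = (κ k)⁻¹ := h.κh.map_inv ⟨k, hk⟩

theorem π_pow {k : G} (hk : k ∈ K) (n : ℕ) : π (k ^ n) = π k ^ n := h.πh.map_pow ⟨k, hk⟩ n

theorem κ_pow {k : G} (hk : k ∈ K) (n : ℕ) : κ (k ^ n) = κ k ^ n := h.κh.map_pow ⟨k, hk⟩ n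

theorem π_conj {k a : G} (hk : k ∈ K) (ha : a ∈ K) : π (k * a * k⁻¹) = π k * π a * (π k)⁻¹ := by
  rw [h.π_mul _ (mul_mem hk ha) _ (inv_mem hk), h.π_mul _ hk _ ha, h.π_inv hk]

theorem κ_conj {k a : G} (hk : k ∈ K) (ha : a ∈ K) : κ (k * a * k⁻¹) = κ k * κ a * (κ k)⁻¹ := by
  rw [h.κ_mul _ (mul_mem hk ha) _ (inv_mem hk), h.κ_mul _ hk _ ha, h.κ_inv hk]

theorem π_L {a : G} (ha : a ∈ L) : π a = 1 := ((h.ker a (h.LK ha)).2 ha).1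

theorem κ_L {a : G} (ha : a ∈ L) : κ a = 1 := ((h.ker a (h.LK ha)).2 ha).2

theorem mem_L {k : G} (hk : k ∈ K) (h1 : π k = 1) (h2 : κ k = 1) : k ∈ L := (h.ker k hk).1 ⟨h1, h2⟩

theorem κ_eq {k : G} (hk : k ∈ K) (ζ : Z3) : κ k ζ = comb (κ k b1) (κ k b2) (κ k b3) ζ :=
  eq_comb (h.κ_add k hk) ζ

theorem κ_ind {k : G} (hk : k ∈ K) : Ind (κ k b1) (κ k b2) (κ k b3) := ind_of_add (h.κ_add k hk)

theorem κ_zero {k : G} (hk : k ∈ K) : κ k 0 = 0 := by simpa using h.κ_add k hk 0 0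

theorem κ_ext {k k' : G} (hk : k ∈ K) (hk' : k' ∈ K) (h1 : κ k b1 = κ k' b1) (h2 : κ k b2 = κ k' b2)
    (h3 : κ k b3 = κ k' b3) : κ k = κ k' :=
  Equiv.ext fun ζ => by rw [h.κ_eq hk, h.κ_eq hk', h1, h2, h3]

theorem κ_eq_one {k : G} (hk : k ∈ K) (h1 : κ k b1 = b1) (h2 : κ k b2 = b2) (h3 : κ k b3 = b3) :
    κ k = 1 := Equiv.ext fun ζ => by rw [h.κ_eq hk, h1, h2, h3]; exact comb_basis ζ

theorem exK (σ : Perm (Fin 5)) {a b c : Z3} (hi : Ind a b c) :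
    ∃ k ∈ K, π k = σ ∧ κ k b1 = a ∧ κ k b2 = b ∧ κ k b3 = c := by
  obtain ⟨k, hk, e, e'⟩ := h.surj σ a b c hi
  refine ⟨k, hk, e, ?_, ?_, ?_⟩ <;> rw [e']
  · show a + 0 + 0 = _; simp
  · show 0 + b + 0 = _; simp
  · show 0 + 0 + c = _; simp

theorem exC (σ : Perm (Fin 5)) : ∃ k ∈ K, π k = σ ∧ κ k = 1 := by
  obtain ⟨k, hk, e, h1, h2, h3⟩ := h.exK σ (a := b1) (b := b2) (c := b3) (by decide)
  exact ⟨k, hk, e, h.κ_eq_one hk h1 h2 h3⟩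

theorem conj_Z {k a : G} (hk : k ∈ K) (ha : a ∈ Z) : k * a * k⁻¹ ∈ Z :=
  (mem_normalizer_iff.1 (h.normZ ▸ hk) a).1 ha

theorem mem_K [Finite G] {k : G} (hk : ∀ a ∈ Z, k * a * k⁻¹ ∈ Z) : k ∈ K := by
  rw [h.normZ]; exact mem_normalizer_fintype hk

theorem conj_L {k a : G} (hk : k ∈ K) (ha : a ∈ L) : k * a * k⁻¹ ∈ L :=
  h.mem_L (mul_mem (mul_mem hk (h.LK ha)) (inv_mem hk))
    (by rw [h.π_conj hk (h.LK ha), h.π_L ha]; simp) (by rw [h.κ_conj hk (h.LK ha), h.κ_L ha]; simp)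

theorem conj_L' {k a : G} (hk : k ∈ K) (ha : a ∈ L) : k⁻¹ * a * k ∈ L := by
  simpa using h.conj_L (inv_mem hk) ha

theorem conj_Z' {k a : G} (hk : k ∈ K) (ha : a ∈ Z) : k⁻¹ * a * k ∈ Z := by
  simpa using h.conj_Z (inv_mem hk) ha

theorem ψ_one : ψ 1 = 0 := by simpa using h.ψ_mul 1 Z.one_mem 1 Z.one_mem

theorem Z_sq {a : G} (ha : a ∈ Z) : a * a = 1 :=
  h.ψ_inj _ (mul_mem ha ha) (by rw [h.ψ_mul a ha a ha, Bits.add_self])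

theorem Z_inv {a : G} (ha : a ∈ Z) : a⁻¹ = a := inv_eq_of_mul_eq_one_right (h.Z_sq ha)

theorem ψ_ext {a b : G} (ha : a ∈ Z) (hb : b ∈ Z) (e : ψ a = ψ b) : a = b := by
  have := h.ψ_inj _ (mul_mem ha hb) (by rw [h.ψ_mul a ha b hb, e, Bits.add_self])
  rw [← h.Z_inv hb]; exact eq_inv_of_mul_eq_one_left this

theorem conj_eq_iff {k a b : G} (hk : k ∈ K) (ha : a ∈ Z) (hb : b ∈ Z) :
    k * a * k⁻¹ = b ↔ κ k (ψ a) = ψ b :=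
  ⟨fun e => by rw [← e, h.ψ_conj k hk a ha],
    fun e => h.ψ_ext (h.conj_Z hk ha) hb (by rw [h.ψ_conj k hk a ha, e])⟩

theorem comm_Z_iff {k a : G} (hk : k ∈ K) (ha : a ∈ Z) : k * a = a * k ↔ κ k (ψ a) = ψ a := by
  rw [← h.conj_eq_iff hk ha ha, mul_inv_eq_iff_eq_mul]

theorem comm_Z {k a : G} (hk : k ∈ K) (e : κ k = 1) (ha : a ∈ Z) : k * a = a * k :=
  (h.comm_Z_iff hk ha).2 (by rw [e]; rfl)

theorem LZ {l a : G} (hl : l ∈ L) (ha : a ∈ Z) : l * a = a * l :=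
  h.comm_Z (h.LK hl) (h.κ_L hl) ha

theorem κ_of_comm {k : G} (hk : k ∈ K) (e : ∀ a ∈ Z, k * a = a * k) : κ k = 1 :=
  Equiv.ext fun ζ => by
    obtain ⟨a, ha, rfl⟩ := h.ψ_surj ζ
    exact (h.comm_Z_iff hk ha).1 (e a ha)

theorem mem_K_of_comm [Finite G] {k : G} (e : ∀ a ∈ Z, k * a = a * k) : k ∈ K :=
  h.mem_K fun a ha => by rw [e a ha, mul_inv_cancel_right]; exact ha

theorem ψ_comm {k a : G} (hk : k ∈ K) (ha : a ∈ Z) :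
    k * a * k⁻¹ * a⁻¹ ∈ Z ∧ ψ (k * a * k⁻¹ * a⁻¹) = κ k (ψ a) + ψ a :=
  ⟨mul_mem (h.conj_Z hk ha) (inv_mem ha), by
    rw [h.Z_inv ha, h.ψ_mul _ (h.conj_Z hk ha) _ ha, h.ψ_conj k hk a ha]⟩

theorem ord_Z {a : G} (ha : a ∈ Z) (h1 : ψ a ≠ 0) : orderOf a = 2 :=
  orderOf_eq_prime (by rw [pow_two, h.Z_sq ha]) fun e => h1 (by rw [e, h.ψ_one])

theorem mem_zp {a w : G} (ha : a ∈ Z) (h1 : ψ a ≠ 0) :
    w ∈ zpowers a ↔ w ∈ Z ∧ (ψ w = 0 ∨ ψ w = ψ a) := by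
  rw [mem_zpowers_iff_of_orderOf_two (h.ord_Z ha h1)]
  constructor
  · rintro (rfl | rfl)
    · exact ⟨Z.one_mem, .inl h.ψ_one⟩
    · exact ⟨ha, .inr rfl⟩
  · exact fun ⟨hw, e⟩ => e.imp (h.ψ_inj w hw) (h.ψ_ext hw ha)

theorem Φ_Z {a : G} (ha : a ∈ Z) : Φ a = 0 := (h.Φ_ker a (h.ZL ha)).2 ha

theorem Φ_one : Φ 1 = 0 := h.Φ_Z Z.one_mem

theorem Φ_inv {a : G} (ha : a ∈ L) : Φ a⁻¹ = Φ a :=
  M12.eq_of_add (by rw [← h.Φ_mul _ (inv_mem ha) _ ha, inv_mul_cancel, h.Φ_one])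

theorem Φ_eq_iff {a b : G} (ha : a ∈ L) (hb : b ∈ L) : Φ a = Φ b ↔ a⁻¹ * b ∈ Z := by
  rw [← h.Φ_ker _ (mul_mem (inv_mem ha) hb), h.Φ_mul _ (inv_mem ha) _ hb, h.Φ_inv ha]
  exact ⟨fun e => by rw [e, M12.add_self], M12.eq_of_add⟩

theorem Φ_pull {k a : G} (hk : k ∈ K) (ha : a ∈ L) :
    Φ (k⁻¹ * a * k) = pull (π k)⁻¹ (κ k b1) (κ k b2) (κ k b3) (Φ a) := by
  have e : ∀ ζ, ev (Φ (k⁻¹ * a * k)) ζ = rho (π k)⁻¹ (ev (Φ a) (κ k ζ)) := fun ζ => by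
    have := h.Φ_conj k hk _ (h.conj_L' hk ha) ζ
    rw [show k * (k⁻¹ * a * k) * k⁻¹ = a by group] at this
    rw [this, rho_inv]
  exact Prod.ext (by rw [← ev_one, e]; rfl)
    (Prod.ext (by rw [← ev_two, e]; rfl) (by rw [← ev_four, e]; rfl))

theorem Φ_push {k a : G} (hk : k ∈ K) (ha : a ∈ L) :
    Φ (k * a * k⁻¹) = pull (π k) (κ k⁻¹ b1) (κ k⁻¹ b2) (κ k⁻¹ b3) (Φ a) := by
  have := h.Φ_pull (inv_mem hk) ha
  rwa [inv_inv, h.π_inv hk, inv_inv] at this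

theorem Φ_conj0 {k a : G} (hk : k ∈ K) (e : κ k = 1) (ha : a ∈ L) :
    Φ (k * a * k⁻¹) = (rho (π k) (Φ a).1, rho (π k) (Φ a).2.1, rho (π k) (Φ a).2.2) := by
  rw [h.Φ_push hk ha, h.κ_inv hk, e, inv_one, pull]
  simp only [Perm.coe_one, id, ev_one, ev_two, ev_four]

theorem Φ_conj1 {k a : G} (hk : k ∈ K) (e : κ k b1 = b1) (ha : a ∈ L) :
    (Φ (k * a * k⁻¹)).1 = rho (π k) (Φ a).1 := by
  have := h.Φ_conj k hk a ha b1
  rwa [e, ev_one, ev_one] at this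

theorem comm_iff {a b : G} (ha : a ∈ L) (hb : b ∈ L) : a * b = b * a ↔ br (Φ a) (Φ b) = 0 := by
  rw [← (h.comm a ha b hb).2]
  constructor
  · intro e; rw [e, show b * a * a⁻¹ * b⁻¹ = 1 by group, h.ψ_one]
  · intro e
    have := h.ψ_inj _ (h.comm a ha b hb).1 e
    rw [← mul_inv_eq_one, ← this]; group

theorem sq_iff {a : G} (ha : a ∈ L) : a * a = 1 ↔ sqm (Φ a) = 0 := by
  rw [← (h.sq a ha).2]
  exact ⟨fun e => by rw [e, h.ψ_one], h.ψ_inj _ (h.sq a ha).1⟩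

theorem L_pow {a : G} (ha : a ∈ L) : a ^ 4 = 1 := by
  rw [show a ^ 4 = a * a * (a * a) by simp [pow_succ, mul_assoc], h.Z_sq (h.sq a ha).1]

theorem cardZ : Nat.card Z = 8 := by
  rw [show 8 = 2 ^ 3 by rfl, ← card_bits]
  refine Nat.card_congr (Equiv.ofBijective (fun a => ψ a) ⟨fun a b e => Subtype.ext
    (h.ψ_ext a.2 b.2 e), fun ζ => ?_⟩)
  obtain ⟨a, ha, e⟩ := h.ψ_surj ζ
  exact ⟨⟨a, ha⟩, e⟩

theorem ncard_fib (f : M12) : {a | a ∈ L ∧ Φ a = f}.ncard = 8 := by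
  obtain ⟨c, hc, rfl⟩ := h.Φ_surj f
  rw [← h.cardZ, ← ncard_coset Z c]
  congr 1
  ext a
  exact ⟨fun ⟨ha, e⟩ => (h.Φ_eq_iff hc ha).1 e.symm, fun e => by
    have ha : a ∈ L := by simpa using mul_mem hc (h.ZL e)
    exact ⟨ha, ((h.Φ_eq_iff hc ha).2 e).symm⟩⟩

theorem ncard_pre [Finite G] (p : M12 → Prop) [DecidablePred p] :
    {a | a ∈ L ∧ p (Φ a)}.ncard = 8 * (Finset.univ.filter p).card := by
  rw [ncard_eq_sum _ Φ, Finset.card_filter, Finset.mul_sum]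
  refine Finset.sum_congr rfl fun f _ => ?_
  split_ifs with e
  · rw [mul_one, ← h.ncard_fib f]
    congr 1; ext a
    exact ⟨fun ⟨⟨h1, _⟩, h2⟩ => ⟨h1, h2⟩, fun ⟨h1, h2⟩ => ⟨⟨h1, h2 ▸ e⟩, h2⟩⟩
  · rw [mul_zero, Set.ncard_eq_zero]
    exact Set.eq_empty_of_forall_notMem fun a ⟨⟨_, h1⟩, h2⟩ => e (h2 ▸ h1)

theorem cardL [Finite G] : Nat.card L = 2 ^ 15 := by
  have := h.ncard_pre (fun _ => True)
  simp only [and_true, Finset.filter_true, Finset.card_univ, ← Nat.card_eq_fintype_card,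
    Nat.card_prod, card_bits] at this
  exact this

theorem ncard_fibK [Finite G] {k : G} (hk : k ∈ K) :
    {a | a ∈ K ∧ π a = π k ∧ κ a = κ k}.ncard = 2 ^ 15 := by
  rw [← h.cardL, ← ncard_coset L k]
  congr 1
  ext a
  constructor
  · rintro ⟨ha, h1, h2⟩
    exact h.mem_L (mul_mem (inv_mem hk) ha) (by rw [h.π_mul _ (inv_mem hk) _ ha, h.π_inv hk, h1]; simp)
      (by rw [h.κ_mul _ (inv_mem hk) _ ha, h.κ_inv hk, h2]; simp)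
  · intro e
    have e1 : a = k * (k⁻¹ * a) := by group
    refine ⟨e1 ▸ mul_mem hk (h.LK e), ?_, ?_⟩
    · rw [e1, h.π_mul _ hk _ (h.LK e), h.π_L e, mul_one]
    · rw [e1, h.κ_mul _ hk _ (h.LK e), h.κ_L e, mul_one]

/-- The preimage in `L` of a subgroup of `M12`. -/
def sub (A : AddSubgroup M12) : Subgroup G where
  carrier := {a | a ∈ L ∧ Φ a ∈ A}
  one_mem' := ⟨L.one_mem, by rw [h.Φ_one]; exact A.zero_mem⟩
  mul_mem' {a b} ha hb := ⟨mul_mem ha.1 hb.1, by rw [h.Φ_mul a ha.1 b hb.1]; exact add_mem ha.2 hb.2⟩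
  inv_mem' {a} ha := ⟨inv_mem ha.1, by rw [h.Φ_inv ha.1]; exact ha.2⟩

theorem mem_sub {A : AddSubgroup M12} {a : G} : a ∈ h.sub A ↔ a ∈ L ∧ Φ a ∈ A := Iff.rfl

/-- An element of `K` acting trivially on `L / Z` lies in `L`. -/
theorem mem_L_of_fix {k : G} (hk : k ∈ K) (e : ∀ a ∈ L, Φ (k⁻¹ * a * k) = Φ a) : k ∈ L := by
  have e1 : ∀ f, pull (π k)⁻¹ (κ k b1) (κ k b2) (κ k b3) f = f := fun f => by
    obtain ⟨a, ha, rfl⟩ := h.Φ_surj f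
    rw [← h.Φ_pull hk ha, e a ha]
  have e2 : ∀ (σ : Perm (Fin 5)) (a b c : Z3), pull σ a b c (bv 4 1, 0, 0) = (bv 4 1, 0, 0) →
      pull σ a b c (0, bv 4 1, 0) = (0, bv 4 1, 0) → pull σ a b c (0, 0, bv 4 1) = (0, 0, bv 4 1) →
      a = b1 ∧ b = b2 ∧ c = b3 := by
    intro σ a b c h1 h2 h3
    simp only [pull, Prod.mk.injEq, rho_eq_zero] at h1 h2 h3
    have d : ∀ a b c : Z3, ev (bv 4 1, 0, 0) a ≠ 0 → ev (bv 4 1, 0, 0) b = 0 →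
      ev (bv 4 1, 0, 0) c = 0 → ev (0, bv 4 1, 0) a = 0 → ev (0, bv 4 1, 0) b ≠ 0 →
      ev (0, bv 4 1, 0) c = 0 → ev (0, 0, bv 4 1) a = 0 → ev (0, 0, bv 4 1) b = 0 →
      ev (0, 0, bv 4 1) c ≠ 0 → a = b1 ∧ b = b2 ∧ c = b3 := by decide +kernel
    have n : ∀ u, rho σ u = bv 4 1 → u ≠ 0 := fun u e e' => by
      rw [e', rho_zero] at e; exact absurd e (by decide)
    exact d a b c (n _ h1.1) h1.2.1 h1.2.2 h2.1 (n _ h2.2.1) h2.2.2 h3.1 h3.2.1 (n _ h3.2.2)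
  obtain ⟨h1, h2, h3⟩ := e2 _ _ _ _ (e1 _) (e1 _) (e1 _)
  refine h.mem_L hk (inv_eq_one.1 (rho_faith _ fun u => ?_)) (h.κ_eq_one hk h1 h2 h3)
  have := congrArg Prod.fst (e1 (u, 0, 0))
  rwa [h1, pull, ev_one] at this

end Pent

/-- The coordinates together with `Q = O₂(C(z))`, extraspecial of order `2^13`. -/
structure PQ (K L Z Q : Subgroup G) (π : G → Perm (Fin 5)) (κ : G → Perm Z3) (ψ : G → Z3)
    (Φ : G → M12) (z s : G) : Prop extends Pent K L Z π κ ψ Φ where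
  zZ : z ∈ Z
  ψz : ψ z = b1
  sZ : s ∈ Z
  ψs : ψ s = b2
  pre : PreLX Q z
  QK : Q ≤ K
  πQ : ∀ q ∈ Q, π q = 1
  κQ : ∀ q ∈ Q, ∀ ζ, κ q ζ = ζ ∨ κ q ζ = ζ + b1
  QL : ∀ a ∈ L, a ∈ Q ↔ (Φ a).1 = 0
  Qsurj : ∀ b c, (b = b2 ∨ b = b2 + b1) → (c = b3 ∨ c = b3 + b1) → ∃ q ∈ Q, κ q b2 = b ∧ κ q b3 = c
  cardQ : Nat.card Q = 2 ^ 13
  nle : ¬ centralizer ({z} : Set G) ≤ K

namespace PQ

variable (h : PQ K L Z Q π κ ψ Φ z s)
include h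

theorem zp {w : G} : w ∈ zpowers z ↔ w ∈ Z ∧ (ψ w = 0 ∨ ψ w = b1) := by
  rw [h.toPent.mem_zp h.zZ (by rw [h.ψz]; decide), h.ψz]

theorem ZQ : Z ≤ Q := fun a ha => (h.QL a (h.ZL ha)).2 (by rw [h.Φ_Z ha]; rfl)

theorem mem_H {k : G} (hk : k ∈ K) : k ∈ centralizer ({z} : Set G) ↔ κ k b1 = b1 := by
  rw [mC, h.comm_Z_iff hk h.zZ, h.ψz]

theorem mem_S {k : G} (hk : k ∈ K) : k ∈ centralizer ({s} : Set G) ↔ κ k b2 = b2 := by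
  rw [mC, h.comm_Z_iff hk h.sZ, h.ψs]

theorem LH : L ≤ centralizer ({z} : Set G) := fun _ ha => mC.2 (h.LZ ha h.zZ)

theorem QH : Q ≤ centralizer ({z} : Set G) := h.pre.le_cent

theorem κQ1 {q : G} (hq : q ∈ Q) : κ q b1 = b1 := (h.mem_H (h.QK hq)).1 (h.QH hq)

theorem conj_Q {g q : G} (hg : g ∈ centralizer ({z} : Set G)) (hq : q ∈ Q) : g * q * g⁻¹ ∈ Q :=
  (mem_normalizer_iff.1 (h.pre.norm hg) q).1 hq

theorem conj_Q' {g q : G} (hg : g ∈ centralizer ({z} : Set G)) (hq : q ∈ Q) : g⁻¹ * q * g ∈ Q := by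
  simpa using h.conj_Q (inv_mem hg) hq

theorem mem_L_of_Q {q : G} (hq : q ∈ Q) (e : κ q = 1) : q ∈ L := h.mem_L (h.QK hq) (h.πQ q hq) e

theorem conj_zp {g w : G} (hg : g ∈ centralizer ({z} : Set G)) (hw : w ∈ zpowers z) :
    g * w * g⁻¹ = w := h.pre.conj_eq_of_mem (h.pre.norm hg) hw

theorem s_not : s ∉ zpowers z := fun e => by
  have := (h.zp.1 e).2; rw [h.ψs] at this; exact absurd this (by decide)

/-- `K ∩ C(z)` is transitive on `Z ∖ ⟨z⟩`. -/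
theorem trans {w : G} (hw : w ∈ Z) (h1 : w ∉ zpowers z) :
    ∃ k ∈ K, k ∈ centralizer ({z} : Set G) ∧ π k = 1 ∧ k * s * k⁻¹ = w := by
  have d : ∀ b : Z3, ¬ (b = 0 ∨ b = b1) → ∃ c, Ind b1 b c := by decide +kernel
  obtain ⟨c, hc⟩ := d (ψ w) fun e => h1 (h.zp.2 ⟨hw, e⟩)
  obtain ⟨k, hk, e, h1, h2, -⟩ := h.exK 1 hc
  exact ⟨k, hk, (h.mem_H hk).2 h1, e, (h.conj_eq_iff hk h.sZ hw).2 (by rw [h.ψs, h2])⟩

/-- Elements with `π = 1` acting on `Z` as transvections with centre `z` lie in `Q L`. -/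
theorem decomp {k : G} (hk : k ∈ K) (h1 : π k = 1) (e1 : κ k b1 = b1)
    (e2 : κ k b2 = b2 ∨ κ k b2 = b2 + b1) (e3 : κ k b3 = b3 ∨ κ k b3 = b3 + b1) :
    ∃ q ∈ Q, ∃ a ∈ L, k = q * a := by
  obtain ⟨q, hq, f2, f3⟩ := h.Qsurj _ _ e2 e3
  have hq' := h.QK hq
  refine ⟨q, hq, q⁻¹ * k, h.mem_L (mul_mem (inv_mem hq') hk) ?_ ?_, by group⟩
  · rw [h.π_mul _ (inv_mem hq') _ hk, h.π_inv hq', h.πQ q hq, h1]; simp
  · rw [h.κ_mul _ (inv_mem hq') _ hk, h.κ_inv hq', h.κ_ext hq' hk (by rw [h.κQ1 hq, e1]) f2 f3]; simp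

end PQ

end Cfsg.Lib.J4T
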