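import Cfsg.Agent.J4T.PB1
import Cfsg.Agent.Fus.SylIn

/-! Coordinates for a group of shape `2^(3+12).(S₅ × L₃(2))`: the subgroup `O₂(C(z))`. -/

set_option autoImplicit false
set_option maxRecDepth 100000

namespace Cfsg.Lib.J4T

open Subgroup Equiv Cfsg.Lib.Local Cfsg.Lib.SporChar Cfsg.Lib.SporChar.J4

theorem pow_two_part {X : Type*} [Group X] [Finite X] {g : X} {n k m : ℕ} (h : g ^ 2 ^ n = 1)
    (hc : Nat.card X = 2 ^ k * m) (hm : Nat.Coprime 2 m) : g ^ 2 ^ k = 1 := by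
  obtain ⟨j, -, e⟩ := (Nat.dvd_prime_pow Nat.prime_two).1 (orderOf_dvd_of_pow_eq_one h)
  have := orderOf_dvd_natCard g
  rw [hc, e] at this
  exact orderOf_dvd_iff_pow_eq_one.1 (e ▸ (hm.pow_left j).dvd_of_dvd_mul_right this)

theorem mk3_mem : ∀ a b c, (mk3 a b c = 0 ∨ mk3 a b c = b1) ↔ b = false ∧ c = false := by decide

theorem mk3_zero_iff : ∀ a b c, mk3 a b c = 0 ↔ a = false ∧ b = false ∧ c = false := by decide

theorem rho_trans' {u v : N4} (hu : u ≠ 0) (hv : v ≠ 0) : ∃ σ, rho σ u = v := by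
  obtain ⟨a, rfl⟩ := PA.rho_trans u hu
  obtain ⟨b, rfl⟩ := PA.rho_trans v hv
  exact ⟨b * a⁻¹, by rw [rho_mul, rho_inv]⟩

theorem tv_add : ∀ a b c : Z3, (a = c ∨ a = c + b1) → (b = a ∨ b = a + b1) → b = c ∨ b = c + b1 := by
  decide

variable {G : Type*} [Group G] {K L Z R : Subgroup G} {π : G → Perm (Fin 5)} {κ : G → Perm Z3}
  {ψ : G → Z3} {Φ : G → M12} {z s : G}

namespace Pent

variable (h : Pent K L Z π κ ψ Φ)
include h

/-- The subgroup `O₂(K ∩ C(z))`. -/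
def P : Subgroup G where
  carrier := {k | k ∈ K ∧ π k = 1 ∧ ∀ ζ, κ k ζ = ζ ∨ κ k ζ = ζ + b1}
  one_mem' := ⟨K.one_mem, h.π_one, fun _ => .inl (by rw [h.κ_one]; rfl)⟩
  mul_mem' {a b} ha hb := ⟨mul_mem ha.1 hb.1, by rw [h.π_mul a ha.1 b hb.1, ha.2.1, hb.2.1, mul_one],
    fun ζ => by rw [h.κ_mul a ha.1 b hb.1]; exact tv_add _ _ _ (hb.2.2 ζ) (ha.2.2 _)⟩
  inv_mem' {a} ha := ⟨inv_mem ha.1, by rw [h.π_inv ha.1, ha.2.1, inv_one], fun ζ => by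
    have := ha.2.2 (κ a⁻¹ ζ)
    rw [← Perm.mul_apply, ← h.κ_mul a ha.1 _ (inv_mem ha.1), mul_inv_cancel, h.κ_one] at this
    have d : ∀ a b : Z3, (a = b ∨ a = b + b1) → b = a ∨ b = a + b1 := by decide
    exact d _ _ this⟩

theorem P_one {k : G} (hk : k ∈ h.P) : κ k b1 = b1 :=
  (hk.2.2 b1).resolve_right fun e => by
    rw [Bits.add_self, ← h.κ_zero hk.1] at e
    exact absurd ((κ k).injective e) (by decide)

theorem L_le_P : L ≤ h.P := fun _ ha => ⟨h.LK ha, h.π_L ha, fun _ => .inl (by rw [h.κ_L ha]; rfl)⟩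

theorem P_sq {k : G} (hk : k ∈ h.P) : k * k ∈ L := by
  refine h.mem_L (mul_mem hk.1 hk.1) (mul_mem hk hk).2.1 (Equiv.ext fun ζ => ?_)
  rw [h.κ_mul k hk.1 k hk.1, Perm.mul_apply]
  rcases hk.2.2 ζ with e | e
  · rw [e, e]; rfl
  · rw [e, h.κ_add k hk.1, e, h.P_one hk, add_assoc, Bits.add_self, add_zero]; rfl

theorem P_two : IsPGroup 2 h.P := fun ⟨k, hk⟩ => ⟨3, Subtype.ext (by
  have := h.L_pow (h.P_sq hk)
  rw [← pow_two, ← pow_mul] at this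
  exact this)⟩

theorem P_fix {k a : G} (hk : k ∈ h.P) (ha : a ∈ L) (e : (Φ a).1 = 0) : Φ (k * a * k⁻¹) = Φ a := by
  have e1 : ∀ ζ, ev (Φ a) (κ k⁻¹ ζ) = ev (Φ a) ζ := fun ζ => by
    rcases (inv_mem hk).2.2 ζ with e' | e' <;> rw [e']
    rw [ev_add, ev_one, e, add_zero]
  rw [h.Φ_push hk.1 ha, hk.2.1, pull, e1, e1, e1, ev_one, ev_two, ev_four, rho_one, rho_one, rho_one]

/-- An element of `L` with first coordinate `0` centralizing all such elements lies in `Z`. -/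
theorem mem_Z_of_comm {c : G} (hc : c ∈ L) (e : (Φ c).1 = 0)
    (hl : ∀ a ∈ L, (Φ a).1 = 0 → c * a = a * c) : c ∈ Z := by
  have e1 : ∀ g : M12, g.1 = 0 → br (Φ c) g = 0 := fun g hg => by
    obtain ⟨a, ha, rfl⟩ := h.Φ_surj g
    exact (h.comm_iff hc ha).1 (hl a ha hg)
  refine (h.Φ_ker c hc).1 (Prod.ext e (Prod.ext (beta_nondeg _ fun v => ?_)
    (beta_nondeg _ fun v => ?_)))
  · simpa [beta_zero'] using ((mk3_zero_iff _ _ _).1 (e1 (0, 0, v) rfl)).1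
  · simpa [beta_zero'] using ((mk3_zero_iff _ _ _).1 (e1 (0, v, 0) rfl)).1

theorem inv_sub {A : Subgroup G} (hZ : Z ≤ A)
    (hA : ∀ k ∈ K, κ k b1 = b1 → ∀ a ∈ A, k⁻¹ * a * k ∈ A) {a : G} (ha : a ∈ A) (ha' : a ∈ L)
    (h0 : Φ a ≠ 0) : (∀ l ∈ L, (Φ l).1 = 0 → l ∈ A) ∧ ((Φ a).1 ≠ 0 → L ≤ A) := by
  let S : M12 → Prop := fun f => ∃ a ∈ A, a ∈ L ∧ Φ a = f
  have add : ∀ {f g}, S f → S g → S (f + g) := fun ⟨a, h1, h2, e⟩ ⟨b, h3, h4, e'⟩ =>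
    ⟨a * b, mul_mem h1 h3, mul_mem h2 h4, by rw [h.Φ_mul a h2 b h4, e, e']⟩
  have pl : ∀ σ {b c f}, Ind b1 b c → S f → S (pull σ b1 b c f) := fun σ b c f hi ⟨a, h1, h2, e⟩ => by
    obtain ⟨k, hk, e0, e1, e2, e3⟩ := h.exK σ⁻¹ hi
    exact ⟨_, hA k hk e1 a h1, h.conj_L' hk h2, by rw [h.Φ_pull hk h2, e0, e1, e2, e3, e, inv_inv]⟩
  have mem : ∀ l ∈ L, S (Φ l) → l ∈ A := fun l hl ⟨a, h1, h2, e⟩ => by
    simpa using mul_mem h1 (hZ ((h.Φ_eq_iff h2 hl).1 e))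
  have sa : S (Φ a) := ⟨a, ha, ha', rfl⟩
  have s0 : S 0 := ⟨1, A.one_mem, L.one_mem, h.Φ_one⟩
  obtain ⟨u, hu, su⟩ : ∃ u, u ≠ 0 ∧ S (0, 0, u) := by
    have t : ∀ x, Ind b1 b2 (b3 + x) → S (0, 0, ev (Φ a) x) := fun x hi => by
      convert add sa (pl 1 hi sa) using 1
      simp only [pull, rho_one, ev_add, ev_one, ev_two, ev_four]
      refine Prod.ext (Bits.add_self _).symm (Prod.ext (Bits.add_self _).symm ?_)
      simp only [Prod.snd_add]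
      rw [← add_assoc, Bits.add_self, zero_add]
    by_cases h1 : (Φ a).1 = 0
    · by_cases h2 : (Φ a).2.1 = 0
      · refine ⟨(Φ a).2.2, fun h3 => h0 (Prod.ext h1 (Prod.ext h2 h3)), ?_⟩
        convert sa using 1
        exact Prod.ext h1.symm (Prod.ext h2.symm rfl)
      · exact ⟨_, by rwa [ev_two], t b2 (by decide)⟩
    · exact ⟨_, by rwa [ev_one], t b1 (by decide)⟩
  have s3 : ∀ v, S (0, 0, v) := fun v => by
    by_cases hv : v = 0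
    · rw [hv]; exact s0
    obtain ⟨σ, rfl⟩ := rho_trans' hu hv
    simpa only [pull, ev_one, ev_two, ev_four, rho_zero] using pl σ (b := b2) (c := b3) (by decide) su
  have s8 : ∀ f : M12, f.1 = 0 → S f := fun ⟨u, v, w⟩ e => by
    have := add (pl 1 (b := b3) (c := b2) (by decide) (s3 v)) (s3 w)
    simp only [pull, ev_one, ev_two, ev_four, rho_one, Prod.mk_add_mk, add_zero, zero_add] at this
    rwa [show u = (0 : N4) from e]
  refine ⟨fun l hl e => mem l hl (s8 _ e), fun h1 l hl => mem l hl ?_⟩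
  by_cases hv : (Φ l).1 = 0
  · exact s8 _ hv
  obtain ⟨σ, e⟩ := rho_trans' h1 hv
  have := add (pl σ (b := b2) (c := b3) (by decide) sa)
    (s8 (pull σ b1 b2 b3 (Φ a) + Φ l) (by rw [Prod.fst_add, pull, ev_one, e, Bits.add_self]))
  rwa [← add_assoc, M12.add_self, zero_add] at this

variable (zZ : z ∈ Z) (ψz : ψ z = b1)
include zZ ψz

theorem zp {w : G} : w ∈ zpowers z ↔ w ∈ Z ∧ (ψ w = 0 ∨ ψ w = b1) := by
  rw [h.mem_zp zZ (by rw [ψz]; decide), ψz]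

theorem mem_H {k : G} (hk : k ∈ K) : k ∈ centralizer ({z} : Set G) ↔ κ k b1 = b1 := by
  rw [mC, h.comm_Z_iff hk zZ, ψz]

omit h zZ ψz in
theorem conj_zp {g w : G} (hg : g ∈ centralizer ({z} : Set G)) (hw : w ∈ zpowers z) :
    g * w * g⁻¹ = w := by
  obtain ⟨n, rfl⟩ := hw
  exact mul_inv_eq_iff_eq_mul.2 ((show Commute g z from mC.1 hg).zpow_right n)

theorem P_comm {k w : G} (hk : k ∈ h.P) (hw : w ∈ Z) : w * k * w⁻¹ * k⁻¹ ∈ zpowers z := by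
  have d : ∀ a b : Z3, (a = b ∨ a = b + b1) → a + b = 0 ∨ a + b = b1 := by decide
  have := (h.zp zZ ψz).2 ⟨(h.ψ_comm hk.1 hw).1, by rw [(h.ψ_comm hk.1 hw).2]; exact d _ _ (hk.2.2 _)⟩
  convert inv_mem this using 1; group

theorem mem_Z_of_mod {c : G} (hc : c ∈ K) (e : ∀ a ∈ L, c * a * c⁻¹ * a⁻¹ ∈ zpowers z) : c ∈ Z := by
  have hL : c ∈ L := inv_mem_iff.1 (h.mem_L_of_fix (inv_mem hc) fun a ha => by
    have := (h.Φ_eq_iff (inv_mem (h.conj_L hc ha)) (inv_mem ha)).2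
      (by rw [inv_inv]; exact ((h.zp zZ ψz).1 (e a ha)).1)
    rwa [h.Φ_inv (h.conj_L hc ha), h.Φ_inv ha, ← inv_inv c, inv_inv c⁻¹] at this)
  have e1 : ∀ g : M12, br (Φ c) g = 0 ∨ br (Φ c) g = b1 := fun g => by
    obtain ⟨a, ha, rfl⟩ := h.Φ_surj g
    rw [← (h.comm c hL a ha).2]; exact ((h.zp zZ ψz).1 (e a ha)).2
  refine (h.Φ_ker c hL).1 (Prod.ext (beta_nondeg _ fun v => ?_) (Prod.ext
    (beta_nondeg _ fun v => ?_) (beta_nondeg _ fun v => ?_)))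
  · simpa [beta_zero'] using ((mk3_mem _ _ _).1 (e1 (0, 0, v))).1
  · simpa [beta_zero'] using ((mk3_mem _ _ _).1 (e1 (v, 0, 0))).2
  · simpa [beta_zero'] using ((mk3_mem _ _ _).1 (e1 (v, 0, 0))).1

/-- An element of `C(z)` conjugating `Z` into `K` and `L` from `P` lies in `K`. -/
theorem mem_K_of_P [Finite G] {g : G} (hg : g ∈ centralizer ({z} : Set G))
    (h1 : ∀ w ∈ Z, g * w * g⁻¹ ∈ K) (h2 : ∀ a ∈ L, g⁻¹ * a * g ∈ h.P) : g ∈ K :=
  h.mem_K fun w hw => h.mem_Z_of_mod zZ ψz (h1 w hw) fun a ha => by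
    have := h.P_comm zZ ψz (h2 a ha) hw
    rw [← conj_zp hg this] at this
    convert this using 1; group

theorem trans {w w' : G} (hw : w ∈ Z) (h1 : w ∉ zpowers z) (hw' : w' ∈ Z) (h1' : w' ∉ zpowers z) :
    ∃ k ∈ K, k ∈ centralizer ({z} : Set G) ∧ k * w * k⁻¹ = w' := by
  have d : ∀ b b' : Z3, ¬ (b = 0 ∨ b = b1) → ¬ (b' = 0 ∨ b' = b1) →
    ∃ x y, comb b1 x y b = b' ∧ Ind b1 x y := by decide +kernel
  obtain ⟨x, y, e, hi⟩ := d (ψ w) (ψ w') (fun e => h1 ((h.zp zZ ψz).2 ⟨hw, e⟩))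
    fun e => h1' ((h.zp zZ ψz).2 ⟨hw', e⟩)
  obtain ⟨k, hk, -, e1, e2, e3⟩ := h.exK 1 hi
  exact ⟨k, hk, (h.mem_H zZ ψz hk).2 e1,
    (h.conj_eq_iff hk hw hw').2 (by rw [h.κ_eq hk, e1, e2, e3, e])⟩

variable [Finite G] (two : IsPGroup 2 R) (RH : R ≤ centralizer ({z} : Set G))
  (nR : centralizer ({z} : Set G) ≤ normalizer (R : Set G))
include two RH nR

omit [Finite G] in
theorem mem_P {r : G} (hr : r ∈ R) (hk : r ∈ K) : r ∈ h.P := by
  have t : ∀ k ∈ K, κ k b1 = b1 → ∃ n, (r * (k * r * k⁻¹)) ^ 2 ^ n = 1 := fun k hk e => by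
    obtain ⟨n, hn⟩ := two ⟨_, mul_mem hr ((mem_normalizer_iff.1 (nR ((h.mem_H zZ ψz hk).2 e)) r).1 hr)⟩
    exact ⟨n, congrArg Subtype.val hn⟩
  have m : ∀ k ∈ K, r * (k * r * k⁻¹) ∈ K := fun k h' => mul_mem hk (mul_mem (mul_mem h' hk) (inv_mem h'))
  refine ⟨hk, ?_, ?_⟩
  · have d : ∀ τ : Perm (Fin 5), τ = 1 ∨ ∃ σ ∈ ([1, swap 0 1 * swap 1 2,
        swap 0 1 * swap 1 2 * swap 2 3 * swap 3 4] : List (Perm (Fin 5))),
        (τ * (σ * τ * σ⁻¹)) ^ 2 ^ 3 ≠ 1 := by decide +kernel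
    refine (d (π r)).resolve_right fun ⟨σ, _, hσ⟩ => hσ ?_
    obtain ⟨k, hk', rfl, e⟩ := h.exC σ
    obtain ⟨n, hn⟩ := t k hk' (by rw [e]; rfl)
    refine pow_two_part (n := n) (m := 15) ?_ (by simp [Nat.card_eq_fintype_card, Fintype.card_perm,
      Nat.factorial]) (by norm_num)
    rw [← h.π_conj hk' hk, ← h.π_mul _ hk _ (mul_mem (mul_mem hk' hk) (inv_mem hk')),
      ← h.π_pow (m k hk'), hn, h.π_one]
  · have d : ∀ b c : Z3, ¬ Ind b1 b c ∨ (∀ ζ, comb b1 b c ζ = ζ ∨ comb b1 b c ζ = ζ + b1) ∨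
        ∃ x ∈ [b2, b3], ∃ y ∈ [b3, b2, b2 + b3], (∀ ζ, comb b1 x y (comb b1 x y ζ) = ζ) ∧ Ind b1 x y ∧
          (comb b1 b c ∘ comb b1 x y ∘ comb b1 b c ∘ comb b1 x y)^[2 ^ 7] b2 ≠ b2 := by
      decide +kernel
    have e1 := (h.mem_H zZ ψz hk).1 (RH hr)
    have e2 : ⇑(κ r) = comb b1 (κ r b2) (κ r b3) := funext fun ζ => by rw [h.κ_eq hk, e1]
    rcases d (κ r b2) (κ r b3) with e | e | ⟨x, -, y, -, e, hi, hn⟩
    · exact absurd (e1 ▸ h.κ_ind hk) e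
    · rwa [← e2] at e
    obtain ⟨k, hk', -, f1, f2, f3⟩ := h.exK 1 hi
    have f : ⇑(κ k) = comb b1 x y := funext fun ζ => by rw [h.κ_eq hk', f1, f2, f3]
    have f' : (κ k)⁻¹ = κ k := inv_eq_of_mul_eq_one_right (Equiv.ext fun ζ => by
      rw [Perm.mul_apply, f, e]; rfl)
    obtain ⟨n, hn'⟩ := t k hk' f1
    have : (κ r * (κ k * κ r * (κ k)⁻¹)) ^ 2 ^ 7 = 1 := by
      refine pow_two_part (n := n) (m := 315) ?_ (by
        rw [Nat.card_perm, card_bits]; rfl) (by norm_num)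
      rw [← h.κ_conj hk' hk, ← h.κ_mul _ hk _ (mul_mem (mul_mem hk' hk) (inv_mem hk')),
        ← h.κ_pow (m k hk'), hn', h.κ_one]
    refine (hn ?_).elim
    rw [← e2, ← f, ← Perm.coe_mul, ← Perm.coe_mul, ← Perm.coe_mul, ← Perm.coe_pow, ← mul_assoc (κ k)]
    rw [f'] at this
    rw [this]; rfl

theorem le_P : R ≤ h.P := by
  have PH : h.P ≤ centralizer ({z} : Set G) := fun k hk => (h.mem_H zZ ψz hk.1).2 (h.P_one hk)
  have : Fact (Nat.Prime 2) := ⟨Nat.prime_two⟩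
  by_contra hn
  obtain ⟨x, ⟨h1, h2⟩, h3⟩ := SetLike.exists_of_lt (Fus.lt_inf_normalizer_of_lt
    (IsPGroup.to_sup_of_normal_left' two h.P_two (PH.trans nR))
    (lt_of_le_of_ne (le_sup_right (a := R) (b := h.P)) fun e => hn (e ▸ le_sup_left)))
  have hK : x ∈ K := h.mem_K_of_P zZ ψz (sup_le RH PH h1)
    (fun w hw => ((mem_normalizer_iff.1 h2 w).1 (h.L_le_P (h.ZL hw))).1) fun a ha => by
      simpa using (mem_normalizer_iff.1 (inv_mem h2) a).1 (h.L_le_P ha)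
  have h4 : x ∈ ((R ⊔ h.P : Subgroup G) : Set G) := h1
  rw [coe_mul_of_right_le_normalizer_left _ _ (PH.trans nR)] at h4
  obtain ⟨r, hr, p, hp, rfl⟩ := h4
  exact h3 (mul_mem (h.mem_P zZ ψz two RH nR hr (by simpa using mul_mem hK (inv_mem hp.1))) hp)

variable (nle : ¬ centralizer ({z} : Set G) ≤ K) (ZR : Z ≤ R) (self : centralizer (R : Set G) ≤ R)
include nle ZR self

theorem mem_R {a : G} (ha : a ∈ L) : a ∈ R ↔ (Φ a).1 = 0 := by
  have RP := h.le_P zZ ψz two RH nR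
  have c : ∀ {g r}, g ∈ centralizer ({z} : Set G) → r ∈ R → g * r * g⁻¹ ∈ R := fun hg hr =>
    (mem_normalizer_iff.1 (nR hg) _).1 hr
  have hA : ∀ k ∈ K, κ k b1 = b1 → ∀ a ∈ R, k⁻¹ * a * k ∈ R := fun k hk e a ha => by
    simpa using c (inv_mem ((h.mem_H zZ ψz hk).2 e)) ha
  obtain ⟨b, hb, hb', h0⟩ : ∃ b ∈ R, b ∈ L ∧ Φ b ≠ 0 := by
    by_contra! hn
    have RZ : R ≤ Z := fun r hr => by
      have hL : r ∈ L := h.mem_L_of_fix (RP hr).1 fun a ha => by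
        have h1 := h.conj_L' (RP hr).1 ha
        have := hn (r⁻¹ * a * r * a⁻¹) (by
          simpa [mul_assoc] using mul_mem (inv_mem hr) (c (mC.2 (h.LZ ha zZ)) hr))
          (mul_mem h1 (inv_mem ha))
        rw [h.Φ_mul _ h1 _ (inv_mem ha), h.Φ_inv ha] at this
        exact M12.eq_of_add this
      exact (h.Φ_ker r hL).1 (hn r hr hL)
    obtain ⟨a, ha, e⟩ := h.Φ_surj (0, 0, bv 4 1)
    have := hn a (self (mem_centralizer_iff.2 fun r hr => (h.LZ ha (RZ hr)).symm)) ha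
    rw [e] at this; exact absurd this (by decide)
  refine ⟨fun hr => by_contra fun h1 => nle fun g hg => ?_, (h.inv_sub ZR hA hb hb' h0).1 a ha⟩
  have LR := (h.inv_sub ZR hA hr ha fun e => h1 (by rw [e]; rfl)).2 h1
  exact h.mem_K_of_P zZ ψz hg (fun w hw => (RP (c hg (ZR hw))).1) fun a ha =>
    RP (by simpa using c (inv_mem hg) (LR ha))

theorem R_comm {q l : G} (hq : q ∈ R) (hl : l ∈ L) (e : (Φ l).1 = 0) :
    q * l * q⁻¹ * l⁻¹ ∈ zpowers z := by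
  have RP := h.le_P zZ ψz two RH nR
  have δ : ∀ {q l}, q ∈ R → l ∈ L → (Φ l).1 = 0 → q * l * q⁻¹ * l⁻¹ ∈ Z := fun hq hl e => by
    have := (h.Φ_eq_iff (inv_mem (h.conj_L (RP hq).1 hl)) (inv_mem hl)).1
      (by rw [h.Φ_inv (h.conj_L (RP hq).1 hl), h.Φ_inv hl, h.P_fix (RP hq) hl e])
    rwa [inv_inv] at this
  have d : ∀ u, ∃ v, rho (swap 0 1 * swap 1 2) v + v = u := by decide +kernel
  obtain ⟨x, hx, px, kx⟩ := h.exC (swap 0 1 * swap 1 2)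
  have xH := (h.mem_H zZ ψz hx).2 (by rw [kx]; rfl)
  obtain ⟨u, hu⟩ := d (Φ l).2.1
  obtain ⟨v, hv⟩ := d (Φ l).2.2
  obtain ⟨m, hm, em⟩ := h.Φ_surj (0, u, v)
  have m0 : (Φ m).1 = 0 := by rw [em]
  have hw : (x * m * x⁻¹ * m)⁻¹ * l ∈ Z :=
    (h.Φ_eq_iff (mul_mem (h.conj_L hx hm) hm) hl).1 (by
      rw [h.Φ_mul _ (h.conj_L hx hm) _ hm, h.Φ_conj0 hx kx hm, em, px]
      exact Prod.ext (by rw [e]; exact (add_zero _).trans (rho_zero _)) (Prod.ext hu hv))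
  have qK := (RP hq).1
  have h0 : q⁻¹ * (x⁻¹ * q * x) ∈ R := mul_mem (inv_mem hq) (by
    simpa using (mem_normalizer_iff.1 (nR (inv_mem xH)) _).1 hq)
  have h1 : q⁻¹ * (x⁻¹ * q * x) ∈ L := h.mem_L (RP h0).1 (RP h0).2.1 (by
    have := h.κ_conj (inv_mem hx) qK
    rw [inv_inv, h.κ_inv hx, kx] at this
    rw [h.κ_mul _ (inv_mem qK) _ (mul_mem (mul_mem (inv_mem hx) qK) hx), this, h.κ_inv qK]; simp)
  obtain ⟨n, hn⟩ : ∃ n, n = q⁻¹ * (x⁻¹ * q * x) := ⟨_, rfl⟩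
  rw [← hn] at h0 h1
  have h2 : n * m * n⁻¹ * m⁻¹ ∈ zpowers z := (h.zp zZ ψz).2 ⟨(h.comm n h1 m hm).1, by
    rw [(h.comm n h1 m hm).2, br, mk3_mem, m0, (h.mem_R zZ ψz two RH nR nle ZR self h1).1 h0]
    simp [beta_zero, beta_zero']⟩
  have h3 := h.P_comm zZ ψz (RP hq) hw
  obtain ⟨w, hw'⟩ : ∃ w, w = (x * m * x⁻¹ * m)⁻¹ * l := ⟨_, rfl⟩
  rw [← hw'] at hw h3
  obtain rfl : l = x * m * x⁻¹ * m * w := by rw [hw']; group
  have h4 := δ hq hm m0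
  obtain ⟨a, ha⟩ : ∃ a, a = q * m * q⁻¹ * m⁻¹ := ⟨_, rfl⟩
  obtain ⟨b, hb⟩ : ∃ b, b = n * m * n⁻¹ * m⁻¹ := ⟨_, rfl⟩
  obtain ⟨c, hc⟩ : ∃ c, c = w * q * w⁻¹ * q⁻¹ := ⟨_, rfl⟩
  rw [← ha] at h4; rw [← hb] at h2; rw [← hc] at h3
  have e1 : q * (x * m * x⁻¹) * q⁻¹ = b * a * (x * m * x⁻¹) := by
    have f1 : x * (b * a) * x⁻¹ = b * a := by
      rw [h.comm_Z hx kx (mul_mem ((h.zp zZ ψz).1 h2).1 h4), mul_inv_cancel_right]
    rw [← f1, ← conj_zp (RH hq) h2, hb, ha, hn]; group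
  have e2 : q * m * q⁻¹ = a * m := by rw [ha]; group
  have e3 : q * w * q⁻¹ = c⁻¹ * w := by rw [hc]; group
  have e4 : q * (x * m * x⁻¹ * m * w) * q⁻¹ = b * c⁻¹ * (x * m * x⁻¹ * m * w) := by
    have cZ := inv_mem ((h.zp zZ ψz).1 h3).1
    rw [show q * (x * m * x⁻¹ * m * w) * q⁻¹ =
      q * (x * m * x⁻¹) * q⁻¹ * (q * m * q⁻¹) * (q * w * q⁻¹) by group, e1, e2, e3,
      show b * a * (x * m * x⁻¹) * (a * m) * (c⁻¹ * w) =
        b * (a * (x * m * x⁻¹ * a) * (m * c⁻¹)) * w by group, h.LZ (h.conj_L hx hm) h4, h.LZ hm cZ,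
      ← mul_assoc a a, h.Z_sq h4, one_mul, ← mul_assoc _ c⁻¹, h.LZ (h.conj_L hx hm) cZ]
    group
  rw [e4, mul_inv_cancel_right]
  exact mul_mem h2 (inv_mem h3)

theorem R_surj {b c : Z3} (hb : b = b2 ∨ b = b2 + b1) (hc : c = b3 ∨ c = b3 + b1) :
    ∃ q ∈ R, κ q b2 = b ∧ κ q b3 = c := by
  have RP := h.le_P zZ ψz two RH nR
  have cj : ∀ {g r}, g ∈ centralizer ({z} : Set G) → r ∈ R → g * r * g⁻¹ ∈ R := fun hg hr =>
    (mem_normalizer_iff.1 (nR hg) _).1 hr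
  have mR := fun a => h.mem_R zZ ψz two RH nR nle ZR self (a := a)
  obtain ⟨r, hr, hn⟩ : ∃ r ∈ R, r ∉ L := by
    by_contra! RL
    refine nle fun g hg => h.mem_K fun w hw => ?_
    have h1 := cj hg (ZR hw)
    refine h.mem_Z_of_comm (RL _ h1) ((mR _ (RL _ h1)).1 h1) fun a ha e => ?_
    have := h.LZ (RL _ (cj (inv_mem hg) ((mR a ha).2 e))) hw
    rw [show g * w * g⁻¹ * a = g * (w * (g⁻¹ * a * g⁻¹⁻¹)) * g⁻¹ by group, ← this]; group
  have d : ∀ b c b' c' : Z3, (b = b2 ∨ b = b2 + b1) → (c = b3 ∨ c = b3 + b1) →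
      (b' = b2 ∨ b' = b2 + b1) → (c' = b3 ∨ c' = b3 + b1) → (b = b2 ∧ c = b3) ∨ (b' = b2 ∧ c' = b3) ∨
      ∃ x y p q, comb b1 x y p = b2 ∧ comb b1 x y q = b3 ∧ comb b1 x y (comb b1 b' c' p) = b ∧
        comb b1 x y (comb b1 b' c' q) = c ∧ Ind b1 x y := by decide +kernel
  have rK := (RP hr).1
  rcases d b c _ _ hb hc ((RP hr).2.2 b2) ((RP hr).2.2 b3) with ⟨rfl, rfl⟩ | ⟨e2, e3⟩ |
    ⟨x, y, p, q, e1, e2, e3, e4, hi⟩
  · exact ⟨1, R.one_mem, by rw [h.κ_one]; rfl, by rw [h.κ_one]; rfl⟩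
  · exact (hn (h.mem_L rK (RP hr).2.1 (h.κ_eq_one rK (h.P_one (RP hr)) e2 e3))).elim
  obtain ⟨k, hk, -, f1, f2, f3⟩ := h.exK 1 hi
  have f : ∀ ζ, κ (k * r * k⁻¹) (comb b1 x y ζ) = comb b1 x y (comb b1 (κ r b2) (κ r b3) ζ) := by
    intro ζ
    rw [← f2, ← f3, ← h.P_one (RP hr), ← h.κ_eq rK, h.P_one (RP hr), ← f1, ← h.κ_eq hk,
      ← h.κ_eq hk, h.κ_conj hk rK]
    simp
  exact ⟨_, cj ((h.mem_H zZ ψz hk).2 f1) hr, by rw [← e3, ← f, e1], by rw [← e4, ← f, e2]⟩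

theorem R_sq {q : G} (hq : q ∈ R) : q * q ∈ zpowers z := by
  have RP := h.le_P zZ ψz two RH nR
  have cj : ∀ {g r}, g ∈ centralizer ({z} : Set G) → r ∈ R → g * r * g⁻¹ ∈ R := fun hg hr =>
    (mem_normalizer_iff.1 (nR hg) _).1 hr
  have sZ : ∀ q ∈ R, q * q ∈ Z := fun q hq => by
    have h1 := h.P_sq (RP hq)
    refine h.mem_Z_of_comm h1 ((h.mem_R zZ ψz two RH nR nle ZR self h1).1 (mul_mem hq hq))
      fun a ha e => ?_
    have h2 := h.R_comm zZ ψz two RH nR nle ZR self hq ha e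
    have h3 := h.Z_sq ((h.zp zZ ψz).1 h2).1
    nth_rw 1 [← conj_zp (RH hq) h2] at h3
    rw [← mul_inv_eq_one, ← h3]; group
  by_contra hn
  refine nle fun g hg => h.mem_K fun w hw => ?_
  by_cases e : w ∈ zpowers z
  · rwa [conj_zp hg e]
  obtain ⟨k, -, hk, rfl⟩ := h.trans zZ ψz (sZ q hq) hn hw e
  convert sZ _ (cj (mul_mem hg hk) hq) using 1; group

theorem R_pre : PreLX R z := by
  have RP := h.le_P zZ ψz two RH nR
  have u : ∀ c ∈ R, (∀ q ∈ R, q * c = c * q) → c ∈ zpowers z := fun c hc e => by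
    have h1 : c ∈ L := h.mem_L (RP hc).1 (RP hc).2.1
      (h.κ_of_comm (RP hc).1 fun a ha => (e a (ZR ha)).symm)
    have mR := fun a => h.mem_R zZ ψz two RH nR nle ZR self (a := a)
    have h2 := h.mem_Z_of_comm h1 ((mR c h1).1 hc) fun a ha e' => (e a ((mR a ha).2 e')).symm
    obtain ⟨p, hp, p2, p3⟩ := h.R_surj zZ ψz two RH nR nle ZR self (.inl rfl) (.inr rfl)
    obtain ⟨q, hq, q2, q3⟩ := h.R_surj zZ ψz two RH nR nle ZR self (.inr rfl) (.inl rfl)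
    have d : ∀ ζ, comb b1 b2 (b3 + b1) ζ = ζ → comb b1 (b2 + b1) b3 ζ = ζ → ζ = 0 ∨ ζ = b1 := by
      decide
    refine (h.zp zZ ψz).2 ⟨h2, d _ ?_ ?_⟩
    · have := (h.comm_Z_iff (RP hp).1 h2).1 (e p hp)
      rwa [h.κ_eq (RP hp).1, h.P_one (RP hp), p2, p3] at this
    · have := (h.comm_Z_iff (RP hq).1 h2).1 (e q hq)
      rwa [h.κ_eq (RP hq).1, h.P_one (RP hq), q2, q3] at this
  refine ⟨⟨ZR zZ, h.ord_Z zZ (by rw [ψz]; decide), fun q hq => mC.1 (RH hq),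
    fun q => h.R_sq zZ ψz two RH nR nle ZR self, fun c hc e _ => u c hc e⟩,
    fun c hc => u c (self hc) (mem_centralizer_iff.1 hc), nR, fun e => ?_⟩
  obtain ⟨a, ha, e'⟩ := h.ψ_surj b2
  have := ((h.zp zZ ψz).1 (e (ZR ha))).2
  rw [e'] at this; exact absurd this (by decide)

theorem R_pq (sZ : s ∈ Z) (ψs : ψ s = b2) : PQ K L Z R π κ ψ Φ z s := by
  have RP := h.le_P zZ ψz two RH nR
  have pre := h.R_pre zZ ψz two RH nR nle ZR self
  have mR := fun a => h.mem_R zZ ψz two RH nR nle ZR self (a := a)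
  refine ⟨h, zZ, ψz, sZ, ψs, pre, fun q hq => (RP hq).1, fun q hq => (RP hq).2.1,
    fun q hq => (RP hq).2.2, mR, fun _ _ => h.R_surj zZ ψz two RH nR nle ZR self, ?_, nle⟩
  have h1 := pre.card_centralizer_mul (U := Z) (by rw [pre.center_eq]; exact zpowers_le.2 zZ) ZR
  have h2 : Nat.card ↥(R ⊓ centralizer (Z : Set G)) = {a | a ∈ L ∧ (Φ a).1 = 0}.ncard := by
    rw [← Nat.card_coe_set_eq]
    refine Nat.card_congr (Equiv.setCongr (Set.ext fun a => ⟨fun ⟨h3, h4⟩ => ?_, fun ⟨h3, h4⟩ =>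
      ⟨(mR a h3).2 h4, mem_centralizer_iff.2 fun w hw => (h.LZ h3 hw).symm⟩⟩))
    have h5 := h.mem_L (RP h3).1 (RP h3).2.1
      (h.κ_of_comm (RP h3).1 fun w hw => (mem_centralizer_iff.1 h4 w hw).symm)
    exact ⟨h5, (mR a h5).1 h3⟩
  rw [h2, h.ncard_pre (fun f => f.1 = 0), h.cardZ, pre.center_eq, Nat.card_zpowers, pre.ord,
    show (Finset.univ.filter fun f : M12 => f.1 = 0).card = 256 by decide +kernel] at h1
  omega

end Pent

theorem Pent.exists_pq [Finite G] (h : Pent K L Z π κ ψ Φ) (h2 : IsCharacteristicTwoType G)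
    (nle : ∀ z ∈ Z, z ≠ 1 → ¬ centralizer ({z} : Set G) ≤ K) :
    ∃ Q z s, PQ K L Z Q π κ ψ Φ z s := by
  obtain ⟨z, zZ, ψz⟩ := h.ψ_surj b1
  obtain ⟨s, sZ, ψs⟩ := h.ψ_surj b2
  have z2 := h.ord_Z zZ (by rw [ψz]; decide)
  have z1 : z ≠ 1 := fun e => by rw [e, orderOf_one] at z2; omega
  have e : normalizer (zpowers z : Set G) = centralizer ({z} : Set G) := by
    refine le_antisymm (fun k hk => mC'.2 ?_)
      (by rw [← centralizer_zpowers_eq_sing]; exact centralizer_le_normalizer _)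
    exact ((mem_zpowers_iff_of_orderOf_two z2).1
      ((mem_normalizer_iff.1 hk z).1 (mem_zpowers z))).resolve_left fun e => z1 (by simpa using e)
  have h3 := h2.2 (zpowers z) (IsPGroup.of_card (n := 1) (by rw [Nat.card_zpowers, z2, pow_one]))
    (by rw [Ne, zpowers_eq_bot]; exact z1)
  rw [e] at h3
  have two : IsPGroup 2 (qOf z) := (Solv.pCore_isPGroup 2 _).map _
  have nR : centralizer ({z} : Set G) ≤ normalizer (qOf z : Set G) := Solv.le_normalizer_map_subtype _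
  have RH : qOf z ≤ centralizer ({z} : Set G) := map_subtype_le _
  have self : centralizer (qOf z : Set G) ≤ qOf z := fun c hc =>
    ⟨⟨c, mC.2 (mem_centralizer_iff.1 hc z (mem_pCore_self z2)).symm⟩,
      h3 (mem_centralizer_iff.2 fun q hq =>
        Subtype.ext (mem_centralizer_iff.1 hc q ⟨q, hq, rfl⟩)), rfl⟩
  refine ⟨qOf z, z, s, h.R_pq zZ ψz two RH nR (nle z zZ z1) (fun w hw => ?_) self sZ ψs⟩
  let Y : Subgroup (centralizer ({z} : Set G)) :=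
    { carrier := {c | ∀ r ∈ qOf z, c * r * (c : G)⁻¹ * r⁻¹ ∈ zpowers z}
      one_mem' := fun r _ => by simp
      mul_mem' := fun {a b} ha hb r hr => by
        have := mul_mem (hb r hr) (ha r hr)
        rw [← Pent.conj_zp a.2 (hb r hr)] at this
        convert this using 1; push_cast; group
      inv_mem' := fun {a} ha r hr => by
        have := inv_mem (ha r hr)
        rw [← Pent.conj_zp (inv_mem a.2) this] at this
        convert this using 1; push_cast; group }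
  have hY : Y ≤ pCore 2 _ := Solv.le_pCore ⟨fun c hc g r hr => by
      have := hc _ ((mem_normalizer_iff.1 (nR (inv_mem g.2)) r).1 hr)
      rw [← Pent.conj_zp g.2 this] at this
      convert this using 1; push_cast; group⟩ fun c => by
    obtain ⟨n, hn⟩ := two ⟨c * c, self (mem_centralizer_iff.2 fun r hr => by
      have h4 := c.2 r hr
      have h5 := h.Z_sq ((h.zp zZ ψz).1 h4).1
      nth_rw 1 [← Pent.conj_zp c.1.2 h4] at h5
      symm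
      rw [← mul_inv_eq_one, ← h5]; group)⟩
    refine ⟨n + 1, Subtype.ext (Subtype.ext ?_)⟩
    simpa [pow_succ', pow_mul, pow_two] using congrArg Subtype.val hn
  exact ⟨⟨w, mC.2 (h.LZ (h.ZL hw) zZ)⟩, hY fun r hr =>
    h.P_comm zZ ψz (h.le_P zZ ψz two RH nR hr) hw, rfl⟩

end Cfsg.Lib.J4T
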