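import Cfsg.Agent.J4T.PB1

/-! The five-dimensional section of `2^(3+12).(S₅ × L₃(2))` does not split. -/

set_option autoImplicit false
set_option maxRecDepth 100000

namespace Cfsg.Lib.J4T

open Subgroup Equiv

/-- A three-cycle. -/
def s3 : Perm (Fin 5) := swap 0 1 * swap 1 2

/-- A five-cycle. -/
def s5 : Perm (Fin 5) := swap 0 1 * swap 1 2 * swap 2 3 * swap 3 4

namespace PD

open PA

theorem one_add : ∀ (u v : N4) (f : Z3), one (u + v) f = one u f + one v f := by decide +kernel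

theorem one_add' : ∀ (u : N4) (f g : Z3), one u (f + g) = one u f + one u g := by decide +kernel

theorem one_zero : ∀ f : Z3, one 0 f = 0 := by decide +kernel

theorem one_rho (σ : Perm (Fin 5)) (u : N4) (f : Z3) :
    (rho σ (one u f).1, rho σ (one u f).2.1, rho σ (one u f).2.2) = one (rho σ u) f := by
  simp only [PA.one]
  cases f.v.testBit 0 <;> cases f.v.testBit 1 <;> cases f.v.testBit 2 <;> simp [rho_zero]

theorem dot_add (f ζ η : Z3) : dot f (ζ + η) = (dot f ζ ^^ dot f η) := by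
  rw [dot_comm, add_dot, dot_comm ζ, dot_comm η]

theorem ex_frame : ∀ f : Z3, f ≠ 0 → ∃ a b c, Ind a b c ∧ dot f a = false ∧ dot f b = false ∧
    dot f c = true ∧ ∀ ζ, dot f (comb a b c ζ) = ζ.v.testBit 2 := by decide +kernel

theorem br_bit (f g : M12) (h1 : g.1 = 0) (h2 : g.2.1 = 0) : (br f g).v.testBit 2 = false := by
  have d : ∀ a b : Bool, (mk3 a b false).v.testBit 2 = false := by decide +kernel
  rw [br, h1, h2, beta_zero' f.1, beta_zero' f.2.1, Bool.xor_false false]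
  exact d _ _

theorem bool7 (x1 y1 x2 y2 x3 y3 x4 y4 x5 y5 x6 y6 x7 y7 w : Bool) :
    (x1 ^^ y1 ^^ (x2 ^^ y2) ^^ (x3 ^^ y3) ^^ (false ^^ (x4 ^^ y4)) ^^ (false ^^ (x5 ^^ y5)) ^^
      (false ^^ (x6 ^^ y6)) ^^ (w ^^ (x7 ^^ y7))) =
    (x1 ^^ x2 ^^ x3 ^^ x4 ^^ x5 ^^ x6 ^^ x7 ^^ (y1 ^^ y2 ^^ y3 ^^ y4 ^^ y5 ^^ y6 ^^ y7) ^^ w) := by
  revert x1 y1 x2 y2 x3 y3 x4 y4 x5 y5 x6 y6 x7 y7 w
  decide +kernel

theorem no_form (t : N4 → Bool) (h : ∀ u v, t (u + v) = (t u ^^ t v ^^ beta u v))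
    (h3 : ∀ u, t (rho s3 u) = t u) (h5 : ∀ u, t (rho s5 u) = t u) : False := by
  have e : ∀ u, t (u + rho s5 u) = beta u (rho s5 u) := fun u => by rw [h, h5]; simp
  obtain ⟨u, u', e1, e2⟩ : ∃ u u' : N4, u' + rho s5 u' = rho s3 (u + rho s5 u) ∧
      beta u (rho s5 u) ≠ beta u' (rho s5 u') := by decide +kernel
  exact e2 (by rw [← e, ← e, e1, h3])

variable {G : Type*} [Group G] {K L Z : Subgroup G} {π : G → Perm (Fin 5)} {κ : G → Perm Z3}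
  {ψ : G → Z3} {Φ : G → M12}

/-- Elements of `L` over a map of rank at most one. -/
def Ov (L : Subgroup G) (Φ : G → M12) (f : Z3) (u : N4) (a : G) : Prop := a ∈ L ∧ Φ a = one u f

/-- A family of linear forms on the seven subgroups of order `2^7`. -/
structure Fam (L Z : Subgroup G) (ψ : G → Z3) (Φ : G → M12) (E : Z3 → G → Bool) : Prop where
  mul : ∀ f ≠ 0, ∀ u v a b, Ov L Φ f u a → Ov L Φ f v b → E f (a * b) = (E f a ^^ E f b)
  onZ : ∀ f ≠ 0, ∀ a ∈ Z, E f a = dot f (ψ a)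

/-- The sum over the seven forms. -/
def T (E : Z3 → G → Bool) (a b c : G) : Bool :=
  E b1 a ^^ E b2 b ^^ E b3 c ^^ E (b1 + b2) (a * b) ^^ E (b1 + b3) (a * c) ^^ E (b2 + b3) (b * c) ^^
    E (b1 + b2 + b3) (a * b * c)

variable (h : Pent K L Z π κ ψ Φ)
include h

theorem Ov.mul {f : Z3} {u v : N4} {a b : G} (ha : Ov L Φ f u a) (hb : Ov L Φ f v b) :
    Ov L Φ f (u + v) (a * b) :=
  ⟨mul_mem ha.1 hb.1, by rw [h.Φ_mul a ha.1 b hb.1, ha.2, hb.2, one_add]⟩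

theorem Ov.mul' {f g : Z3} {u : N4} {a b : G} (ha : Ov L Φ f u a) (hb : Ov L Φ g u b) :
    Ov L Φ (f + g) u (a * b) :=
  ⟨mul_mem ha.1 hb.1, by rw [h.Φ_mul a ha.1 b hb.1, ha.2, hb.2, one_add']⟩

theorem ov_Z (f : Z3) {a : G} (ha : a ∈ Z) : Ov L Φ f 0 a :=
  ⟨h.ZL ha, by rw [h.Φ_Z ha, one_zero]⟩

theorem Ov.conj {f : Z3} {u : N4} {a g : G} (ha : Ov L Φ f u a) (hg : g ∈ K) (e : κ g = 1) :
    Ov L Φ f (rho (π g) u) (g * a * g⁻¹) :=
  ⟨h.conj_L hg ha.1, by rw [h.Φ_conj0 hg e ha.1, ha.2, one_rho]⟩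

theorem swap4 {a b a' b' : G} (ha : a ∈ L) (hb : b ∈ L) (ha' : a' ∈ L) :
    a * b * (a' * b') = b * a' * b⁻¹ * a'⁻¹ * (a * a' * (b * b')) := by
  have := h.LZ ha (h.comm b hb a' ha').1
  calc a * b * (a' * b') = a * (b * a' * b⁻¹ * a'⁻¹) * (a' * (b * b')) := by group
    _ = _ := by rw [this]; group

variable {E : Z3 → G → Bool} (F : Fam L Z ψ Φ E)
include F

theorem Fam.zmul {f : Z3} (hf : f ≠ 0) {u : N4} {a c : G} (hc : c ∈ Z) (ha : Ov L Φ f u a) :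
    E f (c * a) = (dot f (ψ c) ^^ E f a) := by
  rw [F.mul f hf 0 u c a (ov_Z h f hc) ha, F.onZ f hf c hc]

theorem Fam.mul4 {f : Z3} (hf : f ≠ 0) {u v : N4} {a b a' b' : G} (ha : a ∈ L) (hb : b ∈ L)
    (ha' : a' ∈ L) (h1 : Ov L Φ f u (a * a')) (h2 : Ov L Φ f v (b * b')) :
    E f (a * b * (a' * b')) = (dot f (br (Φ b) (Φ a')) ^^ (E f (a * a') ^^ E f (b * b'))) := by
  rw [swap4 h ha hb ha', F.zmul h hf (h.comm b hb a' ha').1 (h1.mul h h2), (h.comm b hb a' ha').2,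
    F.mul f hf u v _ _ h1 h2]

theorem Fam.T_mul {u v : N4} {a b c a' b' c' : G} (ha : Ov L Φ b1 u a) (hb : Ov L Φ b2 u b)
    (hc : Ov L Φ b3 u c) (ha' : Ov L Φ b1 v a') (hb' : Ov L Φ b2 v b') (hc' : Ov L Φ b3 v c') :
    T E (a * a') (b * b') (c * c') = (T E a b c ^^ T E a' b' c' ^^ beta u v) := by
  have d12 : ∀ u v : N4, dot (b1 + b2) (br (one v b1) (one u b2)) = false := by decide +kernel
  have d13 : ∀ u v : N4, dot (b1 + b3) (br (one v b1) (one u b3)) = false := by decide +kernel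
  have d23 : ∀ u v : N4, dot (b2 + b3) (br (one v b2) (one u b3)) = false := by decide +kernel
  have d7 : ∀ u v : N4, (dot (b1 + b2 + b3) (br (one v b1) (one u b2)) ^^
      dot (b1 + b2 + b3) (br (one v (b1 + b2)) (one u b3))) = beta u v := by decide +kernel
  have e1 := F.mul b1 (by decide) u v _ _ ha ha'
  have e2 := F.mul b2 (by decide) u v _ _ hb hb'
  have e3 := F.mul b3 (by decide) u v _ _ hc hc'
  have e12 := F.mul4 h (f := b1 + b2) (by decide) ha.1 ha'.1 hb.1 (ha.mul' h hb) (ha'.mul' h hb')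
  have e13 := F.mul4 h (f := b1 + b3) (by decide) ha.1 ha'.1 hc.1 (ha.mul' h hc) (ha'.mul' h hc')
  have e23 := F.mul4 h (f := b2 + b3) (by decide) hb.1 hb'.1 hc.1 (hb.mul' h hc) (hb'.mul' h hc')
  have p := (ha.mul' h hb).mul' h hc
  have p' := (ha'.mul' h hb').mul' h hc'
  have e7 := F.mul4 h (f := b1 + b2 + b3) (by decide) (ha.mul' h hb).1 (ha'.mul' h hb').1 hc.1 p p'
  have q : Ov L Φ (b1 + b2 + b3) (u + v) (a * b * (a' * b') * (c * c')) := by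
    refine ⟨mul_mem (mul_mem (ha.mul' h hb).1 (ha'.mul' h hb').1) (hc.mul h hc').1, ?_⟩
    rw [h.Φ_mul _ ((ha.mul' h hb).mul h (ha'.mul' h hb')).1 _ (hc.mul h hc').1,
      ((ha.mul' h hb).mul h (ha'.mul' h hb')).2, (hc.mul h hc').2, ← one_add']
  have e7' : E (b1 + b2 + b3) (a * a' * (b * b') * (c * c')) = (dot (b1 + b2 + b3) (br (Φ a') (Φ b)) ^^
      E (b1 + b2 + b3) (a * b * (a' * b') * (c * c'))) := by
    rw [swap4 h ha.1 ha'.1 hb.1, mul_assoc (a' * b * a'⁻¹ * b⁻¹),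
      F.zmul h (by decide) (h.comm a' ha'.1 b hb.1).1 q, (h.comm a' ha'.1 b hb.1).2]
  rw [e7, (ha'.mul' h hb').2] at e7'
  rw [ha'.2, hb.2, d12] at e12
  rw [ha'.2, hc.2, d13] at e13
  rw [hb'.2, hc.2, d23] at e23
  rw [ha'.2, hb.2, hc.2, ← Bool.xor_assoc, d7] at e7'
  rw [T, T, T, e1, e2, e3, e12, e13, e23, e7']
  exact bool7 ..

theorem Fam.T_Z {a b c : G} (ha : a ∈ Z) (hb : b ∈ Z) (hc : c ∈ Z) : T E a b c = false := by
  have d : ∀ x y w : Z3, (dot b1 x ^^ dot b2 y ^^ dot b3 w ^^ dot (b1 + b2) (x + y) ^^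
      dot (b1 + b3) (x + w) ^^ dot (b2 + b3) (y + w) ^^ dot (b1 + b2 + b3) (x + y + w)) = false := by
    decide +kernel
  simp only [T]
  rw [F.onZ _ (by decide) _ ha, F.onZ _ (by decide) _ hb, F.onZ _ (by decide) _ hc,
    F.onZ _ (by decide) _ (mul_mem ha hb), F.onZ _ (by decide) _ (mul_mem ha hc),
    F.onZ _ (by decide) _ (mul_mem hb hc), F.onZ _ (by decide) _ (mul_mem (mul_mem ha hb) hc),
    h.ψ_mul _ (mul_mem ha hb) _ hc, h.ψ_mul _ ha _ hb, h.ψ_mul _ ha _ hc, h.ψ_mul _ hb _ hc, d]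

theorem Fam.T_eq {u : N4} {a b c a' b' c' : G} (ha : Ov L Φ b1 u a) (hb : Ov L Φ b2 u b)
    (hc : Ov L Φ b3 u c) (ha' : Ov L Φ b1 u a') (hb' : Ov L Φ b2 u b') (hc' : Ov L Φ b3 u c') :
    T E a' b' c' = T E a b c := by
  have m1 := (h.Φ_eq_iff ha.1 ha'.1).1 (ha.2.trans ha'.2.symm)
  have m2 := (h.Φ_eq_iff hb.1 hb'.1).1 (hb.2.trans hb'.2.symm)
  have m3 := (h.Φ_eq_iff hc.1 hc'.1).1 (hc.2.trans hc'.2.symm)
  have := F.T_mul h ha hb hc (ov_Z h _ m1) (ov_Z h _ m2) (ov_Z h _ m3)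
  rw [F.T_Z h m1 m2 m3, beta_zero'] at this
  simpa using this

theorem Fam.false {x y : G} (hx : x ∈ K) (hy : y ∈ K) (kx : κ x = 1) (ky : κ y = 1) (px : π x = s3)
    (py : π y = s5) (ix : ∀ f ≠ 0, ∀ u a, Ov L Φ f u a → E f (x * a * x⁻¹) = E f a)
    (iy : ∀ f ≠ 0, ∀ u a, Ov L Φ f u a → E f (y * a * y⁻¹) = E f a) : False := by
  choose r hr using fun (u : N4) (f : Z3) => h.Φ_surj (one u f)
  have o : ∀ u f, Ov L Φ f u (r u f) := hr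
  have inv : ∀ g ∈ K, κ g = 1 → (∀ f ≠ 0, ∀ u a, Ov L Φ f u a → E f (g * a * g⁻¹) = E f a) → ∀ u,
      T E (r (rho (π g) u) b1) (r (rho (π g) u) b2) (r (rho (π g) u) b3) =
        T E (r u b1) (r u b2) (r u b3) := fun g hg e i u => by
    rw [F.T_eq h ((o u b1).conj h hg e) ((o u b2).conj h hg e) ((o u b3).conj h hg e) (o _ _) (o _ _)
      (o _ _)]
    simp only [T, conj_mul]
    rw [i _ (by decide) _ _ (o u b1), i _ (by decide) _ _ (o u b2), i _ (by decide) _ _ (o u b3),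
      i _ (by decide) _ _ ((o u b1).mul' h (o u b2)), i _ (by decide) _ _ ((o u b1).mul' h (o u b3)),
      i _ (by decide) _ _ ((o u b2).mul' h (o u b3)),
      i _ (by decide) _ _ (((o u b1).mul' h (o u b2)).mul' h (o u b3))]
  refine no_form (fun u => T E (r u b1) (r u b2) (r u b3)) (fun u v => ?_)
    (fun u => px ▸ inv x hx kx ix u) (fun u => py ▸ inv y hy ky iy u)
  rw [← F.T_mul h (o u _) (o u _) (o u _) (o v _) (o v _) (o v _)]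
  exact F.T_eq h ((o u _).mul h (o v _)) ((o u _).mul h (o v _)) ((o u _).mul h (o v _)) (o _ _)
    (o _ _) (o _ _)

end PD

open PA PD

variable {G : Type*} [Group G] {K L Z : Subgroup G} {π : G → Perm (Fin 5)} {κ : G → Perm Z3}
  {ψ : G → Z3} {Φ : G → M12}

theorem Pent.nonsplit (h : Pent K L Z π κ ψ Φ) (ε : G → Bool)
    (hm : ∀ a ∈ L, ∀ b ∈ L, (Φ a).1 = 0 → (Φ a).2.1 = 0 → (Φ b).1 = 0 → (Φ b).2.1 = 0 →
      ε (a * b) = (ε a ^^ ε b))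
    (hZ : ∀ a ∈ Z, ε a = (ψ a).v.testBit 2) {x y : G} (hx : x ∈ K) (hy : y ∈ K) (kx : κ x = 1)
    (ky : κ y = 1) (px : π x = s3) (py : π y = s5)
    (ix : ∀ a ∈ L, (Φ a).1 = 0 → (Φ a).2.1 = 0 → ε (x * a * x⁻¹) = ε a)
    (iy : ∀ a ∈ L, (Φ a).1 = 0 → (Φ a).2.1 = 0 → ε (y * a * y⁻¹) = ε a) : False := by
  have ex : ∀ f : Z3, ∃ k, f ≠ 0 → k ∈ K ∧ π k = 1 ∧ (∀ ζ, dot f (κ k ζ) = ζ.v.testBit 2) ∧
      ∀ u a, Ov L Φ f u a → (Φ (k⁻¹ * a * k)).1 = 0 ∧ (Φ (k⁻¹ * a * k)).2.1 = 0 := fun f => by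
    by_cases hf : f = 0
    · exact ⟨1, fun e => absurd hf e⟩
    obtain ⟨a, b, c, hi, e1, e2, -, e4⟩ := ex_frame f hf
    obtain ⟨k, hk, p, k1, k2, k3⟩ := h.exK 1 hi
    refine ⟨k, fun _ => ⟨hk, p, fun ζ => by rw [h.κ_eq hk, k1, k2, k3, e4], fun u l hl => ?_⟩⟩
    rw [h.Φ_pull hk hl.1, hl.2, pull, k1, k2, ev_one', ev_one', e1, e2]
    exact ⟨rho_zero _, rho_zero _⟩
  choose k hk using ex
  have iL : ∀ m ∈ L, ∀ a ∈ L, (Φ a).1 = 0 → (Φ a).2.1 = 0 → ε (m * a * m⁻¹) = ε a :=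
    fun m hm' a ha h1 h2 => by
      have c := h.comm m hm' a ha
      rw [show m * a * m⁻¹ = m * a * m⁻¹ * a⁻¹ * a by group, hm _ (h.ZL c.1) a ha
        (by rw [h.Φ_Z c.1]; rfl) (by rw [h.Φ_Z c.1]; rfl) h1 h2, hZ _ c.1, c.2, br_bit _ _ h1 h2,
        Bool.false_xor]
  have inv : ∀ g ∈ K, κ g = 1 → (∀ a ∈ L, (Φ a).1 = 0 → (Φ a).2.1 = 0 → ε (g * a * g⁻¹) = ε a) →
      ∀ f ≠ 0, ∀ u a, Ov L Φ f u a →
        ε ((k f)⁻¹ * (g * a * g⁻¹) * k f) = ε ((k f)⁻¹ * a * k f) := fun g hg e i f hf u a ha => by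
    obtain ⟨k1, k2, -, k4⟩ := hk f hf
    have hc : (k f)⁻¹ * g * (k f)⁻¹⁻¹ ∈ K := mul_mem (mul_mem (inv_mem k1) hg) (inv_mem (inv_mem k1))
    have hmL : g⁻¹ * ((k f)⁻¹ * g * (k f)⁻¹⁻¹) ∈ L := by
      refine h.mem_L (mul_mem (inv_mem hg) hc) ?_ ?_
      · rw [h.π_mul _ (inv_mem hg) _ hc, h.π_conj (inv_mem k1) hg, h.π_inv k1, k2, h.π_inv hg]; simp
      · rw [h.κ_mul _ (inv_mem hg) _ hc, h.κ_conj (inv_mem k1) hg, h.κ_inv hg, e]; simp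
    have hl := h.conj_L' k1 ha.1
    obtain ⟨z1, z2⟩ := k4 u a ha
    rw [← iL _ hmL _ hl z1 z2, ← i _ (h.conj_L (h.LK hmL) hl)]
    · congr 1; group
    · rw [h.Φ_conj0 (h.LK hmL) (h.κ_L hmL) hl, z1]; exact rho_zero _
    · rw [h.Φ_conj0 (h.LK hmL) (h.κ_L hmL) hl, z2]; exact rho_zero _
  refine Fam.false h (E := fun f a => ε ((k f)⁻¹ * a * k f)) ⟨fun f hf u v a b ha hb => ?_,
    fun f hf a ha => ?_⟩ hx hy kx ky px py (inv x hx kx ix) (inv y hy ky iy)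
  · obtain ⟨k1, -, -, k4⟩ := hk f hf
    rw [← hm _ (h.conj_L' k1 ha.1) _ (h.conj_L' k1 hb.1) (k4 u a ha).1 (k4 u a ha).2 (k4 v b hb).1
      (k4 v b hb).2]
    congr 1; group
  · obtain ⟨k1, -, k3, -⟩ := hk f hf
    have hz := h.conj_Z' k1 ha
    rw [hZ _ hz, ← k3, ← h.ψ_conj _ k1 _ hz]
    congr 2; group

end Cfsg.Lib.J4T
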