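import Cfsg.Agent.J4T.PD0

/-! The centraliser of the four-group `⟨z, s⟩` normalises `Z`. -/

set_option autoImplicit false
set_option maxRecDepth 100000

namespace Cfsg.Lib.J4T

open Subgroup Equiv Cfsg.Lib.Local

namespace PD

theorem abs31 {X : Type*} [Group X] [Finite X] (H : Subgroup X) (hi : H.index = 31)
    (hc : Nat.card H = 120) {x y : X} (hx : x ∈ H) (hy : y ∈ H) (g : X) :
    g⁻¹ * (x * y * x⁻¹ * y⁻¹) * g ∈ H := by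
  haveI : Fact (Nat.Prime 31) := ⟨by norm_num⟩
  have hX : Nat.card X = 120 * 31 := by rw [← H.card_mul_index, hi, hc]
  obtain ⟨p, hp⟩ := exists_prime_orderOf_dvd_card' (G := X) 31 (by rw [hX]; norm_num)
  have cP : Nat.card (zpowers p) = 31 := by rw [Nat.card_zpowers, hp]
  have iP : (zpowers p).index = 120 := by
    have := (zpowers p).card_mul_index
    rw [cP, hX] at this; omega
  let P : Sylow 31 X := (IsPGroup.of_card (n := 1) (by rw [cP]; rfl)).toSylow (by rw [iP]; norm_num)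
  have h1 := P.card_dvd_index
  have h2 := card_sylow_modEq_one 31 X
  have h3 : Nat.card (Sylow 31 X) = 1 := by
    change _ ∣ (zpowers p).index at h1
    rw [iP] at h1
    have h4 := Nat.le_of_dvd (by norm_num) h1
    unfold Nat.ModEq at h2
    generalize Nat.card (Sylow 31 X) = n at h1 h2 h4
    interval_cases n <;> omega
  haveI := (Nat.card_eq_one_iff_unique.1 h3).1
  have hn : (zpowers p).Normal := P.normal_of_subsingleton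
  obtain ⟨a, ha⟩ := mem_zpowers_iff.1 (hn.conj_mem p (mem_zpowers p) x⁻¹)
  obtain ⟨b, hb⟩ := mem_zpowers_iff.1 (hn.conj_mem p (mem_zpowers p) y⁻¹)
  have e1 : (x * y)⁻¹ * p * (x * y)⁻¹⁻¹ = (y * x)⁻¹ * p * (y * x)⁻¹⁻¹ := by
    calc (x * y)⁻¹ * p * (x * y)⁻¹⁻¹ = y⁻¹ * (x⁻¹ * p * x⁻¹⁻¹) * y⁻¹⁻¹ := by group
      _ = (p ^ b) ^ a := by rw [← ha, ← conj_zpow, hb]
      _ = (p ^ a) ^ b := by rw [← zpow_mul, ← zpow_mul, mul_comm]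
      _ = x⁻¹ * (y⁻¹ * p * y⁻¹⁻¹) * x⁻¹⁻¹ := by rw [← hb, ← conj_zpow, ha]
      _ = _ := by group
  have e2 : Commute (x * y * x⁻¹ * y⁻¹) p := by
    calc x * y * x⁻¹ * y⁻¹ * p = x * y * ((y * x)⁻¹ * p * (y * x)⁻¹⁻¹) * (y * x)⁻¹ := by group
      _ = _ := by rw [← e1]; group
  have hcomp : IsComplement' (zpowers p) H :=
    isComplement'_of_coprime (by rw [cP, hc, hX]) (by rw [cP, hc]; norm_num)
  obtain ⟨⟨⟨q, hq⟩, ⟨k, hk⟩⟩, e⟩ := hcomp.2 g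
  obtain ⟨n, rfl⟩ := mem_zpowers_iff.1 hq
  have e3 : g⁻¹ * (x * y * x⁻¹ * y⁻¹) * g = k⁻¹ * (x * y * x⁻¹ * y⁻¹) * k := by
    have := (e2.zpow_right n).eq
    calc g⁻¹ * (x * y * x⁻¹ * y⁻¹) * g
        = k⁻¹ * (p ^ n)⁻¹ * (x * y * x⁻¹ * y⁻¹ * p ^ n) * k := by rw [← e]; group
      _ = _ := by rw [this]; group
  rw [e3]
  exact mul_mem (mul_mem (inv_mem hk) (mul_mem (mul_mem (mul_mem hx hy) (inv_mem hx)) (inv_mem hy))) hk

theorem abs31' {X : Type*} [Group X] [Finite X] (N H : Subgroup X) [N.Normal] (hN : N ≤ H)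
    (hi : H.index = 31) (hc : N.relIndex H = 120) {x y : X} (hx : x ∈ H) (hy : y ∈ H) (g : X) :
    g⁻¹ * (x * y * x⁻¹ * y⁻¹) * g ∈ H := by
  have k := QuotientGroup.ker_mk' N
  have := abs31 (H.map (QuotientGroup.mk' N))
    (by rw [index_map_eq _ (QuotientGroup.mk'_surjective N) (by rw [k]; exact hN), hi])
    (by rw [← relIndex_ker, k, hc]) (mem_map_of_mem _ hx) (mem_map_of_mem _ hy)
    (QuotientGroup.mk' N g)
  rw [← comap_map_eq_self (f := QuotientGroup.mk' N) (H := H) (by rw [k]; exact hN), mem_comap]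
  simpa only [map_mul, map_inv] using this

variable {G : Type*} [Group G]

theorem ncard_cls (N : Subgroup G) (c : G) :
    {y : G | ∃ n ∈ N, n * c * n⁻¹ = y}.ncard = (centralizer ({c} : Set G)).relIndex N := by
  let _ : MulAction N G := MulAction.compHom _ (MulAut.conj.comp N.subtype)
  have h1 := MulAction.index_stabilizer N c
  have h2 : MulAction.stabilizer N c = (centralizer ({c} : Set G)).subgroupOf N := by
    ext a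
    rw [MulAction.mem_stabilizer_iff, mem_subgroupOf, mem_centralizer_singleton_iff]
    change (a : G) * c * (a : G)⁻¹ = c ↔ _
    rw [mul_inv_eq_iff_eq_mul]
  have h3 : MulAction.orbit N c = {y : G | ∃ n ∈ N, n * c * n⁻¹ = y} := by
    ext y
    exact ⟨fun ⟨a, h⟩ => ⟨a, a.2, h⟩, fun ⟨a, ha, h⟩ => ⟨⟨a, ha⟩, h⟩⟩
  rw [← h3, ← h1, h2]
  rfl

/-- The elements of `C` acting trivially on `D / Y`. -/
def actK (C D Y : Subgroup G) (hD : ∀ g ∈ C, ∀ d ∈ D, g * d * g⁻¹ ∈ D)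
    (hY : ∀ g ∈ C, ∀ a ∈ Y, g * a * g⁻¹ = a) : Subgroup G where
  carrier := {g | g ∈ C ∧ ∀ d ∈ D, g * d * g⁻¹ * d⁻¹ ∈ Y}
  one_mem' := ⟨C.one_mem, fun d _ => by simp⟩
  mul_mem' {g g'} hg hg' := ⟨mul_mem hg.1 hg'.1, fun d hd => by
    rw [show g * g' * d * (g * g')⁻¹ * d⁻¹ =
      g * (g' * d * g'⁻¹ * d⁻¹) * g⁻¹ * (g * d * g⁻¹ * d⁻¹) by group, hY g hg.1 _ (hg'.2 d hd)]
    exact mul_mem (hg'.2 d hd) (hg.2 d hd)⟩
  inv_mem' {g} hg := ⟨inv_mem hg.1, fun d hd => by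
    have := inv_mem (hg.2 _ (hD _ (inv_mem hg.1) d hd))
    rwa [show (g * (g⁻¹ * d * g⁻¹⁻¹) * g⁻¹ * (g⁻¹ * d * g⁻¹⁻¹)⁻¹)⁻¹ = g⁻¹ * d * g⁻¹⁻¹ * d⁻¹ by group]
      at this⟩

theorem actK_normal (C D Y : Subgroup G) (hD : ∀ g ∈ C, ∀ d ∈ D, g * d * g⁻¹ ∈ D)
    (hY : ∀ g ∈ C, ∀ a ∈ Y, g * a * g⁻¹ = a) : ((actK C D Y hD hY).subgroupOf C).Normal :=
  ⟨fun g hg c => ⟨(c * g * c⁻¹).2, fun d hd => by
    have := hg.2 _ (hD _ (inv_mem c.2) d hd)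
    rw [← hY c c.2 _ this] at this
    convert this using 1
    simp only [coe_subtype, coe_mul, coe_inv]
    group⟩⟩

/-- The maps vanishing on the first two basis vectors. -/
def A3 : AddSubgroup M12 where
  carrier := {f | f.1 = 0 ∧ f.2.1 = 0}
  zero_mem' := ⟨rfl, rfl⟩
  add_mem' {f g} hf hg := ⟨by rw [Prod.fst_add, hf.1, hg.1, add_zero],
    by rw [Prod.snd_add, Prod.fst_add, hf.2, hg.2, add_zero]⟩
  neg_mem' hf := hf

theorem bit_add (ζ η : Z3) : (ζ + η).v.testBit 2 = (ζ.v.testBit 2 ^^ η.v.testBit 2) :=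
  Nat.testBit_xor _ _ _

end PD

open PD

variable {G : Type*} [Group G] {K L Z Q : Subgroup G} {π : G → Perm (Fin 5)} {κ : G → Perm Z3}
  {ψ : G → Z3} {Φ : G → M12} {z s : G}

/-- The four-group generated by the first two basis vectors. -/
def Pent.Y2 (h : Pent K L Z π κ ψ Φ) : Subgroup G where
  carrier := {a | a ∈ Z ∧ (ψ a).v.testBit 2 = false}
  one_mem' := ⟨Z.one_mem, by rw [h.ψ_one]; rfl⟩
  mul_mem' {a b} ha hb := ⟨mul_mem ha.1 hb.1, by rw [h.ψ_mul a ha.1 b hb.1, bit_add, ha.2, hb.2]; rfl⟩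
  inv_mem' {a} ha := by rw [h.Z_inv ha.1]; exact ha

theorem Pent.ncard_Z (h : Pent K L Z π κ ψ Φ) (p : Z3 → Prop) [DecidablePred p] :
    {a | a ∈ Z ∧ p (ψ a)}.ncard = (Finset.univ.filter p).card := by
  rw [← Set.ncard_coe_finset]
  refine Set.ncard_congr (fun a _ => ψ a) (fun a ha => by simpa using ha.2)
    (fun a b ha hb e => h.ψ_ext ha.1 hb.1 e) fun ζ hζ => ?_
  obtain ⟨a, ha, rfl⟩ := h.ψ_surj ζ
  exact ⟨a, ⟨ha, by simpa using hζ⟩, rfl⟩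

namespace PQ

variable (h : PQ K L Z Q π κ ψ Φ z s)
include h

theorem mem_C2 {k : G} (hk : k ∈ K) : k ∈ centralizer ({z} : Set G) ⊓ centralizer ({s} : Set G) ↔
    κ k b1 = b1 ∧ κ k b2 = b2 := by rw [mem_inf, h.mem_H hk, h.mem_S hk]

theorem C0_le {k : G} (hk : k ∈ K) (e : κ k = 1) :
    k ∈ centralizer ({z} : Set G) ⊓ centralizer ({s} : Set G) :=
  (h.mem_C2 hk).2 (by rw [e]; exact ⟨rfl, rfl⟩)

theorem Y2_fix (g : G) (hg : g ∈ centralizer ({z} : Set G) ⊓ centralizer ({s} : Set G)) (a : G)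
    (ha : a ∈ h.Y2) : g * a * g⁻¹ = a := by
  have d : ∀ ζ : Z3, ζ.v.testBit 2 = false → ζ = 0 ∨ ζ = b1 ∨ ζ = b2 ∨ ζ = b1 + b2 := by
    decide +kernel
  rcases d _ ha.2 with e | e | e | e
  · rw [h.ψ_inj a ha.1 e]; simp
  · rw [h.ψ_ext ha.1 h.zZ (e.trans h.ψz.symm)]; exact mC'.1 hg.1
  · rw [h.ψ_ext ha.1 h.sZ (e.trans h.ψs.symm)]; exact mC'.1 hg.2
  · rw [h.ψ_ext ha.1 (mul_mem h.zZ h.sZ) (by rw [e, h.ψ_mul _ h.zZ _ h.sZ, h.ψz, h.ψs]), ← conj_mul,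
      mC'.1 hg.1, mC'.1 hg.2]

theorem ex_k0 : ∃ k ∈ K, π k = 1 ∧ κ k b1 = b2 ∧ κ k b2 = b1 ∧ κ k b3 = b3 ∧ k * z * k⁻¹ = s ∧
    ∀ a, a ∈ h.sub A3 ↔ a ∈ Q ∧ k⁻¹ * a * k ∈ Q := by
  obtain ⟨k, hk, p, k1, k2, k3⟩ := h.exK 1 (a := b2) (b := b1) (c := b3) (by decide)
  have e : ∀ a ∈ L, (Φ (k⁻¹ * a * k)).1 = (Φ a).2.1 := fun a ha => by
    rw [h.Φ_pull hk ha, pull, p, inv_one, rho_one, k1, ev_two]
  refine ⟨k, hk, p, k1, k2, k3, (h.conj_eq_iff hk h.zZ h.sZ).2 (by rw [h.ψz, h.ψs, k1]), fun a =>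
    ⟨fun ha => ⟨(h.QL a ha.1).2 ha.2.1, (h.QL _ (h.conj_L' hk ha.1)).2 ((e a ha.1).trans ha.2.2)⟩,
      fun ⟨h1, h2⟩ => ?_⟩⟩
  have ha : a ∈ L := h.mem_L_of_Q h1 (Equiv.ext fun ζ => by
    have d : ∀ ζ η : Z3, η = ζ ∨ η = ζ + b1 → η = ζ ∨ η = ζ + b2 → η = ζ := by decide +kernel
    refine d ζ _ (h.κQ a h1 ζ) ?_
    have e1 : κ a ζ = κ k (κ (k⁻¹ * a * k) ((κ k)⁻¹ ζ)) := by
      rw [h.κ_mul _ (mul_mem (inv_mem hk) (h.QK h1)) _ hk, h.κ_mul _ (inv_mem hk) _ (h.QK h1),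
        h.κ_inv hk]
      simp
    rcases h.κQ _ h2 ((κ k)⁻¹ ζ) with e2 | e2
    · left; rw [e1, e2]; simp
    · right; rw [e1, e2, h.κ_add k hk, k1]; simp)
  exact ⟨ha, (h.QL a ha).1 h1, (e a ha).symm.trans ((h.QL _ (h.conj_L' hk ha)).1 h2)⟩

theorem D_conj (g : G) (hg : g ∈ centralizer ({z} : Set G) ⊓ centralizer ({s} : Set G)) (d : G)
    (hd : d ∈ h.sub A3) : g * d * g⁻¹ ∈ h.sub A3 := by
  obtain ⟨k, -, -, -, -, -, e, hk⟩ := h.ex_k0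
  obtain ⟨h1, h2⟩ := (hk d).1 hd
  refine (hk _).2 ⟨h.conj_Q hg.1 h1, ?_⟩
  have hc : k⁻¹ * g * k ∈ centralizer ({z} : Set G) := mC'.2 (by
    calc k⁻¹ * g * k * z * (k⁻¹ * g * k)⁻¹ = k⁻¹ * (g * (k * z * k⁻¹) * g⁻¹) * k := by group
      _ = z := by rw [e, mC'.1 hg.2, ← e]; group)
  convert h.conj_Q hc h2 using 1
  group

theorem mem_actK {k : G} (hk : k ∈ K) (p : π k = 1) (e1 : κ k b1 = b1) (e2 : κ k b2 = b2) :
    k ∈ actK _ _ _ h.D_conj h.Y2_fix := by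
  obtain ⟨k0, hk0, p0, k1, k2, k3, e, hD⟩ := h.ex_k0
  have zY : ∀ w ∈ zpowers z, w ∈ h.Y2 := fun w hw =>
    ⟨(h.zp.1 hw).1, by rcases (h.zp.1 hw).2 with e | e <;> rw [e] <;> rfl⟩
  have d : ∀ c : Z3, Ind b1 b2 c → ∃ c1 c2 : Z3, (c1 = b3 ∨ c1 = b3 + b1) ∧ (c2 = b3 ∨ c2 = b3 + b1) ∧
      comb b1 b2 c1 (comb b2 b1 b3 c2) = c := by decide +kernel
  obtain ⟨c1, c2, h1, h2, h3⟩ := d (κ k b3) (by have := h.κ_ind hk; rwa [e1, e2] at this)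
  obtain ⟨q, hq, q2, q3⟩ := h.Qsurj b2 c1 (.inl rfl) h1
  obtain ⟨r, hr, r2, r3⟩ := h.Qsurj b2 c2 (.inl rfl) h2
  have q1 := h.κQ1 hq
  have r1 := h.κQ1 hr
  have qK := h.QK hq
  have rK := h.QK hr
  have tK : k0 * r * k0⁻¹ ∈ K := mul_mem (mul_mem hk0 rK) (inv_mem hk0)
  have i1 : (κ k0)⁻¹ b1 = b2 := by rw [Perm.inv_eq_iff_eq, k2]
  have i2 : (κ k0)⁻¹ b2 = b1 := by rw [Perm.inv_eq_iff_eq, k1]
  have i3 : (κ k0)⁻¹ b3 = b3 := by rw [Perm.inv_eq_iff_eq, k3]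
  have t1 : κ (k0 * r * k0⁻¹) b1 = b1 := by
    rw [h.κ_conj hk0 rK, Perm.mul_apply, Perm.mul_apply, i1, r2, k2]
  have t2 : κ (k0 * r * k0⁻¹) b2 = b2 := by
    rw [h.κ_conj hk0 rK, Perm.mul_apply, Perm.mul_apply, i2, r1, k1]
  have t3 : κ (k0 * r * k0⁻¹) b3 = comb b2 b1 b3 c2 := by
    rw [h.κ_conj hk0 rK, Perm.mul_apply, Perm.mul_apply, i3, r3, h.κ_eq hk0, k1, k2, k3]
  have mq : q ∈ actK _ _ _ h.D_conj h.Y2_fix :=
    ⟨(h.mem_C2 qK).2 ⟨q1, q2⟩, fun d hd => zY _ (h.pre.comm_mem hq ((hD d).1 hd).1)⟩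
  have mt : k0 * r * k0⁻¹ ∈ actK _ _ _ h.D_conj h.Y2_fix := by
    refine ⟨(h.mem_C2 tK).2 ⟨t1, t2⟩, fun d hd => ?_⟩
    have c := h.zp.1 (h.pre.comm_mem hr ((hD d).1 hd).2)
    rw [show k0 * r * k0⁻¹ * d * (k0 * r * k0⁻¹)⁻¹ * d⁻¹ =
      k0 * (r * (k0⁻¹ * d * k0) * r⁻¹ * (k0⁻¹ * d * k0)⁻¹) * k0⁻¹ by group]
    refine ⟨h.conj_Z hk0 c.1, ?_⟩
    rw [h.ψ_conj _ hk0 _ c.1]
    rcases c.2 with e | e <;> rw [e]
    · rw [h.κ_zero hk0]; rfl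
    · rw [k1]; rfl
  have uK := mul_mem qK tK
  have hl : (q * (k0 * r * k0⁻¹))⁻¹ * k ∈ L := by
    refine h.mem_L (mul_mem (inv_mem uK) hk) ?_ ?_
    · rw [h.π_mul _ (inv_mem uK) _ hk, h.π_inv uK, h.π_mul _ qK _ tK, h.π_conj hk0 rK, h.πQ q hq,
        h.πQ r hr, p]
      simp
    · rw [h.κ_mul _ (inv_mem uK) _ hk, h.κ_inv uK, inv_mul_eq_one]
      refine h.κ_ext uK hk ?_ ?_ ?_ <;> rw [h.κ_mul _ qK _ tK, Perm.mul_apply]
      · rw [t1, q1, e1]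
      · rw [t2, q2, e2]
      · rw [t3, h.κ_eq qK, q1, q2, q3, h3]
  have ml : (q * (k0 * r * k0⁻¹))⁻¹ * k ∈ actK _ _ _ h.D_conj h.Y2_fix :=
    ⟨h.C0_le (h.LK hl) (h.κ_L hl), fun d hd => ⟨(h.comm _ hl d hd.1).1, by
      rw [(h.comm _ hl d hd.1).2]; exact br_bit _ _ hd.2.1 hd.2.2⟩⟩
  simpa only [mul_inv_cancel_left] using mul_mem (mul_mem mq mt) ml

theorem D_trans {d d' : G} (hd : d ∈ h.sub A3) (hn : d ∉ Z) (hd' : d' ∈ h.sub A3) (hn' : d' ∉ Z) :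
    ∃ k ∈ K, κ k = 1 ∧ (k * d * k⁻¹)⁻¹ * d' ∈ Z := by
  have n : ∀ a ∈ h.sub A3, a ∉ Z → (Φ a).2.2 ≠ 0 := fun a ha hn e =>
    hn ((h.Φ_ker a ha.1).1 (Prod.ext ha.2.1 (Prod.ext ha.2.2 e)))
  obtain ⟨σ, e⟩ := PA.rho_trans _ (n d hd hn)
  obtain ⟨τ, e'⟩ := PA.rho_trans _ (n d' hd' hn')
  obtain ⟨k, hk, p, e1⟩ := h.exC (τ * σ⁻¹)
  refine ⟨k, hk, e1, (h.Φ_eq_iff (h.conj_L hk hd.1) hd'.1).1 ?_⟩
  rw [h.Φ_conj0 hk e1 hd.1, hd.2.1, hd.2.2, rho_zero, p, rho_mul, ← e, rho_inv, e']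
  exact Prod.ext hd'.2.1.symm (Prod.ext hd'.2.2.symm rfl)

theorem Z_trans {w w' : G} (hw : w ∈ Z) (e : ψ w = b3) (hw' : w' ∈ Z) (e' : (ψ w').v.testBit 2 = true) :
    ∃ k ∈ centralizer ({z} : Set G) ⊓ centralizer ({s} : Set G) ⊓ K, k * w * k⁻¹ = w' := by
  have d : ∀ c : Z3, c.v.testBit 2 = true → Ind b1 b2 c := by decide +kernel
  obtain ⟨k, hk, -, k1, k2, k3⟩ := h.exK 1 (d _ e')
  exact ⟨k, ⟨(h.mem_C2 hk).2 ⟨k1, k2⟩, hk⟩, (h.conj_eq_iff hk hw hw').2 (by rw [e, k3])⟩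

theorem not_trans [Finite G] {w : G} (hw : w ∈ Z) (e : ψ w = b3)
    (ht : ∀ d ∈ h.sub A3, d ∉ h.Y2 →
      ∃ g ∈ centralizer ({z} : Set G) ⊓ centralizer ({s} : Set G), g * w * g⁻¹ = d) : False := by
  set C := centralizer ({z} : Set G) ⊓ centralizer ({s} : Set G) with hC
  have wD : w ∈ h.sub A3 := ⟨h.ZL hw, by rw [h.Φ_Z hw]; exact zero_mem _⟩
  have wY : w ∉ h.Y2 := fun c => absurd c.2 (by rw [e]; decide)
  have nY : ∀ g ∈ C, g * w * g⁻¹ ∉ h.Y2 := fun g hg c => wY (by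
    have := h.Y2_fix _ (inv_mem hg) _ c
    rw [show g⁻¹ * (g * w * g⁻¹) * g⁻¹⁻¹ = w by group] at this
    rwa [this])
  have cY : (h.Y2 : Set G).ncard = 4 :=
    (h.ncard_Z fun ζ => ζ.v.testBit 2 = false).trans (by decide +kernel)
  have cD : (h.sub A3 : Set G).ncard = 128 :=
    (h.ncard_pre fun f => f.1 = 0 ∧ f.2.1 = 0).trans (by decide +kernel)
  have c1 : (centralizer ({w} : Set G)).relIndex C = 124 := by
    rw [← ncard_cls, show {y : G | ∃ n ∈ C, n * w * n⁻¹ = y} = (h.sub A3 : Set G) \ h.Y2 from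
      Set.ext fun y => ⟨fun ⟨g, hg, e⟩ => e ▸ ⟨h.D_conj g hg w wD, nY g hg⟩, fun c => ht y c.1 c.2⟩,
      Set.ncard_sdiff (show (h.Y2 : Set G) ⊆ h.sub A3 from fun a ha =>
        ⟨h.ZL ha.1, by rw [h.Φ_Z ha.1]; exact zero_mem _⟩), cY, cD]
  have c2 : (centralizer ({w} : Set G)).relIndex (C ⊓ K) = 4 := by
    rw [← ncard_cls, show {y : G | ∃ n ∈ C ⊓ K, n * w * n⁻¹ = y} =
      {a | a ∈ Z ∧ (ψ a).v.testBit 2 = true} from Set.ext fun y => ⟨fun ⟨g, hg, e⟩ => e ▸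
        ⟨h.conj_Z hg.2 hw, by simpa using fun c => nY g hg.1 ⟨h.conj_Z hg.2 hw, c⟩⟩,
        fun c => h.Z_trans hw e c.1 c.2⟩]
    exact (h.ncard_Z fun ζ => ζ.v.testBit 2 = true).trans (by decide +kernel)
  have nZ : ∀ g ∈ C, g * w * g⁻¹ ∈ Z → g ∈ K := fun g hg c => h.mem_K fun a ha => by
    cases hb : (ψ a).v.testBit 2
    · rw [h.Y2_fix g hg a ⟨ha, hb⟩]; exact ha
    · have : w⁻¹ * a ∈ h.Y2 := ⟨mul_mem (inv_mem hw) ha, by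
        rw [h.Z_inv hw, h.ψ_mul _ hw _ ha, bit_add, hb, e]; rfl⟩
      rw [show g * a * g⁻¹ = g * w * g⁻¹ * (g * (w⁻¹ * a) * g⁻¹) by group, h.Y2_fix g hg _ this]
      exact mul_mem c this.1
  have c3 : K.relIndex C = 31 := by
    have l : centralizer ({w} : Set G) ⊓ C ≤ C ⊓ K := fun g hg =>
      ⟨hg.2, nZ g hg.2 (by rw [mC'.1 hg.1]; exact hw)⟩
    have := relIndex_mul_relIndex _ _ _ l (inf_le_left : C ⊓ K ≤ C)
    rw [inf_relIndex_right, inf_relIndex_left, c1, ← inf_relIndex_right, inf_assoc,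
      inf_eq_right.2 (inf_le_left : C ⊓ K ≤ C), inf_relIndex_right, c2] at this
    omega
  have toπ : ∀ k ∈ K, (∀ d ∈ h.sub A3, d ∉ h.Y2 → k * d * k⁻¹ * d⁻¹ ∈ Z) → k ∈ C → π k = 1 :=
    fun k hk a hc => rho_faith _ fun u => by
      by_cases hu : u = 0
      · rw [hu, rho_zero]
      obtain ⟨d, hd, e⟩ := h.Φ_surj (0, 0, u)
      have dD : d ∈ h.sub A3 := ⟨hd, by rw [e]; exact ⟨rfl, rfl⟩⟩
      have hz := a d dD fun c => hu (by have := h.Φ_Z c.1; rw [e] at this; exact congrArg (·.2.2) this)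
      have e1 : Φ (k * d * k⁻¹) = Φ d := by
        have := h.Φ_Z hz
        rw [h.Φ_mul _ (h.conj_L hk hd) _ (inv_mem hd), h.Φ_inv hd] at this
        exact M12.eq_of_add this
      have e2 := h.Φ_conj k hk d hd b3
      have e3 : ∀ c : Z3, Ind b1 b2 c → ∀ u, ev (0, 0, u) c = u := by decide +kernel
      obtain ⟨k1, k2⟩ := (h.mem_C2 hk).1 hc
      rw [e1, e, ev_four, e3 _ (by have := h.κ_ind hk; rwa [k1, k2] at this)] at e2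
      exact e2.symm
  haveI := actK_normal _ _ _ h.D_conj h.Y2_fix
  have NK : actK _ _ _ h.D_conj h.Y2_fix ≤ K := fun g hg => nZ g hg.1 (by
    simpa using mul_mem (hg.2 w wD).1 hw)
  have c4 : (actK _ _ _ h.D_conj h.Y2_fix).relIndex (C ⊓ K) = 120 := by
    let f : ↥(C ⊓ K) →* Perm (Fin 5) := h.πh.comp (inclusion inf_le_right)
    have k : f.ker = (actK _ _ _ h.D_conj h.Y2_fix).subgroupOf (C ⊓ K) := Subgroup.ext fun g =>
      ⟨fun hg => h.mem_actK g.2.2 hg ((h.mem_C2 g.2.2).1 g.2.1).1 ((h.mem_C2 g.2.2).1 g.2.1).2,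
        fun hg => toπ g g.2.2 (fun d hd _ => (hg.2 d hd).1) g.2.1⟩
    have r : f.range = ⊤ := MonoidHom.range_eq_top.2 fun σ => by
      obtain ⟨k, hk, p, e⟩ := h.exC σ
      exact ⟨⟨k, h.C0_le hk e, hk⟩, p⟩
    rw [relIndex, ← k, index_ker, r, card_top, Nat.card_perm, Nat.card_fin]
    rfl
  obtain ⟨x, hx, px, kx⟩ := h.exC s3
  obtain ⟨y, hy, py, ky⟩ := h.exC s5
  have key := abs31' ((actK _ _ _ h.D_conj h.Y2_fix).subgroupOf C) (K.subgroupOf C)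
    (fun g hg => NK hg) c3 (by
      rw [← inf_subgroupOf_left K, relIndex_subgroupOf (inf_le_left : C ⊓ K ≤ C), c4])
    (x := ⟨x, h.C0_le hx kx⟩) (y := ⟨y, h.C0_le hy ky⟩) hx hy
  have xy := mul_mem hx hy
  have xyx := mul_mem xy (inv_mem hx)
  have cK := mul_mem xyx (inv_mem hy)
  have cC : x * y * x⁻¹ * y⁻¹ ∈ C := mul_mem (mul_mem (mul_mem (h.C0_le hx kx) (h.C0_le hy ky))
    (inv_mem (h.C0_le hx kx))) (inv_mem (h.C0_le hy ky))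
  have p1 := toπ _ cK (fun d hd hn => by
    obtain ⟨g, hg, rfl⟩ := ht d hd hn
    have m : g⁻¹ * (x * y * x⁻¹ * y⁻¹) * g ∈ K := key ⟨g, hg⟩
    have mC : g⁻¹ * (x * y * x⁻¹ * y⁻¹) * g ∈ C := mul_mem (mul_mem (inv_mem hg) cC) hg
    generalize x * y * x⁻¹ * y⁻¹ = c at m mC
    have y2 : g⁻¹ * c * g * w * (g⁻¹ * c * g)⁻¹ * w⁻¹ ∈ h.Y2 := ⟨(h.ψ_comm m hw).1, by
      have : (ψ (g⁻¹ * c * g * w * (g⁻¹ * c * g)⁻¹)).v.testBit 2 = true :=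
        Bool.of_not_eq_false fun c => nY _ mC ⟨h.conj_Z m hw, c⟩
      rw [(h.ψ_comm m hw).2, ← h.ψ_conj _ m _ hw, bit_add, this, e]; rfl⟩
    rw [show c * (g * w * g⁻¹) * c⁻¹ * (g * w * g⁻¹)⁻¹ =
      g * (g⁻¹ * c * g * w * (g⁻¹ * c * g)⁻¹ * w⁻¹) * g⁻¹ by group, h.Y2_fix g hg _ y2]
    exact y2.1) cC
  rw [h.π_mul _ xyx _ (inv_mem hy), h.π_mul _ xy _ (inv_mem hx), h.π_mul _ hx _ hy, h.π_inv hx,
    h.π_inv hy, px, py] at p1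
  exact absurd p1 (by decide +kernel)

theorem cent2 [Finite G] : centralizer ({z} : Set G) ⊓ centralizer ({s} : Set G) ≤ K := by
  classical
  set C := centralizer ({z} : Set G) ⊓ centralizer ({s} : Set G) with hC
  intro g0 hg0
  by_contra hn
  obtain ⟨w, hw, e⟩ := h.ψ_surj b3
  have ZD : ∀ a ∈ Z, a ∈ h.sub A3 := fun a ha => ⟨h.ZL ha, by rw [h.Φ_Z ha]; exact zero_mem _⟩
  let O : G → Prop := fun d => ∃ g ∈ C, g * w * g⁻¹ = d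
  have O_conj : ∀ g ∈ C, ∀ d, O d → O (g * d * g⁻¹) := fun g hg d ⟨k, hk, e⟩ =>
    ⟨g * k, mul_mem hg hk, by rw [← e]; group⟩
  have O_conj' : ∀ g ∈ C, ∀ d, O (g * d * g⁻¹) ↔ O d := fun g hg d =>
    ⟨fun c => by simpa [mul_assoc] using O_conj _ (inv_mem hg) _ c, O_conj g hg d⟩
  have O_Z : ∀ a ∈ Z, (ψ a).v.testBit 2 = true → O a := fun a ha c => by
    obtain ⟨k, hk, e⟩ := h.Z_trans hw e ha c
    exact ⟨k, hk.1, e⟩
  have bw : ∀ a ∈ Z, (ψ (a * w)).v.testBit 2 = !(ψ a).v.testBit 2 := fun a ha => by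
    rw [h.ψ_mul a ha w hw, bit_add, e]; exact Bool.xor_true _
  have O_mul : ∀ d, O d → ∀ a ∈ h.Y2, O (d * a) := fun d ⟨g, hg, e⟩ a ha => by
    have := O_conj g hg _ (O_Z _ (mul_mem ha.1 hw) (by rw [bw a ha.1, ha.2]; rfl))
    rwa [← h.LZ (h.ZL hw) ha.1, ← conj_mul, e, h.Y2_fix g hg a ha] at this
  have O_Y : ∀ a ∈ h.Y2, ¬ O a := fun a ha ⟨g, hg, c⟩ => by
    have := h.Y2_fix _ (inv_mem hg) _ ha
    rw [← c, show g⁻¹ * (g * w * g⁻¹) * g⁻¹⁻¹ = w by group, c] at this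
    exact absurd ha.2 (by rw [← this, e]; decide)
  have O_D : ∀ d, O d → d ∈ h.sub A3 := fun d ⟨g, hg, c⟩ => c ▸ h.D_conj g hg w (ZD w hw)
  obtain ⟨d0, o0, n0⟩ : ∃ d, O d ∧ d ∉ Z := by
    by_contra! c
    refine hn (h.mem_K fun a ha => ?_)
    cases hb : (ψ a).v.testBit 2
    · rw [h.Y2_fix g0 hg0 a ⟨ha, hb⟩]; exact ha
    · exact c _ (O_conj g0 hg0 a (O_Z a ha hb))
  have cover : ∀ d ∈ h.sub A3, O d ∨ O (d * w) := fun d hd => by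
    by_cases hz : d ∈ Z
    · cases hb : (ψ d).v.testBit 2
      · exact .inr (O_Z _ (mul_mem hz hw) (by rw [bw d hz, hb]; rfl))
      · exact .inl (O_Z d hz hb)
    obtain ⟨k, hk, k1, c⟩ := h.D_trans (O_D d0 o0) n0 hd hz
    have o1 := O_conj k (h.C0_le hk k1) d0 o0
    cases hb : (ψ ((k * d0 * k⁻¹)⁻¹ * d)).v.testBit 2
    · left; simpa only [mul_inv_cancel_left] using O_mul _ o1 _ ⟨c, hb⟩
    · right
      simpa only [mul_assoc _ d w, mul_inv_cancel_left] using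
        O_mul _ o1 _ ⟨mul_mem c hw, by rw [bw _ c, hb]; rfl⟩
  by_cases both : ∃ d ∈ h.sub A3, O d ∧ O (d * w)
  · obtain ⟨d, hd, o1, o2⟩ := both
    have dZ : d ∉ Z := fun hz => by
      cases hb : (ψ d).v.testBit 2
      · exact O_Y d ⟨hz, hb⟩ o1
      · exact O_Y _ ⟨mul_mem hz hw, by rw [bw d hz, hb]; rfl⟩ o2
    refine h.not_trans hw e fun d' hd' hy => ?_
    by_cases hz : d' ∈ Z
    · exact O_Z d' hz (Bool.of_not_eq_false fun c => hy ⟨hz, c⟩)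
    obtain ⟨k, hk, k1, c⟩ := h.D_trans hd dZ hd' hz
    have kC := h.C0_le hk k1
    cases hb : (ψ ((k * d * k⁻¹)⁻¹ * d')).v.testBit 2
    · simpa only [mul_inv_cancel_left] using O_mul _ (O_conj k kC d o1) _ ⟨c, hb⟩
    · have := O_mul _ (O_conj k kC _ o2) _ ⟨mul_mem c hw, by rw [bw _ c, hb]; rfl⟩
      rw [← conj_mul, h.comm_Z hk k1 hw, mul_inv_cancel_right, h.LZ (h.ZL c) hw, mul_assoc,
        ← mul_assoc w, h.Z_sq hw, one_mul, mul_inv_cancel_left] at this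
      exact this
  have flip : ∀ d ∈ h.sub A3, (O (d * w) ↔ ¬ O d) := fun d hd =>
    ⟨fun o2 o1 => both ⟨d, hd, o1, o2⟩, (cover d hd).resolve_left⟩
  have flip' : ∀ d ∈ h.sub A3, ∀ o, O o → (O (d * o) ↔ ¬ O d) := fun d hd o ⟨g, hg, c⟩ => by
    rw [← c, show d * (g * w * g⁻¹) = g * (g⁻¹ * d * g⁻¹⁻¹ * w) * g⁻¹ by group, O_conj' g hg,
      flip _ (h.D_conj _ (inv_mem hg) d hd), O_conj' _ (inv_mem hg)]
  obtain ⟨x, hx, px, kx⟩ := h.exC s3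
  obtain ⟨y, hy, py, ky⟩ := h.exC s5
  refine h.nonsplit (fun d => decide (O d)) (fun a ha b hb a1 a2 b1 b2 => ?_) (fun a ha => ?_) hx hy kx
    ky px py (fun a _ _ _ => decide_eq_decide.2 (O_conj' x (h.C0_le hx kx) a))
    (fun a _ _ _ => decide_eq_decide.2 (O_conj' y (h.C0_le hy ky) a))
  · have aD : a ∈ h.sub A3 := ⟨ha, a1, a2⟩
    have bD : b ∈ h.sub A3 := ⟨hb, b1, b2⟩
    by_cases ob : O b
    · simp [flip' a aD b ob, ob]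
    · have o2 := (flip b bD).2 ob
      have : O (a * b) ↔ O a := by
        rw [show a * b = a * (b * w) * w by rw [mul_assoc, mul_assoc, h.Z_sq hw, mul_one],
          flip _ (mul_mem aD (O_D _ o2)), flip' a aD _ o2, not_not]
      simp [this, ob]
  · cases hb : (ψ a).v.testBit 2
    · exact decide_eq_false (O_Y a ⟨ha, hb⟩)
    · exact decide_eq_true (O_Z a ha hb)

end PQ

end Cfsg.Lib.J4T
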