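import Cfsg.Agent.J4T.PD0

/-! Counting the elements of an invariant set of involutions of `Q` outside `L`. -/

set_option autoImplicit false
set_option maxRecDepth 100000

namespace Cfsg.Lib.J4T

open Subgroup Equiv Cfsg.Lib.Local
open scoped commutatorElement

namespace PD2

/-- The orbits of `rho s5`. -/
def orb (u : N4) : Fin 4 := [0, 1, 2, 3, 3, 1, 3, 1, 1, 2, 2, 1, 2, 2, 3, 3].getD u.v 0

theorem orb_rep : ∀ u : N4, ∃ i : Fin 5, u = (rho s5)^[i.1] (bv 4 (orb u).1) := by decide +kernel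

theorem fin_count : ∀ (a b c d : Fin 3) (w : N4), w ≠ 0 →
    (∀ v, ![a, b, c, d] (orb (w + rho s3 v)) = ![a, b, c, d] (orb v)) →
    (∑ v : N4, (![a, b, c, d] (orb v)).1) ∈ ({0, 6, 10, 12, 16, 20, 22, 26, 32} : Finset ℕ) := by
  decide +kernel

theorem count (c : N4 → ℕ) (h : ∀ v, c v = 0 ∨ c v = 32 ∨ c v = 64) (h5 : ∀ v, c (rho s5 v) = c v)
    {w : N4} (hw : w ≠ 0) (h3 : ∀ v, c (w + rho s3 v) = c v) :
    ∃ m ∈ ({0, 6, 10, 12, 16, 20, 22, 26, 32} : Finset ℕ), ∑ v, c v = 32 * m := by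
  have h1 : ∀ v, ∃ e : Fin 3, c v = 32 * e.1 := fun v => by
    rcases h v with e | e | e
    exacts [⟨0, e⟩, ⟨1, e⟩, ⟨2, e⟩]
  choose e he using h1
  have h2 : ∀ (i : ℕ) v, c ((rho s5)^[i] v) = c v := fun i => by
    induction i with
    | zero => exact fun _ => rfl
    | succ i ih => intro v; rw [Function.iterate_succ_apply', h5, ih]
  have h4 : ∀ v, c v = 32 * (![e (bv 4 0), e (bv 4 1), e (bv 4 2), e (bv 4 3)] (orb v)).1 := fun v => by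
    obtain ⟨i, hi⟩ := orb_rep v
    rw [hi, h2, ← hi, he]
    generalize orb v = j
    fin_cases j <;> rfl
  refine ⟨_, fin_count (e (bv 4 0)) (e (bv 4 1)) (e (bv 4 2)) (e (bv 4 3)) w hw fun v => ?_, ?_⟩
  · have := h3 v
    rw [h4, h4 v] at this
    exact Fin.ext (by omega)
  · rw [Finset.mul_sum]
    exact Finset.sum_congr rfl fun v _ => h4 v

theorem add_s5 : ∀ w : N4, ∃ u, u + w + rho s5 u = 0 := by decide +kernel

end PD2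

open PD2

variable {G : Type*} [Group G] {K L Z Q : Subgroup G} {π : G → Perm (Fin 5)} {κ : G → Perm Z3}
  {ψ : G → Z3} {Φ : G → M12} {z s q q' q0 : G}

/-- The elements of `Q` inducing the transvection with axis `⟨b1, b2⟩`. -/
def PD2.YY (Q : Subgroup G) (κ : G → Perm Z3) (q : G) : Prop :=
  q ∈ Q ∧ κ q b2 = b2 ∧ κ q b3 = b3 + b1

namespace PQ

variable (h : PQ K L Z Q π κ ψ Φ z s)
include h

theorem y_κ (hq : YY Q κ q) (hq' : YY Q κ q') : κ q = κ q' :=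
  h.κ_ext (h.QK hq.1) (h.QK hq'.1) (by rw [h.κQ1 hq.1, h.κQ1 hq'.1]) (by rw [hq.2.1, hq'.2.1])
    (by rw [hq.2.2, hq'.2.2])

theorem y_L (hq : YY Q κ q) (hq' : YY Q κ q') : q⁻¹ * q' ∈ L :=
  h.mem_L_of_Q (mul_mem (inv_mem hq.1) hq'.1) (by
    rw [h.κ_mul _ (inv_mem (h.QK hq.1)) _ (h.QK hq'.1), h.κ_inv (h.QK hq.1), h.y_κ hq hq',
      inv_mul_cancel])

theorem y_Φ (hq : YY Q κ q) (hq' : YY Q κ q') : (Φ (q⁻¹ * q')).1 = 0 :=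
  (h.QL _ (h.y_L hq hq')).1 (mul_mem (inv_mem hq.1) hq'.1)

theorem y_mul {l : G} (hq : YY Q κ q) (hl : l ∈ L) (h0 : (Φ l).1 = 0) : YY Q κ (q * l) := by
  have e : κ (q * l) = κ q := by rw [h.κ_mul _ (h.QK hq.1) _ (h.LK hl), h.κ_L hl, mul_one]
  exact ⟨mul_mem hq.1 ((h.QL l hl).2 h0), e ▸ hq.2.1, e ▸ hq.2.2⟩

theorem y_conj {x : G} (hq : YY Q κ q) (hx : x ∈ K) (kx : κ x = 1) : YY Q κ (x * q * x⁻¹) := by
  have e : κ (x * q * x⁻¹) = κ q := by rw [h.κ_conj hx (h.QK hq.1), kx]; simp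
  exact ⟨h.conj_Q ((h.mem_H hx).2 (by rw [kx]; rfl)) hq.1, e ▸ hq.2.1, e ▸ hq.2.2⟩

theorem y_comm {l : G} (hq : YY Q κ q) (hl : l ∈ L) :
    Φ (q⁻¹ * (l * q * l⁻¹)) = (0, 0, (Φ l).1) := by
  have hK := h.QK hq.1
  rw [show q⁻¹ * (l * q * l⁻¹) = q⁻¹ * l * q * l⁻¹ by group,
    h.Φ_mul _ (h.conj_L' hK hl) _ (inv_mem hl), h.Φ_inv hl, h.Φ_pull hK hl, h.πQ q hq.1, h.κQ1 hq.1,
    hq.2.1, hq.2.2, inv_one, pull]
  simp only [rho_one, ev_add, ev_one, ev_two, ev_four]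
  refine Prod.ext (Bits.add_self _) (Prod.ext (Bits.add_self _) ?_)
  show (Φ l).2.2 + (Φ l).1 + (Φ l).2.2 = (Φ l).1
  rw [add_comm, ← add_assoc, Bits.add_self, zero_add]

theorem d_comm {a b : G} (ha : a ∈ L) (hb : b ∈ L) (h1 : (Φ a).1 = 0) (h2 : (Φ a).2.1 = 0)
    (h3 : (Φ b).1 = 0) (h4 : (Φ b).2.1 = 0) : a * b = b * a := by
  rw [h.comm_iff ha hb, br, h1, h2, h3, h4]
  simp only [beta_zero, beta_zero']
  rfl

theorem d_sq {a : G} (ha : a ∈ L) (h1 : (Φ a).1 = 0) (h2 : (Φ a).2.1 = 0) : a * a = 1 := by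
  rw [h.sq_iff ha, sqm, h1, h2]
  simp only [beta_zero]
  rfl

theorem exists_e : ∃ e ∈ Z, ∀ q, YY Q κ q → e * q * e⁻¹ = q * z := by
  obtain ⟨e, he, e1⟩ := h.ψ_surj b3
  refine ⟨e, he, fun q hq => ?_⟩
  have hK := h.QK hq.1
  have : q * (e * z) * q⁻¹ = e := (h.conj_eq_iff hK (mul_mem he h.zZ) he).2 (by
    rw [h.ψ_mul _ he _ h.zZ, e1, h.ψz, h.κ_add q hK, hq.2.2, h.κQ1 hq.1, add_assoc, Bits.add_self,
      add_zero])
  calc e * q * e⁻¹ = q * (e * z) * q⁻¹ * q * e⁻¹ := by rw [this]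
    _ = q * (e * z * e⁻¹) := by group
    _ = q * z := by rw [h.LZ (h.ZL he) h.zZ, mul_inv_cancel_right]

theorem ge32 [Finite G] {S : Set G} (hS : ∀ w ∈ S, YY Q κ w)
    (hL : ∀ l ∈ L, ∀ w ∈ S, l * w * l⁻¹ ∈ S) (hq : q ∈ S) : 32 ≤ S.ncard := by
  obtain ⟨e, he, e1⟩ := h.exists_e
  rw [ncard_eq_sum S fun w => (Φ (q⁻¹ * w)).2.2]
  have : ∀ u : N4, 2 ≤ {w | w ∈ S ∧ (Φ (q⁻¹ * w)).2.2 = u}.ncard := fun u => by
    obtain ⟨l, hl, e2⟩ := h.Φ_surj (u, 0, 0)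
    have h1 := hL l hl q hq
    have h2 := h.y_comm (hS q hq) hl
    refine (Set.one_lt_ncard (Set.toFinite _)).2 ⟨l * q * l⁻¹, ⟨h1, by rw [h2, e2]⟩,
      l * q * l⁻¹ * z, ⟨e1 _ (hS _ h1) ▸ hL e (h.ZL he) _ h1, ?_⟩, fun e3 => h.pre.ne_one ?_⟩
    · rw [← mul_assoc, h.Φ_mul _ (h.y_L (hS q hq) (hS _ h1)) _ (h.ZL h.zZ), h.Φ_Z h.zZ, add_zero,
        h2, e2]
    · simpa using e3
  calc 32 = ∑ _u : N4, 2 := by
        rw [Finset.sum_const, Finset.card_univ, ← Nat.card_eq_fintype_card, card_bits]; rfl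
    _ ≤ _ := Finset.sum_le_sum fun u _ => this u

theorem card64 [Finite G] (hq : YY Q κ q) (h2 : q * q = 1) :
    {w | YY Q κ w ∧ (Φ (q⁻¹ * w)).2.1 = 0 ∧ w * w = 1}.ncard = 64 := by
  obtain ⟨e, he, e1⟩ := h.exists_e
  have hD := h.ncard_pre fun f => f.1 = 0 ∧ f.2.1 = 0
  rw [show (Finset.univ.filter fun f : M12 => f.1 = 0 ∧ f.2.1 = 0).card = 16 by decide +kernel] at hD
  set D := {a | a ∈ L ∧ (Φ a).1 = 0 ∧ (Φ a).2.1 = 0} with hDd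
  have heL := h.ZL he
  have hDe : ∀ a ∈ D, e * a ∈ D := fun a ha => by
    refine ⟨mul_mem heL ha.1, ?_⟩
    rw [h.Φ_mul _ heL _ ha.1, h.Φ_Z he, zero_add]; exact ha.2
  have heq : e * q = q * z * e := mul_inv_eq_iff_eq_mul.1 (e1 q hq)
  have h3 : D \ {a | a * q = q * a} = (e * ·) '' (D ∩ {a | a * q = q * a}) := by
    ext a
    constructor
    · rintro ⟨ha, hn⟩
      refine ⟨e * a, ⟨hDe a ha, ?_⟩, by simp only [← mul_assoc, h.Z_sq he, one_mul]⟩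
      have h4 := mul_inv_eq_iff_eq_mul.1
        ((h.pre.comm_or ((h.QL a ha.1).2 ha.2.1) hq.1).resolve_left hn)
      show e * a * q = q * (e * a)
      calc e * a * q = (e * z) * q * a := by rw [mul_assoc, h4]; group
        _ = z * (e * q) * a := by rw [h.LZ heL h.zZ]; group
        _ = (z * q) * z * (e * a) := by rw [heq]; group
        _ = q * (e * a) := by rw [← h.pre.central q hq.1, mul_assoc q, h.pre.mul_self, mul_one]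
    · rintro ⟨a, ⟨ha, hc⟩, rfl⟩
      refine ⟨hDe a ha, fun hn => h.pre.ne_one ?_⟩
      have hc : a * q = q * a := hc
      have hn : e * a * q = q * (e * a) := hn
      rw [mul_assoc, hc, ← mul_assoc, heq, mul_assoc, mul_assoc] at hn
      simpa using hn
  have h4 := Set.ncard_inter_add_ncard_diff_eq_ncard D {a | a * q = q * a} (Set.toFinite _)
  rw [h3, Set.ncard_image_of_injective _ (mul_right_injective e), hD] at h4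
  have h5 : {w | YY Q κ w ∧ (Φ (q⁻¹ * w)).2.1 = 0 ∧ w * w = 1} =
      (q * ·) '' (D ∩ {a | a * q = q * a}) := by
    ext w
    constructor
    · rintro ⟨h5, h6, h7⟩
      refine ⟨q⁻¹ * w, ⟨⟨h.y_L hq h5, h.y_Φ hq h5, h6⟩, ?_⟩, by simp⟩
      have h8 := h.d_sq (h.y_L hq h5) (h.y_Φ hq h5) h6
      have hi : q⁻¹ = q := inv_eq_of_mul_eq_one_right h2
      show q⁻¹ * w * q = q * (q⁻¹ * w)
      rw [hi] at h8 ⊢
      calc q * w * q = q * w * (q * w) * w⁻¹ := by group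
        _ = _ := by rw [h8, one_mul, inv_eq_of_mul_eq_one_right h7, ← mul_assoc, h2, one_mul]
    · rintro ⟨a, ⟨ha, hc⟩, rfl⟩
      have hc : a * q = q * a := hc
      refine ⟨h.y_mul hq ha.1 ha.2.1, by simpa using ha.2.2, ?_⟩
      show q * a * (q * a) = 1
      rw [mul_assoc, ← mul_assoc a, hc, ← mul_assoc, ← mul_assoc, h2, one_mul,
        h.d_sq ha.1 ha.2.1 ha.2.2]
  rw [h5, Set.ncard_image_of_injective _ (mul_right_injective q)]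
  omega

theorem v_eq (hq0 : YY Q κ q0) (hq : YY Q κ q) (hq' : YY Q κ q') :
    (Φ (q0⁻¹ * q')).2.1 = (Φ (q0⁻¹ * q)).2.1 + (Φ (q⁻¹ * q')).2.1 := by
  rw [show q0⁻¹ * q' = q0⁻¹ * q * (q⁻¹ * q') by group, h.Φ_mul _ (h.y_L hq0 hq) _ (h.y_L hq hq')]
  rfl

theorem fib [Finite G] {Ω : Set G} (h1 : ∀ w ∈ Ω, w ∈ Q ∧ w * w = 1)
    (h2 : ∀ l ∈ L, ∀ w ∈ Ω, l * w * l⁻¹ ∈ Ω) (hq0 : YY Q κ q0) (v : N4) :
    {w | (w ∈ Ω ∧ YY Q κ w) ∧ (Φ (q0⁻¹ * w)).2.1 = v}.ncard = 0 ∨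
    {w | (w ∈ Ω ∧ YY Q κ w) ∧ (Φ (q0⁻¹ * w)).2.1 = v}.ncard = 32 ∨
    {w | (w ∈ Ω ∧ YY Q κ w) ∧ (Φ (q0⁻¹ * w)).2.1 = v}.ncard = 64 := by
  set A := {w | (w ∈ Ω ∧ YY Q κ w) ∧ (Φ (q0⁻¹ * w)).2.1 = v} with hA
  rcases A.eq_empty_or_nonempty with e | ⟨q, hq⟩
  · left; rw [e, Set.ncard_empty]
  right
  have hY := hq.1.2
  have hI := h.card64 hY (h1 q hq.1.1).2
  set I := {w | YY Q κ w ∧ (Φ (q⁻¹ * w)).2.1 = 0 ∧ w * w = 1} with hId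
  have k1 : ∀ l ∈ L, ∀ w, YY Q κ w → ∀ r, YY Q κ r →
      (Φ (r⁻¹ * (l * w * l⁻¹))).2.1 = (Φ (r⁻¹ * w)).2.1 := fun l hl w hw r hr => by
    rw [h.v_eq hr hw (h.y_conj hw (h.LK hl) (h.κ_L hl)), h.y_comm hw hl, add_zero]
  have hAL : ∀ l ∈ L, ∀ w ∈ A, l * w * l⁻¹ ∈ A := fun l hl w hw =>
    ⟨⟨h2 l hl w hw.1.1, h.y_conj hw.1.2 (h.LK hl) (h.κ_L hl)⟩, by rw [k1 l hl w hw.1.2 _ hq0, hw.2]⟩
  have hAI : A ⊆ I := fun w hw => ⟨hw.1.2, by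
    have := h.v_eq hq0 hY hw.1.2
    rw [hw.2, hq.2] at this
    simpa using this, (h1 w hw.1.1).2⟩
  have h3 := h.ge32 (fun w hw => hw.1.2) hAL hq
  have h4 := Set.ncard_diff_add_ncard_of_subset hAI (Set.toFinite _)
  rcases (I \ A).eq_empty_or_nonempty with e | ⟨r, hr⟩
  · right; rw [e, Set.ncard_empty] at h4; omega
  · left
    have := h.ge32 (S := I \ A) (fun w hw => hw.1.1) (fun l hl w hw => ⟨⟨h.y_conj hw.1.1 (h.LK hl)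
      (h.κ_L hl), by rw [k1 l hl w hw.1.1 _ hY, hw.1.2.1], by
        calc _ = l * (w * w) * l⁻¹ := by group
          _ = 1 := by rw [hw.1.2.2]; group⟩, fun hm => hw.2 (by
        simpa [mul_assoc] using hAL l⁻¹ (inv_mem hl) _ hm)⟩) hr
    omega

theorem v_conj {x : G} (hq0 : YY Q κ q0) (hq : YY Q κ q) (hx : x ∈ K) (kx : κ x = 1) :
    (Φ (q0⁻¹ * (x * q * x⁻¹))).2.1 =
      (Φ (q0⁻¹ * (x * q0 * x⁻¹))).2.1 + rho (π x) (Φ (q0⁻¹ * q)).2.1 := by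
  rw [h.v_eq hq0 (h.y_conj hq0 hx kx) (h.y_conj hq hx kx),
    show (x * q0 * x⁻¹)⁻¹ * (x * q * x⁻¹) = x * (q0⁻¹ * q) * x⁻¹ by group,
    h.Φ_conj0 hx kx (h.y_L hq0 hq)]

theorem fib_conj {Ω : Set G} {x : G}
    (h2 : ∀ k ∈ K, k ∈ centralizer ({z} : Set G) → ∀ w ∈ Ω, k * w * k⁻¹ ∈ Ω) (hq0 : YY Q κ q0)
    (hx : x ∈ K) (kx : κ x = 1) (v : N4) :
    {w | (w ∈ Ω ∧ YY Q κ w) ∧ (Φ (q0⁻¹ * w)).2.1 =
      (Φ (q0⁻¹ * (x * q0 * x⁻¹))).2.1 + rho (π x) v}.ncard =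
    {w | (w ∈ Ω ∧ YY Q κ w) ∧ (Φ (q0⁻¹ * w)).2.1 = v}.ncard := by
  have hxH := (h.mem_H hx).2 (by rw [kx]; rfl)
  symm
  refine Set.ncard_congr (fun w _ => x * w * x⁻¹) (fun w hw => ⟨⟨h2 x hx hxH w hw.1.1,
    h.y_conj hw.1.2 hx kx⟩, by rw [h.v_conj hq0 hw.1.2 hx kx, hw.2]⟩)
    (fun a b _ _ e => by simpa using e) fun w hw => ?_
  have hY := h.y_conj hw.1.2 (inv_mem hx) (by rw [h.κ_inv hx, kx, inv_one])
  refine ⟨x⁻¹ * w * x⁻¹⁻¹, ⟨⟨h2 _ (inv_mem hx) (inv_mem hxH) w hw.1.1, hY⟩, ?_⟩, by group⟩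
  have := h.v_conj hq0 hY hx kx
  rw [show x * (x⁻¹ * w * x⁻¹⁻¹) * x⁻¹ = w by group, hw.2, add_right_inj] at this
  rw [← rho_inv (π x) v, this, rho_inv]

theorem three [Finite G] {Ω : Set G} (h1 : ∀ w ∈ Ω, w ∈ Q)
    (h2 : ∀ k ∈ K, k ∈ centralizer ({z} : Set G) → ∀ w ∈ Ω, k * w * k⁻¹ ∈ Ω) :
    {w | w ∈ Ω ∧ w ∉ L}.ncard = 3 * {w | w ∈ Ω ∧ YY Q κ w}.ncard := by
  have key : ∀ a b, Ind b1 a b → {w | w ∈ Ω ∧ κ w a = a ∧ κ w b = b + b1}.ncard =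
      {w | w ∈ Ω ∧ YY Q κ w}.ncard := fun a b hi => by
    obtain ⟨k, hk, -, e1, e2, e3⟩ := h.exK 1 hi
    have hH := (h.mem_H hk).2 e1
    symm
    refine Set.ncard_congr (fun w _ => k * w * k⁻¹) (fun w hw => ⟨h2 k hk hH w hw.1, ?_, ?_⟩)
      (fun a b _ _ e => by simpa using e) fun w hw => ?_
    · rw [h.κ_conj hk (h.QK hw.2.1), ← e2]; simp [hw.2.2.1]
    · rw [h.κ_conj hk (h.QK hw.2.1), ← e3]; simp [hw.2.2.2, h.κ_add k hk, e1]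
    · have hw' := h2 _ (inv_mem hk) (inv_mem hH) w hw.1
      refine ⟨k⁻¹ * w * k⁻¹⁻¹, ⟨hw', h1 _ hw', ?_, ?_⟩, by group⟩
      · rw [h.κ_conj (inv_mem hk) (h.QK (h1 w hw.1)), h.κ_inv hk]
        simp [e2, hw.2.1, Equiv.symm_apply_eq]
      · rw [h.κ_conj (inv_mem hk) (h.QK (h1 w hw.1)), h.κ_inv hk]
        simp [e3, hw.2.2, Equiv.symm_apply_eq, h.κ_add k hk, e1]
  have n2 : b2 + b1 ≠ b2 := by decide
  have n3 : b3 + b1 ≠ b3 := by decide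
  have e : {w | w ∈ Ω ∧ w ∉ L} = ({w | w ∈ Ω ∧ κ w b2 = b2 ∧ κ w b3 = b3 + b1} ∪
      {w | w ∈ Ω ∧ κ w b3 = b3 ∧ κ w b2 = b2 + b1}) ∪
      {w | w ∈ Ω ∧ κ w (b2 + b3) = b2 + b3 ∧ κ w b3 = b3 + b1} := by
    ext w
    constructor
    · rintro ⟨hw, hL⟩
      have hQ := h1 w hw
      rcases h.κQ w hQ b2 with e2 | e2 <;> rcases h.κQ w hQ b3 with e3 | e3
      · exact absurd (h.mem_L_of_Q hQ (h.κ_eq_one (h.QK hQ) (h.κQ1 hQ) e2 e3)) hL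
      · exact Or.inl (Or.inl ⟨hw, e2, e3⟩)
      · exact Or.inl (Or.inr ⟨hw, e3, e2⟩)
      · exact Or.inr ⟨hw, by rw [h.κ_add w (h.QK hQ), e2, e3]; decide, e3⟩
    · rintro ((⟨hw, -, e⟩ | ⟨hw, -, e⟩) | ⟨hw, -, e⟩) <;> refine ⟨hw, fun hL => ?_⟩ <;>
        rw [h.κ_L hL] at e
      exacts [n3 e.symm, n2 e.symm, n3 e.symm]
  rw [e, Set.ncard_union_eq, Set.ncard_union_eq, key _ _ (by decide), key _ _ (by decide),
    key _ _ (by decide)]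
  · ring
  · exact Set.disjoint_left.2 fun w hw hw' => n3 (hw.2.2.symm.trans hw'.2.1)
  · refine Set.disjoint_left.2 ?_
    rintro w (hw | hw) hw'
    · have := hw'.2.1
      rw [h.κ_add w (h.QK (h1 w hw.1)), hw.2.1, hw.2.2] at this
      exact absurd this (by decide)
    · exact n3 (hw'.2.2.symm.trans hw.2.1)

theorem outer [Finite G] (Ω : Set G) (h1 : ∀ w ∈ Ω, w ∈ Q ∧ w * w = 1)
    (h2 : ∀ k ∈ K, k ∈ centralizer ({z} : Set G) → ∀ w ∈ Ω, k * w * k⁻¹ ∈ Ω) :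
    ∃ m ∈ ({0, 6, 10, 12, 16, 20, 22, 26, 32} : Finset ℕ), {w | w ∈ Ω ∧ w ∉ L}.ncard = 96 * m := by
  classical
  obtain ⟨x, hx, px, kx⟩ := h.exC s3
  obtain ⟨y, hy, py, ky⟩ := h.exC s5
  obtain ⟨q0, hq0, hv⟩ : ∃ q0, YY Q κ q0 ∧ (Φ (q0⁻¹ * (y * q0 * y⁻¹))).2.1 = 0 := by
    obtain ⟨q1, hq1⟩ : ∃ q1, YY Q κ q1 := h.Qsurj b2 (b3 + b1) (Or.inl rfl) (Or.inr rfl)
    obtain ⟨u, hu⟩ := add_s5 (Φ (q1⁻¹ * (y * q1 * y⁻¹))).2.1
    obtain ⟨l, hl, e⟩ := h.Φ_surj (0, u, 0)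
    have hq := h.y_mul hq1 hl (by rw [e])
    refine ⟨_, hq, ?_⟩
    rw [h.v_eq hq hq1 (h.y_conj hq hy ky), h.v_conj hq1 hq hy ky, py, ← add_assoc, ← hu]
    simp [h.Φ_inv hl, e]
  have hε : ∀ x ∈ K, κ x = 1 → (Φ (q0⁻¹ * (x * q0 * x⁻¹))).2.1 = 0 → ∀ a ∈ L, (Φ a).1 = 0 →
      (Φ a).2.1 = 0 → decide (q0 * (x * a * x⁻¹) ≠ x * a * x⁻¹ * q0) = decide (q0 * a ≠ a * q0) := by
    intro x hx kx h0 a ha e1 e2
    have hY := h.y_conj hq0 hx kx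
    have hc := h.d_comm (h.y_L hq0 hY) (h.conj_L hx ha) (h.y_Φ hq0 hY) h0
      (by rw [h.Φ_conj0 hx kx ha, e1, rho_zero]) (by rw [h.Φ_conj0 hx kx ha, e2, rho_zero])
    refine decide_eq_decide.2 (not_congr ⟨fun e => ?_, fun e => ?_⟩)
    · have : q0 * (q0⁻¹ * (x * q0 * x⁻¹)) * (x * a * x⁻¹) =
          x * a * x⁻¹ * (q0 * (q0⁻¹ * (x * q0 * x⁻¹))) := by
        rw [mul_assoc, hc, ← mul_assoc, e, mul_assoc]
      calc q0 * a = x⁻¹ * (q0 * (q0⁻¹ * (x * q0 * x⁻¹)) * (x * a * x⁻¹)) * x := by group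
        _ = _ := by rw [this]; group
    · have : x * q0 * x⁻¹ * (x * a * x⁻¹) = x * a * x⁻¹ * (x * q0 * x⁻¹) := by
        calc _ = x * (q0 * a) * x⁻¹ := by group
          _ = _ := by rw [e]; group
      rw [mul_assoc, this] at hc
      generalize x * a * x⁻¹ = a' at *
      have h3 : q0⁻¹ * a' = a' * q0⁻¹ := mul_right_cancel (by rw [mul_assoc, hc, mul_assoc a'])
      calc q0 * a' = q0 * (a' * q0⁻¹) * q0 := by group
        _ = _ := by rw [← h3]; group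
  have hw : (Φ (q0⁻¹ * (x * q0 * x⁻¹))).2.1 ≠ 0 := fun h0 => by
    refine h.nonsplit (fun a => decide (q0 * a ≠ a * q0)) (fun a ha b hb e1 _ e3 _ => ?_)
      (fun a ha => ?_) hx hy kx ky px py (hε x hx kx h0) (hε y hy ky hv)
    · have haQ := (h.QL a ha).2 e1
      have hbQ := (h.QL b hb).2 e3
      have k := h.pre.comm_mul_right haQ hbQ hq0.1
      simp only [ne_eq, ← commutatorElement_eq_one_iff_mul_comm, k]
      rcases h.pre.mem_iff.1 (h.pre.commutator_mem hq0.1 haQ) with e | e <;>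
        rcases h.pre.mem_iff.1 (h.pre.commutator_mem hq0.1 hbQ) with e' | e' <;>
        simp [e, e', h.pre.ne_one, h.pre.mul_self]
    · have d : ∀ ζ : Z3, decide (¬ comb b1 b2 (b3 + b1) ζ = ζ) = ζ.v.testBit 2 := by decide +kernel
      simp only [ne_eq, h.comm_Z_iff (h.QK hq0.1) ha]
      rw [← d, h.κ_eq (h.QK hq0.1), h.κQ1 hq0.1, hq0.2.1, hq0.2.2]
  obtain ⟨m, hm, e⟩ := count (fun v => {w | (w ∈ Ω ∧ YY Q κ w) ∧ (Φ (q0⁻¹ * w)).2.1 = v}.ncard)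
    (h.fib h1 (fun l hl => h2 l (h.LK hl) (h.LH hl)) hq0)
    (fun v => by simpa only [hv, zero_add, py] using h.fib_conj h2 hq0 hy ky v) hw
    (fun v => by simpa only [px] using h.fib_conj h2 hq0 hx kx v)
  refine ⟨m, hm, ?_⟩
  rw [h.three (fun w hw => (h1 w hw).1) h2, ncard_eq_sum _ fun w => (Φ (q0⁻¹ * w)).2.1]
  simp only [Set.mem_setOf_eq]
  rw [e]; ring

end PQ

end Cfsg.Lib.J4T
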