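import Cfsg.Agent.J4T.PB1

/-! The five elementary abelian subgroups of order `2^11` in `C(Z)`. -/

set_option autoImplicit false
set_option maxRecDepth 100000

namespace Cfsg.Lib.J4T

open Subgroup Equiv Cfsg.Lib.Local

/-- `u` lies on the `𝔽₄`-line `i`. -/
def onL (i : Fin 5) (u : N4) : Prop := u = 0 ∨ line u = i

instance (i : Fin 5) (u : N4) : Decidable (onL i u) := by unfold onL; infer_instance

theorem onL_zero (i : Fin 5) : onL i 0 := .inl rfl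

theorem onL_add : ∀ (i : Fin 5) (u v : N4), onL i u → onL i v → onL i (u + v) := by decide +kernel

theorem beta_onL : ∀ (i : Fin 5) (u v : N4), onL i u → onL i v → beta u v = false := by
  decide +kernel

theorem onL_of_beta : ∀ (i : Fin 5) (v : N4), (∀ u, onL i u → beta u v = false) → onL i v := by
  decide +kernel

theorem card_onL : ∀ i : Fin 5, (Finset.univ.filter (onL i)).card = 4 := by decide +kernel

theorem onL_rho {σ : Perm (Fin 5)} {i : Fin 5} {u : N4} (h : onL (σ i) u) : onL i (rho σ⁻¹ u) := by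
  by_cases e : u = 0
  · rw [e, rho_zero]; exact onL_zero i
  · exact .inr (by rw [line_rho _ _ e, h.resolve_left e, Perm.inv_def, symm_apply_apply])

/-- The maps with values in the line `i`. -/
def lineA (i : Fin 5) : AddSubgroup M12 where
  carrier := {f | onL i f.1 ∧ onL i f.2.1 ∧ onL i f.2.2}
  zero_mem' := ⟨onL_zero i, onL_zero i, onL_zero i⟩
  add_mem' ha hb := ⟨onL_add _ _ _ ha.1 hb.1, onL_add _ _ _ ha.2.1 hb.2.1,
    onL_add _ _ _ ha.2.2 hb.2.2⟩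
  neg_mem' ha := ha

theorem mem_lineA {i : Fin 5} {f : M12} : f ∈ lineA i ↔ onL i f.1 ∧ onL i f.2.1 ∧ onL i f.2.2 :=
  Iff.rfl

theorem onL_ev {i : Fin 5} {f : M12} (h : f ∈ lineA i) (ζ : Z3) : onL i (ev f ζ) := by
  have k : ∀ (b : Bool) (u : N4), onL i u → onL i (bif b then u else 0) := fun b u hu => by
    cases b
    exacts [onL_zero i, hu]
  exact onL_add _ _ _ (onL_add _ _ _ (k _ _ h.1) (k _ _ h.2.1)) (k _ _ h.2.2)

theorem mk3_eq_zero : ∀ a b c : Bool, mk3 a b c = 0 ↔ a = false ∧ b = false ∧ c = false := by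
  decide +kernel

theorem br_lineA {i : Fin 5} {f g : M12} (hf : f ∈ lineA i) (hg : g ∈ lineA i) : br f g = 0 := by
  rw [br, mk3_eq_zero, beta_onL i _ _ hf.2.1 hg.2.2, beta_onL i _ _ hf.2.2 hg.2.1,
    beta_onL i _ _ hf.1 hg.2.2, beta_onL i _ _ hf.2.2 hg.1, beta_onL i _ _ hf.1 hg.2.1,
    beta_onL i _ _ hf.2.1 hg.1]
  decide

theorem sqm_lineA {i : Fin 5} {f : M12} (hf : f ∈ lineA i) : sqm f = 0 := by
  rw [sqm, mk3_eq_zero]
  exact ⟨beta_onL i _ _ hf.2.1 hf.2.2, beta_onL i _ _ hf.1 hf.2.2, beta_onL i _ _ hf.1 hf.2.1⟩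

theorem lineA_of_br {i : Fin 5} {f : M12} (h : ∀ g ∈ lineA i, br g f = 0) : f ∈ lineA i := by
  have h1 := fun u hu => h (u, 0, 0) ⟨hu, onL_zero i, onL_zero i⟩
  have h2 := fun u hu => h (0, u, 0) ⟨onL_zero i, hu, onL_zero i⟩
  simp only [br, mk3_eq_zero, beta_zero, Bool.xor_false, Bool.false_xor] at h1 h2
  exact ⟨onL_of_beta i _ fun u hu => (h2 u hu).2.2, onL_of_beta i _ fun u hu => (h1 u hu).2.2,
    onL_of_beta i _ fun u hu => (h1 u hu).2.1⟩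

theorem card_cube (p : N4 → Prop) [DecidablePred p] :
    (Finset.univ.filter fun f : M12 => p f.1 ∧ p f.2.1 ∧ p f.2.2).card =
      (Finset.univ.filter p).card ^ 3 := by
  rw [pow_succ', pow_two, ← Finset.card_product, ← Finset.card_product]
  congr 1
  ext f
  simp

/-- The pointwise stabiliser of the line `i`. -/
def FixL (i : Fin 5) (σ : Perm (Fin 5)) : Prop := ∀ u, onL i u → rho σ u = u

instance (i : Fin 5) (σ : Perm (Fin 5)) : Decidable (FixL i σ) := by unfold FixL; infer_instance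

theorem card_FixL : ∀ i : Fin 5, (Finset.univ.filter (FixL i)).card = 4 := by decide +kernel

theorem FixL_sq : ∀ (i : Fin 5) (σ : Perm (Fin 5)), FixL i σ → σ * σ = 1 := by decide +kernel

theorem card_fix_one : ∀ σ : Perm (Fin 5), σ * σ = 1 → σ ≠ 1 →
    (Finset.univ.filter fun u => rho σ u = u).card = 4 := by decide +kernel

set_option synthInstance.maxSize 4000 in
theorem card_fix_two : ∀ σ : Perm (Fin 5), σ * σ = 1 → σ ≠ 1 → ∀ τ : Perm (Fin 5), τ * τ = 1 →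
    σ * τ = τ * σ → τ ≠ 1 → τ ≠ σ →
    ((Finset.univ.filter fun u => rho σ u = u ∧ rho τ u = u).card ≤ 2 ∨
      ∃ i, ∀ u, rho σ u = u → rho τ u = u → onL i u) ∧
    ∀ ρ : Perm (Fin 5), ρ * ρ = 1 → σ * ρ = ρ * σ → τ * ρ = ρ * τ →
      ρ = 1 ∨ ρ = σ ∨ ρ = τ ∨ ρ = σ * τ := by decide +kernel

/-- The matrix of order seven. -/
def A7 (ζ : Z3) : Z3 := comb b2 b3 (b1 + b2) ζ

/-- The action of the matrix of order seven on `M12`. -/
def T7 (f : M12) : M12 := (f.2.1, f.2.2, f.1 + f.2.1)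

theorem T7_cubic (f : M12) : T7 (T7 (T7 f)) + T7 f + f = 0 := by
  obtain ⟨a, b, c⟩ := f
  have k : ∀ a b : N4, a + b + b + a = 0 ∧ b + b + (a + b) + (a + b) + b + b = 0 := by
    decide +kernel
  have k' : ∀ a b c : N4, c + (a + b) + (a + b) + c = 0 := fun a b c => by
    rw [add_assoc c, Bits.add_self, add_zero, Bits.add_self]
  exact Prod.ext (k a b).1 (Prod.ext (k b c).1 (k' a b c))

theorem T7_fix {f : M12} (h : T7 f = f) : f = 0 := by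
  obtain ⟨a, b, c⟩ := f
  simp only [T7, Prod.mk.injEq] at h
  obtain ⟨rfl, rfl, h⟩ := h
  rw [Bits.add_self] at h
  rw [← h]; rfl

variable {G : Type*} [Group G] {K L Z : Subgroup G} {π : G → Perm (Fin 5)} {κ : G → Perm Z3}
  {ψ : G → Z3} {Φ : G → M12} {i : Fin 5} {v a k y : G} {σ : Perm (Fin 5)}

namespace Pent

/-- The centraliser of the preimage of `lineA i`. -/
def V (h : Pent K L Z π κ ψ Φ) (i : Fin 5) : Subgroup G := centralizer (h.sub (lineA i) : Set G)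

variable (h : Pent K L Z π κ ψ Φ)
include h

theorem mem_V : v ∈ h.V i ↔ ∀ l ∈ L, Φ l ∈ lineA i → l * v = v * l :=
  ⟨fun e l h1 h2 => e l ⟨h1, h2⟩, fun e l hl => e l hl.1 hl.2⟩

theorem V_K [Finite G] (hv : v ∈ h.V i) : v ∈ K ∧ κ v = 1 := by
  have e : ∀ a ∈ Z, v * a = a * v := fun a ha =>
    (h.mem_V.1 hv a (h.ZL ha) (by rw [h.Φ_Z ha]; exact zero_mem _)).symm
  exact ⟨h.mem_K_of_comm e, h.κ_of_comm (h.mem_K_of_comm e) e⟩

theorem V_L (ha : a ∈ L) : a ∈ h.V i ↔ Φ a ∈ lineA i := by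
  rw [h.mem_V]
  refine ⟨fun e => lineA_of_br fun g hg => ?_, fun e l hl h2 => (h.comm_iff hl ha).2 (br_lineA h2 e)⟩
  obtain ⟨l, hl, rfl⟩ := h.Φ_surj g
  exact (h.comm_iff hl ha).1 (e l hl hg)

theorem fix_of_comm (hk : k ∈ K) (e : κ k = 1) (ha : a ∈ L) (hc : a * k = k * a) :
    rho (π k) (Φ a).1 = (Φ a).1 ∧ rho (π k) (Φ a).2.1 = (Φ a).2.1 ∧
      rho (π k) (Φ a).2.2 = (Φ a).2.2 := by
  have := h.Φ_conj0 hk e ha
  rw [← hc, mul_inv_cancel_right] at this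
  exact ⟨(congrArg Prod.fst this).symm, (congrArg (·.2.1) this).symm, (congrArg (·.2.2) this).symm⟩

theorem V_π [Finite G] (hv : v ∈ h.V i) : ∀ u, onL i u → rho (π v) u = u := fun u hu => by
  obtain ⟨l, hl, e⟩ := h.Φ_surj (u, 0, 0)
  have := (h.fix_of_comm (h.V_K hv).1 (h.V_K hv).2 hl
    (h.mem_V.1 hv l hl (by rw [e]; exact ⟨hu, onL_zero i, onL_zero i⟩))).1
  rwa [e] at this

theorem V_conj (hk : k ∈ K) (hv : v ∈ h.V i) : k * v * k⁻¹ ∈ h.V (π k i) := by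
  refine h.mem_V.2 fun l hl h2 => ?_
  have := h.mem_V.1 hv _ (h.conj_L' hk hl) (by
    rw [h.Φ_pull hk hl]
    exact ⟨onL_rho (onL_ev h2 _), onL_rho (onL_ev h2 _), onL_rho (onL_ev h2 _)⟩)
  calc l * (k * v * k⁻¹) = k * (k⁻¹ * l * k * v) * k⁻¹ := by group
    _ = _ := by rw [this]; group

theorem exists_seven : ∃ y ∈ K, y ^ 7 = 1 ∧ π y = 1 ∧ ∀ ζ, κ y ζ = A7 ζ := by
  obtain ⟨k, hk, e, e'⟩ := h.surj 1 b2 b3 (b1 + b2) (by decide)
  have h7 : κ k ^ 7 = 1 := Equiv.ext fun ζ => by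
    simp only [pow_succ, pow_zero, one_mul, Perm.mul_apply, e', Perm.one_apply]
    revert ζ
    decide +kernel
  have hL : k ^ 7 ∈ L := h.mem_L (pow_mem hk 7) (by rw [h.π_pow hk, e, one_pow])
    (by rw [h.κ_pow hk, h7])
  refine ⟨k ^ 8, pow_mem hk 8, ?_, by rw [h.π_pow hk, e, one_pow], fun ζ => ?_⟩
  · rw [← pow_mul, show 8 * 7 = 7 * 4 * 2 by rfl, pow_mul, pow_mul, h.L_pow hL, one_pow]
  · rw [h.κ_pow hk, pow_succ', h7, mul_one, e', A7]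

theorem Φ_seven (hy : y ∈ K) (h1 : π y = 1) (h2 : ∀ ζ, κ y ζ = A7 ζ) (ha : a ∈ L) :
    Φ (y⁻¹ * a * y) = T7 (Φ a) := by
  rw [h.Φ_pull hy ha, h1, h2, h2, h2, inv_one, pull, rho_one, rho_one, rho_one,
    show A7 b1 = b2 by decide +kernel, show A7 b2 = b3 by decide +kernel,
    show A7 b3 = b1 + b2 by decide +kernel, ev_add, ev_one, ev_two, ev_four, T7]

theorem eq_one_of_seven (hy : y ∈ K) (h1 : π y = 1) (h2 : ∀ ζ, κ y ζ = A7 ζ) (ha : a ∈ L)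
    (hc : y * a = a * y) : a = 1 := by
  have e := h.Φ_seven hy h1 h2 ha
  rw [mul_assoc, ← hc, inv_mul_cancel_left] at e
  have hz := (h.Φ_ker a ha).1 (T7_fix e.symm)
  have := (h.comm_Z_iff hy hz).1 hc
  rw [h2] at this
  exact h.ψ_inj a hz ((by decide +kernel : ∀ ζ, A7 ζ = ζ → ζ = 0) _ this)

theorem exists_comm_seven [Finite G] (hy : y ∈ K) (h7 : y ^ 7 = 1) (h1 : π y = 1)
    (σ : Perm (Fin 5)) : ∃ c ∈ K, π c = σ ∧ κ c = 1 ∧ y * c = c * y := by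
  classical
  obtain ⟨k, hk, e1, e2⟩ := h.exC σ
  have hc := h.ncard_fibK hk
  rw [e1, e2] at hc
  have key : ∀ y ∈ K, π y = 1 → ∀ a, a ∈ K ∧ π a = σ ∧ κ a = 1 →
      y * a * y⁻¹ ∈ K ∧ π (y * a * y⁻¹) = σ ∧ κ (y * a * y⁻¹) = 1 := fun y hy h1 a ha =>
    ⟨mul_mem (mul_mem hy ha.1) (inv_mem hy), by rw [h.π_conj hy ha.1, h1, ha.2.1]; simp,
      by rw [h.κ_conj hy ha.1, ha.2.2]; simp⟩
  let f : Perm {a | a ∈ K ∧ π a = σ ∧ κ a = 1} :=
    ⟨fun a => ⟨y * a * y⁻¹, key y hy h1 a a.2⟩,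
      fun a => ⟨y⁻¹ * a * y⁻¹⁻¹, key y⁻¹ (inv_mem hy) (by rw [h.π_inv hy, h1, inv_one]) a a.2⟩,
      fun a => Subtype.ext (by simp [mul_assoc]), fun a => Subtype.ext (by simp [mul_assoc])⟩
  have hf : ∀ (n : ℕ) a, ((f ^ n) a : G) = y ^ n * a * (y ^ n)⁻¹ := fun n => by
    induction n with
    | zero => simp
    | succ n ih =>
      intro a
      rw [pow_succ', Perm.mul_apply]
      show y * ((f ^ n) a : G) * y⁻¹ = _
      rw [ih, pow_succ']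
      group
  have := Fintype.ofFinite {a | a ∈ K ∧ π a = σ ∧ κ a = 1}
  have : Fact (Nat.Prime 7) := ⟨by norm_num⟩
  obtain ⟨c, hc'⟩ := Perm.exists_fixed_point_of_prime (p := 7) (n := 1) (σ := f)
    (by rw [← Nat.card_eq_fintype_card, Nat.card_coe_set_eq, hc]; norm_num)
    (Equiv.ext fun a => Subtype.ext (by rw [pow_one, hf, h7]; simp))
  exact ⟨c, c.2.1, c.2.2.1, c.2.2.2, mul_inv_eq_iff_eq_mul.1 (congrArg Subtype.val hc')⟩

theorem mem_V_of_seven (hy : y ∈ K) (h1 : π y = 1) (h2 : ∀ ζ, κ y ζ = A7 ζ) (hv : v ∈ K)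
    (e : κ v = 1) (hc : y * v = v * y) (hf : FixL i (π v)) : v ∈ h.V i := by
  have hZ : ∀ l ∈ L, Φ l ∈ lineA i → v * l * v⁻¹ * l⁻¹ ∈ Z := fun l hl h3 => by
    rw [← h.Φ_ker _ (mul_mem (h.conj_L hv hl) (inv_mem hl)),
      h.Φ_mul _ (h.conj_L hv hl) _ (inv_mem hl), h.Φ_inv hl, h.Φ_conj0 hv e hl, hf _ h3.1,
      hf _ h3.2.1, hf _ h3.2.2]
    exact M12.add_self _
  have hm : ∀ l ∈ L, Φ l ∈ lineA i → ∀ l' ∈ L, Φ l' ∈ lineA i →
      ψ (v * (l * l') * v⁻¹ * (l * l')⁻¹) = ψ (v * l * v⁻¹ * l⁻¹) + ψ (v * l' * v⁻¹ * l'⁻¹) :=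
    fun l hl h3 l' hl' h3' => by
      rw [← h.ψ_mul _ (hZ l hl h3) _ (hZ l' hl' h3')]
      congr 1
      calc _ = v * l * v⁻¹ * ((v * l' * v⁻¹ * l'⁻¹) * l⁻¹) := by group
        _ = _ := by rw [← h.LZ (inv_mem hl) (hZ l' hl' h3')]; group
  have hT : ∀ l ∈ L, Φ l ∈ lineA i → Φ (y⁻¹ * l * y) ∈ lineA i ∧
      A7 (ψ (v * (y⁻¹ * l * y) * v⁻¹ * (y⁻¹ * l * y)⁻¹)) = ψ (v * l * v⁻¹ * l⁻¹) := fun l hl h3 => by
    have h4 : Φ (y⁻¹ * l * y) ∈ lineA i := by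
      rw [h.Φ_seven hy h1 h2 hl]
      exact ⟨h3.2.1, h3.2.2, onL_add _ _ _ h3.1 h3.2.1⟩
    refine ⟨h4, ?_⟩
    rw [← h2, ← h.ψ_conj y hy _ (hZ _ (h.conj_L' hy hl) h4)]
    congr 1
    have hc' : y * v⁻¹ = v⁻¹ * y := (Commute.inv_right hc :)
    calc _ = y * v * y⁻¹ * l * (y * v⁻¹) * y⁻¹ * l⁻¹ := by group
      _ = _ := by rw [hc, hc']; group
  refine h.mem_V.2 fun l hl h3 => ?_
  have l1 := h.conj_L' hy hl
  have l2 := h.conj_L' hy l1
  have l3 := h.conj_L' hy l2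
  obtain ⟨a1, c1⟩ := hT l hl h3
  obtain ⟨a2, c2⟩ := hT _ l1 a1
  obtain ⟨a3, c3⟩ := hT _ l2 a2
  have s1 := hm _ (mul_mem l3 l1) (by rw [h.Φ_mul _ l3 _ l1]; exact add_mem a3 a1) l hl h3
  rw [hm _ l3 a3 _ l1 a1] at s1
  have z0 := (h.Φ_ker _ (mul_mem (mul_mem l3 l1) hl)).1 (by
    rw [h.Φ_mul _ (mul_mem l3 l1) _ hl, h.Φ_mul _ l3 _ l1, h.Φ_seven hy h1 h2 l2,
      h.Φ_seven hy h1 h2 l1, h.Φ_seven hy h1 h2 hl, T7_cubic])
  rw [h.comm_Z hv e z0, mul_inv_cancel_right, mul_inv_cancel, h.ψ_one, ← c1, ← c2, ← c3] at s1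
  have := (by decide +kernel : ∀ η, 0 = η + A7 (A7 η) + A7 (A7 (A7 η)) → A7 (A7 (A7 η)) = 0) _ s1
  rw [c3, c2, c1] at this
  have := h.ψ_inj _ (hZ l hl h3) this
  rw [mul_inv_eq_one, mul_inv_eq_iff_eq_mul] at this
  exact this.symm

theorem exists_V [Finite G] (hσ : FixL i σ) : ∃ v ∈ h.V i, π v = σ ∧ v * v = 1 := by
  obtain ⟨y, hy, h7, h1, h2⟩ := h.exists_seven
  obtain ⟨c, hc, e1, e2, e3⟩ := h.exists_comm_seven hy h7 h1 σ
  refine ⟨c, h.mem_V_of_seven hy h1 h2 hc e2 e3 (e1 ▸ hσ), e1, h.eq_one_of_seven hy h1 h2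
    (h.mem_L (mul_mem hc hc) ?_ ?_) ((Commute.mul_right e3 e3 :))⟩
  · rw [h.π_mul c hc c hc, e1, FixL_sq i σ hσ]
  · rw [h.κ_mul c hc c hc, e2, mul_one]

theorem V_surj [Finite G] (hσ : ∀ u, onL i u → rho σ u = u) : ∃ v ∈ h.V i, π v = σ :=
  let ⟨v, h1, h2, _⟩ := h.exists_V hσ; ⟨v, h1, h2⟩

theorem inv_mul_mem_L {c : G} (hc : c ∈ K ∧ κ c = 1) (hv : v ∈ K ∧ κ v = 1) (e : π c = π v) :
    c⁻¹ * v ∈ L :=
  h.mem_L (mul_mem (inv_mem hc.1) hv.1)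
    (by rw [h.π_mul _ (inv_mem hc.1) _ hv.1, h.π_inv hc.1, e, inv_mul_cancel])
    (by rw [h.κ_mul _ (inv_mem hc.1) _ hv.1, h.κ_inv hc.1, hc.2, hv.2, inv_mul_cancel])

theorem V_sq [Finite G] (hv : v ∈ h.V i) : v * v = 1 := by
  obtain ⟨c, hc, e1, e2⟩ := h.exists_V (h.V_π hv)
  have hL := h.inv_mul_mem_L (h.V_K hc) (h.V_K hv) e1
  have hA := (h.V_L hL).1 (mul_mem (inv_mem hc) hv)
  have h1 := (h.sq_iff hL).2 (sqm_lineA hA)
  have h2 := h.mem_V.1 hc _ hL hA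
  calc v * v = c * (c⁻¹ * v * c) * (c⁻¹ * v) := by group
    _ = c * c * (c⁻¹ * v * (c⁻¹ * v)) := by rw [h2]; group
    _ = 1 := by rw [e2, h1, mul_one]

open scoped Classical in
theorem card_eq_mul [Finite G] (E : Subgroup G) (hK : ∀ e ∈ E, e ∈ K ∧ κ e = 1) :
    Nat.card E = (Finset.univ.filter fun σ => ∃ e ∈ E, π e = σ).card * Nat.card ↥(E ⊓ L) := by
  rw [← SetLike.coe_sort_coe, Nat.card_coe_set_eq, ncard_eq_sum _ π, Finset.card_filter,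
    Finset.sum_mul]
  refine Finset.sum_congr rfl fun σ _ => ?_
  split_ifs with e
  · obtain ⟨c, hc, rfl⟩ := e
    rw [one_mul, ← ncard_coset (E ⊓ L) c]
    congr 1
    ext a
    refine ⟨fun ⟨h1, h2⟩ => ⟨E.mul_mem (E.inv_mem hc) h1, h.inv_mul_mem_L (hK c hc) (hK a h1) h2.symm⟩,
      fun ⟨h1, h2⟩ => ⟨(E.mul_mem_cancel_left (E.inv_mem hc)).1 h1, ?_⟩⟩
    rw [show a = c * (c⁻¹ * a) by group, h.π_mul _ (hK c hc).1 _ (h.LK h2), h.π_L h2, mul_one]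
  · rw [zero_mul, Set.ncard_eq_zero]
    exact Set.eq_empty_of_forall_notMem fun a ⟨h1, h2⟩ => e ⟨a, h1, h2⟩

theorem card_le_cube [Finite G] {E : Subgroup G} (p : N4 → Prop) [DecidablePred p]
    (hp : ∀ a ∈ E, a ∈ L ∧ p (Φ a).1 ∧ p (Φ a).2.1 ∧ p (Φ a).2.2) :
    Nat.card E ≤ 8 * (Finset.univ.filter p).card ^ 3 := by
  rw [← card_cube, ← h.ncard_pre, ← SetLike.coe_sort_coe, Nat.card_coe_set_eq]
  exact Set.ncard_le_ncard hp

theorem V_inf_L : h.V i ⊓ L = h.sub (lineA i) := by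
  ext a
  exact ⟨fun e => ⟨e.2, (h.V_L e.2).1 e.1⟩, fun e => ⟨(h.V_L e.1).2 e.2, e.1⟩⟩

theorem card_sub_lineA [Finite G] : Nat.card (h.sub (lineA i)) = 2 ^ 9 := by
  have := h.ncard_pre fun f => onL i f.1 ∧ onL i f.2.1 ∧ onL i f.2.2
  rw [card_cube, card_onL] at this
  exact this

theorem card_V [Finite G] : Nat.card (h.V i) = 2 ^ 11 := by
  classical
  rw [h.card_eq_mul _ fun _ he => h.V_K he, h.V_inf_L, h.card_sub_lineA]
  have : (Finset.univ.filter fun σ => ∃ e ∈ h.V i, π e = σ) = Finset.univ.filter (FixL i) :=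
    Finset.filter_congr fun σ _ => ⟨fun ⟨_, h1, h2⟩ => h2 ▸ h.V_π h1, h.V_surj⟩
  rw [show 2 ^ 11 = 4 * 2 ^ 9 by rfl, ← card_FixL i, ← this]

theorem eq_V [Finite G] (E : Subgroup G) (hK : ∀ e ∈ E, e ∈ K ∧ κ e = 1) (h2 : ∀ e ∈ E, e * e = 1)
    (hc : Nat.card E = 2 ^ 11) (hL : ¬ E ≤ L) : ∃ i, E = h.V i := by
  classical
  have cm : ∀ a ∈ E, ∀ b ∈ E, a * b = b * a := fun a ha b hb => by
    rw [← inv_eq_of_mul_eq_one_right (h2 _ (mul_mem ha hb)), mul_inv_rev,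
      inv_eq_of_mul_eq_one_right (h2 a ha), inv_eq_of_mul_eq_one_right (h2 b hb)]
  have sq : ∀ a ∈ E, π a * π a = 1 := fun a ha => by
    rw [← h.π_mul a (hK a ha).1 a (hK a ha).1, h2 a ha, h.π_one]
  have cπ : ∀ a ∈ E, ∀ b ∈ E, π a * π b = π b * π a := fun a ha b hb => by
    rw [← h.π_mul a (hK a ha).1 b (hK b hb).1, cm a ha b hb, h.π_mul b (hK b hb).1 a (hK a ha).1]
  have fx := fun a (ha : a ∈ E ⊓ L) e (he : e ∈ E) =>
    h.fix_of_comm (hK e he).1 (hK e he).2 ha.2 (cm a ha.1 e he)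
  have hb : ∀ s : Finset (Perm (Fin 5)), (∀ e ∈ E, π e ∈ s) →
      2 ^ 11 ≤ s.card * Nat.card ↥(E ⊓ L) := fun s hs => by
    rw [← hc, h.card_eq_mul E hK]
    refine Nat.mul_le_mul_right _ (Finset.card_le_card fun σ hσ => ?_)
    obtain ⟨e, he, rfl⟩ := (Finset.mem_filter.1 hσ).2
    exact hs e he
  obtain ⟨e, he, hn⟩ := SetLike.not_le_iff_exists.1 hL
  have e1 : π e ≠ 1 := fun x => hn (h.mem_L (hK e he).1 x (hK e he).2)
  by_cases hx : ∀ e' ∈ E, π e' = 1 ∨ π e' = π e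
  · have a1 := hb {1, π e} fun e' he' => by simpa using hx e' he'
    have a2 := h.card_le_cube (E := E ⊓ L) (fun u => rho (π e) u = u)
      fun a ha => ⟨ha.2, fx a ha e he⟩
    rw [card_fix_one _ (sq e he) e1] at a2
    have := Finset.card_le_two (a := (1 : Perm (Fin 5))) (b := π e)
    have := a1.trans (Nat.mul_le_mul this a2)
    omega
  push Not at hx
  obtain ⟨e', he', n1, n2⟩ := hx
  obtain ⟨d1, d2⟩ := card_fix_two _ (sq e he) e1 _ (sq e' he') (cπ e he e' he') n1 n2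
  have a1 := hb {1, π e, π e', π e * π e'} fun a ha => by
    simpa using d2 _ (sq a ha) (cπ e he a ha) (cπ e' he' a ha)
  have a0 := Finset.card_le_four (a := (1 : Perm (Fin 5))) (b := π e) (c := π e') (d := π e * π e')
  rcases d1 with d1 | ⟨i, d1⟩
  · have a2 := h.card_le_cube (E := E ⊓ L) (fun u => rho (π e) u = u ∧ rho (π e') u = u)
      fun a ha => ⟨ha.2, ⟨(fx a ha e he).1, (fx a ha e' he').1⟩,
        ⟨(fx a ha e he).2.1, (fx a ha e' he').2.1⟩, (fx a ha e he).2.2, (fx a ha e' he').2.2⟩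
    have := a1.trans (Nat.mul_le_mul a0 (a2.trans
      (Nat.mul_le_mul_left 8 (Nat.pow_le_pow_left d1 3))))
    omega
  · have a2 : E ⊓ L = h.sub (lineA i) := eq_of_le_of_card_ge
      (fun a ha => ⟨ha.2, d1 _ (fx a ha e he).1 (fx a ha e' he').1,
        d1 _ (fx a ha e he).2.1 (fx a ha e' he').2.1, d1 _ (fx a ha e he).2.2 (fx a ha e' he').2.2⟩)
      (by
        have := a1.trans (Nat.mul_le_mul_right _ a0)
        rw [h.card_sub_lineA]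
        omega)
    refine ⟨i, eq_of_le_of_card_ge (fun a ha => h.mem_V.2 fun l hl h3 => cm l ?_ a ha)
      (by rw [hc, h.card_V])⟩
    exact (a2.ge (show l ∈ h.sub (lineA i) from ⟨hl, h3⟩)).1

end Pent

end Cfsg.Lib.J4T
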