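import Cfsg.Agent.J4T.PB2
import Cfsg.Agent.J4T.PD1
import Cfsg.Agent.J4T.PV

/-! Coordinates for a group of shape `2^(3+12).(S₅ × L₃(2))`: conjugates of `Z` under `C(z)`. -/

set_option autoImplicit false
set_option maxRecDepth 100000
set_option synthInstance.maxSize 2048

namespace Cfsg.Lib.J4T

open Subgroup Equiv Cfsg.Lib.Local

theorem two_perp : ∀ u v : N4, ∃ p r, beta p u = false ∧ beta p v = false ∧ beta r u = false ∧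
    beta r v = false ∧ p ≠ 0 ∧ r ≠ 0 ∧ p + r ≠ 0 := by decide +kernel

variable {G : Type*} [Group G] {K L Z Q : Subgroup G} {π : G → Perm (Fin 5)} {κ : G → Perm Z3}
  {ψ : G → Z3} {Φ : G → M12} {z s g : G}

namespace PQ

variable (h : PQ K L Z Q π κ ψ Φ z s)
include h

theorem comm_Q {a q : G} (ha : a ∈ L) (hq : q ∈ Q) : a * q * a⁻¹ * q⁻¹ ∈ L ∧
    ∃ x y, Φ (a * q * a⁻¹ * q⁻¹) = (0, x, y) ∧ (x = 0 ∨ x = (Φ a).1) ∧ (y = 0 ∨ y = (Φ a).1) ∧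
      (x = 0 → y = 0 → q ∈ L ∨ (Φ a).1 = 0) := by
  have h1 := h.conj_L (h.QK hq) (inv_mem ha)
  have e : a * q * a⁻¹ * q⁻¹ = a * (q * a⁻¹ * q⁻¹) := by group
  have hq' := inv_mem hq
  have a0 : ∀ x y : N4, x + (x + y) = y := fun x y => by rw [← add_assoc, Bits.add_self, zero_add]
  rw [e, h.Φ_mul _ ha _ h1, h.Φ_push (h.QK hq) (inv_mem ha), h.Φ_inv ha, h.πQ q hq, h.κQ1 hq', pull]
  refine ⟨mul_mem ha h1, ?_⟩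
  rcases h.κQ _ hq' b2 with e2 | e2 <;> rcases h.κQ _ hq' b3 with e3 | e3 <;>
    simp only [e2, e3, rho_one, ev_add, ev_one, ev_two, ev_four]
  · exact ⟨0, 0, M12.add_self _, .inl rfl, .inl rfl, fun _ _ => .inl (inv_mem_iff.1
      (h.mem_L_of_Q hq' (h.κ_eq_one (h.QK hq') (h.κQ1 hq') e2 e3)))⟩
  · exact ⟨0, _, Prod.ext (Bits.add_self _) (Prod.ext (Bits.add_self _) (a0 _ _)), .inl rfl,
      .inr rfl, fun _ => .inr⟩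
  · exact ⟨_, 0, Prod.ext (Bits.add_self _) (Prod.ext (a0 _ _) (Bits.add_self _)), .inr rfl,
      .inl rfl, fun e _ => .inr e⟩
  · exact ⟨_, _, Prod.ext (Bits.add_self _) (Prod.ext (a0 _ _) (a0 _ _)), .inr rfl,
      .inr rfl, fun _ => .inr⟩

theorem sQ : s ∈ Q := h.ZQ h.sZ

theorem zpZ {w : G} (hw : w ∈ zpowers z) : w ∈ Z := (h.zp.1 hw).1

theorem conj_zp' {w : G} (hg : g ∈ centralizer ({z} : Set G)) :
    g * w * g⁻¹ ∈ zpowers z ↔ w ∈ zpowers z :=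
  ⟨fun e => by rw [← h.conj_zp (inv_mem hg) e] at e; simpa [mul_assoc] using e,
    fun e => by rwa [h.conj_zp hg e]⟩

theorem s_comm {a : G} (ha : a ∈ L) (h1 : (Φ a).1 ≠ 0) (h2 : (Φ a).2.1 = 0) :
    ∃ m ∈ Q, a * m * a⁻¹ * m⁻¹ = s := by
  have d : ∀ p : N4, p ≠ 0 → ∃ v, beta p v = true := by decide +kernel
  obtain ⟨v, hv⟩ := d _ h1
  obtain ⟨m, hm, e⟩ := h.Φ_surj (0, 0, v)
  refine ⟨m, (h.QL m hm).2 (by rw [e]), h.ψ_ext (h.comm a ha m hm).1 h.sZ ?_⟩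
  rw [(h.comm a ha m hm).2, e, h.ψs, br, h2]
  simp only [hv, beta_zero, beta_zero']; rfl

theorem cube {c x : G} (hc : c ∈ L) (hx : x ∈ K) (h1 : π x = 1) (h2 : κ x b1 = b1) (h3 : x ^ 3 = 1)
    (e : (c * x) ^ 3 ∈ Q) : c ∈ Q := by
  have a1 := h.conj_L hx hc
  have a2 := h.conj_L hx a1
  have e1 : (c * x) ^ 3 = c * (x * c * x⁻¹) * (x * (x * c * x⁻¹) * x⁻¹) := by
    rw [← mul_one (c * _ * _), ← h3]; simp [pow_succ, mul_assoc]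
  rw [e1, h.QL _ (mul_mem (mul_mem hc a1) a2), h.Φ_mul _ (mul_mem hc a1) _ a2, h.Φ_mul _ hc _ a1,
    Prod.fst_add, Prod.fst_add, h.Φ_conj1 hx h2 a1, h.Φ_conj1 hx h2 hc, h1, rho_one, rho_one,
    Bits.add_self, zero_add] at e
  exact (h.QL c hc).2 e

variable [Finite G]

theorem mem_K_of_conj (hg : g ∈ centralizer ({z} : Set G)) {w : G} (hw : w ∈ Z) (h1 : w ∉ zpowers z)
    (e : g * w * g⁻¹ ∈ Z) : g ∈ K := by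
  obtain ⟨k, hk, kH, -, rfl⟩ := h.trans hw h1
  obtain ⟨k', hk', kH', -, e'⟩ := h.trans e (by rwa [h.conj_zp' hg])
  have h2 : k'⁻¹ * g * k ∈ centralizer ({z} : Set G) := mul_mem (mul_mem (inv_mem kH') hg) kH
  have : k'⁻¹ * g * k ∈ K := h.cent2 ⟨h2, mC'.2 (by
    rw [show k'⁻¹ * g * k * s * (k'⁻¹ * g * k)⁻¹ = k'⁻¹ * (g * (k * s * k⁻¹) * g⁻¹) * k' by group,
      ← e']; group)⟩
  simpa [mul_assoc] using mul_mem (mul_mem hk' this) (inv_mem hk)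

theorem mem_K_of_mod (hg : g ∈ centralizer ({z} : Set G)) (e : g * s * g⁻¹ * s⁻¹ ∈ zpowers z) :
    g ∈ K := h.mem_K_of_conj hg h.sZ h.s_not (by simpa using mul_mem (h.zpZ e) h.sZ)

theorem zp_of_not (hg : g ∈ centralizer ({z} : Set G)) (hn : g ∉ K) {w : G} (hw : w ∈ Z)
    (e : g * w * g⁻¹ ∈ Z) : w ∈ zpowers z := by_contra fun h1 => hn (h.mem_K_of_conj hg hw h1 e)

theorem mem_K_of_two (hg : g ∈ centralizer ({z} : Set G)) {a b : G} (ha : a ∈ L) (hb : b ∈ L)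
    (a1 : (Φ a).1 ≠ 0) (b1 : (Φ b).1 ≠ 0) (ab : (Φ a).1 + (Φ b).1 ≠ 0) (a2 : (Φ a).2.1 = 0)
    (b2 : (Φ b).2.1 = 0) (ha' : g * a * g⁻¹ ∈ L) (hb' : g * b * g⁻¹ ∈ L) : g ∈ K := by
  have t : ∀ {a}, a ∈ L → (Φ a).1 ≠ 0 → (Φ a).2.1 = 0 → g * a * g⁻¹ ∈ L → g * s * g⁻¹ ∈ L ∧
      ∃ x y, Φ (g * s * g⁻¹) = (0, x, y) ∧ (x = 0 ∨ x = (Φ (g * a * g⁻¹)).1) ∧
        (y = 0 ∨ y = (Φ (g * a * g⁻¹)).1) := fun {a} ha h1 h2 h3 => by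
    obtain ⟨m, hm, e⟩ := h.s_comm ha h1 h2
    obtain ⟨h4, x, y, h5, h6, h7, -⟩ := h.comm_Q h3 (h.conj_Q hg hm)
    rw [show g * a * g⁻¹ * (g * m * g⁻¹) * (g * a * g⁻¹)⁻¹ * (g * m * g⁻¹)⁻¹ =
      g * (a * m * a⁻¹ * m⁻¹) * g⁻¹ by group, e] at h4 h5
    exact ⟨h4, x, y, h5, h6, h7⟩
  obtain ⟨h1, x, y, e, hx, hy⟩ := t ha a1 a2 ha'
  obtain ⟨-, x', y', e', hx', hy'⟩ := t hb b1 b2 hb'
  have n : (Φ (g * a * g⁻¹)).1 ≠ (Φ (g * b * g⁻¹)).1 := fun e => ab (by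
    have := h.conj_Q' hg ((h.QL _ (mul_mem ha' hb')).2
      (by rw [h.Φ_mul _ ha' _ hb', Prod.fst_add, e, Bits.add_self]))
    rwa [show g⁻¹ * (g * a * g⁻¹ * (g * b * g⁻¹)) * g = a * b by group, h.QL _ (mul_mem ha hb),
      h.Φ_mul _ ha _ hb] at this)
  rw [e, Prod.mk.injEq, Prod.mk.injEq] at e'
  obtain ⟨-, rfl, rfl⟩ := e'
  refine h.mem_K_of_conj hg h.sZ h.s_not ((h.Φ_ker _ h1).1 ?_)
  rw [e, hx.resolve_right fun e1 => hx'.elim (fun e2 => a1.elim ?_) fun e2 => n (e1 ▸ e2 ▸ rfl),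
    hy.resolve_right fun e1 => hy'.elim (fun e2 => a1.elim ?_) fun e2 => n (e1 ▸ e2 ▸ rfl)]
  · rfl
  all_goals
    have := h.conj_Q' hg ((h.QL _ ha').2 (e1 ▸ e2))
    rwa [show g⁻¹ * (g * a * g⁻¹) * g = a by group, h.QL _ ha] at this

theorem rank (hg : g ∈ centralizer ({z} : Set G)) (hl : g * s * g⁻¹ ∈ L) {w : G} (hw : w ∈ Z) :
    g * w * g⁻¹ ∈ L := by
  have l0 := (h.QL _ hl).1 (h.conj_Q hg h.sQ)
  have t : ∀ a ∈ L, beta (Φ a).1 (Φ (g * s * g⁻¹)).2.1 = false →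
      beta (Φ a).1 (Φ (g * s * g⁻¹)).2.2 = false → g⁻¹ * a * g ∈ K ∧ κ (g⁻¹ * a * g) b1 = b1 ∧
        (κ (g⁻¹ * a * g) b2 = b2 ∨ κ (g⁻¹ * a * g) b2 = b2 + b1) := fun a ha h1 h2 => by
    have h3 : g⁻¹ * a * g ∈ centralizer ({z} : Set G) := mul_mem (mul_mem (inv_mem hg) (h.LH ha)) hg
    have h4 := (h.conj_zp' (inv_mem hg)).2 (h.zp.2 ⟨(h.comm a ha _ hl).1, by
      rw [(h.comm a ha _ hl).2, br, mk3_mem, h1, h2, l0]; simp [beta_zero']⟩)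
    rw [show g⁻¹ * (a * (g * s * g⁻¹) * a⁻¹ * (g * s * g⁻¹)⁻¹) * g⁻¹⁻¹ =
      g⁻¹ * a * g * s * (g⁻¹ * a * g)⁻¹ * s⁻¹ by group] at h4
    have h5 := h.mem_K_of_mod h3 h4
    have h6 := (h.zp.1 h4).2
    rw [(h.ψ_comm h5 h.sZ).2, h.ψs] at h6
    have d : ∀ x : Z3, (x + b2 = 0 ∨ x + b2 = b1) → x = b2 ∨ x = b2 + b1 := by decide
    exact ⟨h5, (h.mem_H h5).1 h3, d _ h6⟩
  have fin : ∀ a ∈ L, (Φ a).1 ≠ 0 → g⁻¹ * a * g ∈ K →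
      (∀ ζ, κ (g⁻¹ * a * g) ζ = ζ ∨ κ (g⁻¹ * a * g) ζ = ζ + b1) → g * w * g⁻¹ ∈ L := by
    intro a ha h0 h1 h2
    have d : ∀ a b : Z3, (a = b ∨ a = b + b1) → a + b = 0 ∨ a + b = b1 := by decide
    have h3 := (h.conj_zp' hg).2 (h.zp.2 ⟨(h.ψ_comm h1 hw).1, by
      rw [(h.ψ_comm h1 hw).2]; exact d _ _ (h2 _)⟩)
    obtain ⟨-, x, y, e, -, -, h4⟩ := h.comm_Q ha (h.conj_Q hg (h.ZQ hw))
    rw [show a * (g * w * g⁻¹) * a⁻¹ * (g * w * g⁻¹)⁻¹ =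
      g * (g⁻¹ * a * g * w * (g⁻¹ * a * g)⁻¹ * w⁻¹) * g⁻¹ by group, h.Φ_Z (h.zpZ h3)] at e
    exact (h4 (congrArg (·.2.1) e).symm (congrArg (·.2.2) e).symm).resolve_right h0
  obtain ⟨p, r, p1, p2, r1, r2, p0, r0, pr⟩ := two_perp (Φ (g * s * g⁻¹)).2.1 (Φ (g * s * g⁻¹)).2.2
  obtain ⟨a, ha, ea⟩ := h.Φ_surj (p, 0, 0)
  obtain ⟨b, hb, eb⟩ := h.Φ_surj (r, 0, 0)
  obtain ⟨a1, a2, a3⟩ := t a ha (by rwa [ea]) (by rwa [ea])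
  obtain ⟨c1, c2, c3⟩ := t b hb (by rwa [eb]) (by rwa [eb])
  have d : ∀ x y, (x = b2 ∨ x = b2 + b1) → Ind b1 x y → ∀ x' y', (x' = b2 ∨ x' = b2 + b1) →
      Ind b1 x' y' → (∀ ζ, comb b1 x y ζ = ζ ∨ comb b1 x y ζ = ζ + b1) ∨
      (∀ ζ, comb b1 x' y' ζ = ζ ∨ comb b1 x' y' ζ = ζ + b1) ∨
      ∀ ζ, comb b1 x y (comb b1 x' y' ζ) = ζ ∨ comb b1 x y (comb b1 x' y' ζ) = ζ + b1 := by
    decide +kernel
  have f1 : ∀ ζ, κ (g⁻¹ * a * g) ζ = comb b1 _ _ ζ := fun ζ => by rw [h.κ_eq a1, a2]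
  have f2 : ∀ ζ, κ (g⁻¹ * b * g) ζ = comb b1 _ _ ζ := fun ζ => by rw [h.κ_eq c1, c2]
  rcases d _ _ a3 (a2 ▸ h.κ_ind a1) _ _ c3 (c2 ▸ h.κ_ind c1) with e | e | e
  · exact fin a ha (by rwa [ea]) a1 fun ζ => by rw [f1]; exact e ζ
  · exact fin b hb (by rwa [eb]) c1 fun ζ => by rw [f2]; exact e ζ
  have e1 : g⁻¹ * (a * b) * g = g⁻¹ * a * g * (g⁻¹ * b * g) := by group
  refine fin _ (mul_mem ha hb) (by rwa [h.Φ_mul a ha b hb, ea, eb]) (e1 ▸ mul_mem a1 c1) fun ζ => ?_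
  rw [e1, h.κ_mul _ a1 _ c1, Perm.mul_apply, f1, f2]; exact e ζ

theorem rank' (hg : g ∈ centralizer ({z} : Set G)) (hl : g * s * g⁻¹ ∈ L) {w : G} (hw : w ∈ Z) :
    g⁻¹ * w * g ∈ L := by
  have h1 := h.conj_Q' hg (h.ZQ hw)
  refine h.mem_L_of_Q h1 (h.κ_of_comm (h.QK h1) fun a ha => ?_)
  rw [show g⁻¹ * w * g * a = g⁻¹ * (w * (g * a * g⁻¹)) * g by group, ← h.LZ (h.rank hg hl ha) hw]
  group

/-- Conjugates of `s` in `L` have rank at most one or lie over an `𝔽₄`-line. -/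
theorem not_baer (hg : g ∈ centralizer ({z} : Set G)) (hl : g * s * g⁻¹ ∈ L) :
    (Φ (g * s * g⁻¹)).2.1 = 0 ∨ (Φ (g * s * g⁻¹)).2.2 = 0 ∨
      line (Φ (g * s * g⁻¹)).2.1 = line (Φ (g * s * g⁻¹)).2.2 := by
  by_cases gK : g ∈ K
  · left; rw [h.Φ_Z (h.conj_Z gK h.sZ)]; rfl
  by_contra! hn
  have l0 := (h.QL _ hl).1 (h.conj_Q hg h.sQ)
  have s1 := h.rank' hg hl h.sZ
  have s0 := (h.QL _ s1).1 (h.conj_Q' hg h.sQ)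
  have t : ∀ a ∈ L, beta (Φ a).1 (Φ (g⁻¹ * s * g)).2.1 = false →
      beta (Φ a).1 (Φ (g⁻¹ * s * g)).2.2 = false → (Φ a).2 = 0 → g * a * g⁻¹ ∈ K ∧
      (∀ ζ, κ (g * a * g⁻¹) ζ = ζ ∨ κ (g * a * g⁻¹) ζ = ζ + b1) ∧
      rho (π (g * a * g⁻¹)) (Φ (g * s * g⁻¹)).2.1 = (Φ (g * s * g⁻¹)).2.1 ∧
      rho (π (g * a * g⁻¹)) (Φ (g * s * g⁻¹)).2.2 = (Φ (g * s * g⁻¹)).2.2 := by
    intro a ha h1 h2 h3
    have h4 := (h.comm_iff ha s1).2 (by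
      rw [br, h1, h2, h3, s0]; simp only [Prod.fst_zero, Prod.snd_zero, beta_zero]; rfl)
    have h5 : g * a * g⁻¹ ∈ centralizer ({z} : Set G) := mul_mem (mul_mem hg (h.LH ha)) (inv_mem hg)
    have h6 : g * a * g⁻¹ ∈ K := h.cent2 ⟨h5, mC.2 (by
      rw [show g * a * g⁻¹ * s = g * (a * (g⁻¹ * s * g)) * g⁻¹ by group, h4]; group)⟩
    have h7 : ∀ ζ, κ (g * a * g⁻¹) ζ = ζ ∨ κ (g * a * g⁻¹) ζ = ζ + b1 := fun ζ => by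
      obtain ⟨w, hw, rfl⟩ := h.ψ_surj ζ
      obtain ⟨h8, h9⟩ := h.ψ_comm h6 hw
      have e : g * a * g⁻¹ * w * (g * a * g⁻¹)⁻¹ * w⁻¹ =
        g * (a * (g⁻¹ * w * g) * a⁻¹ * (g⁻¹ * w * g)⁻¹) * g⁻¹ := by group
      have := (h.zp.1 ((h.conj_zp' hg).2 (h.zp_of_not hg gK
        (h.comm a ha _ (h.rank' hg hl hw)).1 (e ▸ h8)))).2
      rw [← e, h9] at this
      have d : ∀ x y : Z3, (x + y = 0 ∨ x + y = b1) → x = y ∨ x = y + b1 := by decide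
      exact d _ _ this
    have h8 : ∀ ζ, rho (π (g * a * g⁻¹)) (ev (Φ (g * s * g⁻¹)) ζ) = ev (Φ (g * s * g⁻¹)) ζ := by
      intro ζ
      rw [← h.Φ_conj _ h6 _ hl, show g * a * g⁻¹ * (g * s * g⁻¹) * (g * a * g⁻¹)⁻¹ =
        g * (a * s * a⁻¹) * g⁻¹ by group, h.LZ ha h.sZ, mul_inv_cancel_right]
      rcases h7 ζ with e | e <;> rw [e]
      rw [ev_add, ev_one, l0, add_zero]
    exact ⟨h6, h7, by simpa only [ev_two] using h8 b2, by simpa only [ev_four] using h8 b3⟩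
  have fin : ∀ a ∈ L, (Φ a).1 ≠ 0 → (Φ a).2 = 0 → g * a * g⁻¹ ∈ K → π (g * a * g⁻¹) = 1 →
      (∀ ζ, κ (g * a * g⁻¹) ζ = ζ ∨ κ (g * a * g⁻¹) ζ = ζ + b1) → False := by
    intro a ha h0 h1 h2 h3 h4
    obtain ⟨q, hq, c, hc, e⟩ := h.decomp h2 h3
      ((h.mem_H h2).1 (mul_mem (mul_mem hg (h.LH ha)) (inv_mem hg))) (h4 _) (h4 _)
    obtain ⟨m, hm, e1⟩ := h.s_comm ha h0 (by rw [h1]; rfl)
    have hm' := h.conj_Q hg hm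
    obtain ⟨h5, x, y, e2, hx, hy, -⟩ := h.comm_Q hc hm'
    have h6 := h.zpZ (h.pre.comm_mem hq (h.conj_Q (h.LH hc) hm'))
    have e3 : g * s * g⁻¹ = q * (c * (g * m * g⁻¹) * c⁻¹) * q⁻¹ * (c * (g * m * g⁻¹) * c⁻¹)⁻¹ *
        (c * (g * m * g⁻¹) * c⁻¹ * (g * m * g⁻¹)⁻¹) := by
      rw [← e1, show c = q⁻¹ * (g * a * g⁻¹) by rw [e]; group]; group
    rw [e3, h.Φ_mul _ (h.ZL h6) _ h5, h.Φ_Z h6, zero_add, e2] at hn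
    exact hn.2.2 (by rw [hx.resolve_left hn.1, hy.resolve_left hn.2.1])
  obtain ⟨p, r, p1, p2, r1, r2, p0, r0, pr⟩ := two_perp (Φ (g⁻¹ * s * g)).2.1 (Φ (g⁻¹ * s * g)).2.2
  obtain ⟨a, ha, ea⟩ := h.Φ_surj (p, 0, 0)
  obtain ⟨b, hb, eb⟩ := h.Φ_surj (r, 0, 0)
  have ec : Φ (a * b) = (p + r, 0, 0) := by rw [h.Φ_mul a ha b hb, ea, eb]; simp
  obtain ⟨a1, a2, a3, a4⟩ := t a ha (by rwa [ea]) (by rwa [ea]) (by rw [ea]; rfl)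
  obtain ⟨c1, c2, c3, c4⟩ := t b hb (by rwa [eb]) (by rwa [eb]) (by rw [eb]; rfl)
  obtain ⟨d1, d2, -⟩ := t _ (mul_mem ha hb) (by rw [ec, beta_add, p1, r1]; rfl)
    (by rw [ec, beta_add, p2, r2]; rfl) (by rw [ec]; rfl)
  have d : ∀ σ : Perm (Fin 5), σ = 1 ∨ ∀ u, rho σ u = u → ∀ v, rho σ v = v → u ≠ 0 → v ≠ 0 →
      line u ≠ line v → ∀ τ, rho τ u = u → rho τ v = v → τ = 1 ∨ σ * τ = 1 := by decide +kernel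
  rcases d (π (g * a * g⁻¹)) with e | e
  · exact fin a ha (by rwa [ea]) (by rw [ea]; rfl) a1 e a2
  rcases e _ a3 _ a4 hn.1 hn.2.1 hn.2.2 _ c3 c4 with e | e
  · exact fin b hb (by rwa [eb]) (by rw [eb]; rfl) c1 e c2
  refine fin _ (mul_mem ha hb) (by rwa [ec]) (by rw [ec]; rfl) d1 ?_ d2
  rw [← e, ← h.π_mul _ a1 _ c1]; congr 1; group

end PQ

end Cfsg.Lib.J4T
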