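import Cfsg.Agent.J4T.PE
import Cfsg.Agent.CIT.Conf
import Cfsg.Agent.FT.LiftFamily

/-! Coordinates for a group of shape `2^(3+12).(S₅ × L₃(2))`: the normalizer of `V` in `C(z)`. -/

set_option autoImplicit false
set_option maxRecDepth 100000
set_option synthInstance.maxSize 2048

namespace Cfsg.Lib.J4T

open Subgroup Equiv Cfsg.Lib.Local

variable {G : Type*} [Group G] {K L Z Q N : Subgroup G} {π : G → Perm (Fin 5)} {κ : G → Perm Z3}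
  {ψ : G → Z3} {Φ : G → M12} {z s g x : G}

theorem comm_of_sq {V : Subgroup G} (h : ∀ v ∈ V, v * v = 1) {a b : G} (ha : a ∈ V) (hb : b ∈ V) :
    a * b = b * a := by
  rw [← inv_eq_of_mul_eq_one_right (h _ (mul_mem ha hb)), mul_inv_rev,
    inv_eq_of_mul_eq_one_right (h a ha), inv_eq_of_mul_eq_one_right (h b hb)]

namespace PQ

variable [Finite G] (h : PQ K L Z Q π κ ψ Φ z s)
include h

theorem V_comm {a b : G} (ha : a ∈ h.V 0) (hb : b ∈ h.V 0) : a * b = b * a :=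
  comm_of_sq (fun _ => h.V_sq) ha hb

theorem mem_NV {k : G} (hk : k ∈ K) (e : π k 0 = 0) : k ∈ normalizer (h.V 0 : Set G) :=
  mem_normalizer_fintype fun v hv => by have := h.V_conj hk hv; rwa [e] at this

theorem V_Q {v : G} (hv : v ∈ h.V 0) (hq : v ∈ Q) : v ∈ L := h.mem_L_of_Q hq (h.V_K hv).2

theorem card_VQ : Nat.card ↥(h.V 0 ⊓ Q) = 128 := by
  have := h.ncard_pre fun f => f.1 = 0 ∧ onL 0 f.2.1 ∧ onL 0 f.2.2
  rw [show (Finset.univ.filter fun f : M12 => f.1 = 0 ∧ onL 0 f.2.1 ∧ onL 0 f.2.2).card = 16 by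
    decide +kernel, ← Nat.card_coe_set_eq] at this
  rw [show 128 = 8 * 16 from rfl, ← this]
  refine Nat.card_congr (Equiv.setCongr (Set.ext fun a => ⟨fun ⟨h1, h2⟩ => ?_,
    fun ⟨h1, h2, h3⟩ => ⟨(h.V_L h1).2 ⟨.inl h2, h3⟩, (h.QL a h1).2 h2⟩⟩))
  have h3 := h.V_Q h1 h2
  exact ⟨h3, (h.QL a h3).1 h2, ((h.V_L h3).1 h1).2⟩

theorem conj_mem_V (hg : g ∈ centralizer ({z} : Set G)) (hl : g * s * g⁻¹ ∈ h.V 0) {w : G}
    (hw : w ∈ Z) : g * w * g⁻¹ ∈ h.V 0 := by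
  by_cases gK : g ∈ K
  · exact (h.V_L (h.ZL (h.conj_Z gK hw))).2 (by rw [h.Φ_Z (h.conj_Z gK hw)]; exact zero_mem _)
  have h1 := h.rank hg (h.V_Q hl (h.conj_Q hg h.sQ)) hw
  have h0 := (h.QL _ h1).1 (h.conj_Q hg (h.ZQ hw))
  have t : ∀ p, onL 0 p → beta p (Φ (g * w * g⁻¹)).2.2 = false ∧
      beta p (Φ (g * w * g⁻¹)).2.1 = false := fun p hp => by
    obtain ⟨a, ha, e⟩ := h.Φ_surj (p, 0, 0)
    have h2 := h.V_comm ((h.V_L ha).2 (by rw [e]; exact ⟨hp, .inl rfl, .inl rfl⟩)) hl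
    have h3 : g⁻¹ * a * g ∈ centralizer ({z} : Set G) := mul_mem (mul_mem (inv_mem hg) (h.LH ha)) hg
    have h4 : g⁻¹ * a * g ∈ K := h.cent2 ⟨h3, mC.2 (by
      rw [show g⁻¹ * a * g * s = g⁻¹ * (a * (g * s * g⁻¹)) * g by group, h2]; group)⟩
    have e1 : a * (g * w * g⁻¹) * a⁻¹ * (g * w * g⁻¹)⁻¹ =
      g * (g⁻¹ * a * g * w * (g⁻¹ * a * g)⁻¹ * w⁻¹) * g⁻¹ := by group
    have := (h.zp.1 ((h.conj_zp' hg).2 (h.zp_of_not hg gK (h.ψ_comm h4 hw).1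
      (e1 ▸ (h.comm a ha _ h1).1)))).2
    rw [← e1, (h.comm a ha _ h1).2, br, mk3_mem, e, h0] at this
    simpa [beta_zero'] using this
  exact (h.V_L h1).2 ⟨.inl h0, onL_of_beta _ _ fun p hp => (t p hp).2,
    onL_of_beta _ _ fun p hp => (t p hp).1⟩

theorem not_le_L (hg : g ∈ centralizer ({z} : Set G)) : ¬ ∀ v ∈ h.V 0, g⁻¹ * v * g ∈ L := by
  intro hL
  let φ : h.V 0 →* Multiplicative N4 := MonoidHom.mk' (fun v => .ofAdd (Φ (g⁻¹ * v * g)).1)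
    fun a b => by
      rw [← ofAdd_add, ← Prod.fst_add, ← h.Φ_mul _ (hL a a.2) _ (hL b b.2)]
      congr 3; push_cast; group
  have k1 : ∀ v : h.V 0, v ∈ φ.ker ↔ (v : G) ∈ Q := fun v =>
    (h.QL _ (hL v v.2)).symm.trans ⟨fun e => by simpa [mul_assoc] using h.conj_Q hg e, h.conj_Q' hg⟩
  have c1 : Nat.card φ.ker = 128 := by
    rw [← h.card_VQ]
    exact Nat.card_congr ⟨fun v => ⟨v.1, v.1.2, (k1 _).1 v.2⟩, fun v => ⟨⟨v, v.2.1⟩, (k1 _).2 v.2.2⟩,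
      fun _ => rfl, fun _ => rfl⟩
  have c2 := φ.ker.card_mul_index
  rw [index_ker, c1, h.card_V] at c2
  have c3 : φ.range = ⊤ := eq_top_of_card_eq _ (by
    rw [show Nat.card (Multiplicative N4) = 2 ^ 4 from card_bits 4]; omega)
  have t : ∀ v : φ.ker, g⁻¹ * v * g ∈ Z := fun v => by
    have h1 := hL _ v.1.2
    have h2 : ∀ p, beta (Φ (g⁻¹ * v * g)).2.2 p = false ∧ beta (Φ (g⁻¹ * v * g)).2.1 p = false := by
      intro p
      obtain ⟨a, e⟩ : Multiplicative.ofAdd p ∈ φ.range := c3 ▸ mem_top _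
      have := (h.comm_iff (hL a a.2) h1).1 (by
        rw [show g⁻¹ * a * g * (g⁻¹ * v * g) = g⁻¹ * (a * v) * g by group, h.V_comm a.2 v.1.2]; group)
      rw [br, mk3_zero_iff, show (Φ (g⁻¹ * a * g)).1 = p from e,
        show (Φ (g⁻¹ * v * g)).1 = 0 from v.2] at this
      simpa [beta_zero', beta_comm p] using this.2
    exact (h.Φ_ker _ h1).1 (Prod.ext v.2 (Prod.ext (beta_nondeg _ fun p => (h2 p).2)
      (beta_nondeg _ fun p => (h2 p).1)))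
  have := Nat.card_le_card_of_injective (fun v : φ.ker => (⟨_, t v⟩ : Z)) fun a b e =>
    Subtype.ext (Subtype.ext (by simpa using congrArg Subtype.val e))
  rw [c1, h.cardZ] at this; omega

/-- The normalizer of `V` controls the fusion of `s` in `V`. -/
theorem fusion (hg : g ∈ centralizer ({z} : Set G)) (hl : g * s * g⁻¹ ∈ h.V 0) :
    ∃ k ∈ K, κ k = 1 ∧ g * k ∈ normalizer (h.V 0 : Set G) := by
  let E := (h.V 0).map (MulAut.conj g⁻¹).toMonoidHom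
  have mE : ∀ v ∈ h.V 0, g⁻¹ * v * g ∈ E := fun v hv => ⟨v, hv, by simp⟩
  obtain ⟨i, e⟩ := h.eq_V E (by
      rintro _ ⟨v, hv, rfl⟩
      have : ∀ w ∈ Z, (MulAut.conj g⁻¹).toMonoidHom v * w = w * (MulAut.conj g⁻¹).toMonoidHom v :=
        fun w hw => by
          show g⁻¹ * v * g⁻¹⁻¹ * w = w * (g⁻¹ * v * g⁻¹⁻¹)
          rw [show g⁻¹ * v * g⁻¹⁻¹ * w = g⁻¹ * (v * (g * w * g⁻¹)) * g by group,
            h.V_comm hv (h.conj_mem_V hg hl hw)]; group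
      exact ⟨h.mem_K_of_comm this, h.κ_of_comm (h.mem_K_of_comm this) this⟩)
    (by rintro _ ⟨v, hv, rfl⟩; rw [← map_mul, h.V_sq hv, map_one])
    (by rw [card_map_of_injective (MulAut.conj g⁻¹).injective, h.card_V])
    fun e => h.not_le_L hg fun v hv => e (mE v hv)
  obtain ⟨k, hk, e1, e2⟩ := h.exC (swap 0 i)
  refine ⟨k, hk, e2, mem_normalizer_fintype fun v hv => ?_⟩
  have := h.V_conj hk hv
  rw [e1, swap_apply_left, ← e] at this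
  obtain ⟨u, hu, e3⟩ := this
  rwa [show g * k * v * (g * k)⁻¹ = g * (k * v * k⁻¹) * g⁻¹ by group, ← e3,
    show g * (MulAut.conj g⁻¹).toMonoidHom u * g⁻¹ = u by simp [mul_assoc]]

theorem mem_K_of_V (hg : g ∈ centralizer ({z} : Set G))
    (e : ∀ a ∈ h.V 0, a ∈ L → a ∉ Q → g * a * g⁻¹ ∈ L) : g ∈ K := by
  obtain ⟨a, ha, ea⟩ := h.Φ_surj (bv 4 1, 0, 0)
  obtain ⟨b, hb, eb⟩ := h.Φ_surj (bv 4 2, 0, 0)
  exact h.mem_K_of_two hg ha hb (by rw [ea]; decide) (by rw [eb]; decide) (by rw [ea, eb]; decide)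
    (by rw [ea]) (by rw [eb])
    (e a ((h.V_L ha).2 (by rw [ea, mem_lineA]; decide)) ha (by rw [h.QL a ha, ea]; decide))
    (e b ((h.V_L hb).2 (by rw [eb, mem_lineA]; decide)) hb (by rw [h.QL b hb, eb]; decide))

variable (h1 : N ≤ centralizer ({z} : Set G)) (h2 : N ≤ normalizer (h.V 0 : Set G))
  (h3 : ∀ k ∈ K, κ k = 1 → π k 0 = 0 → k ∈ N) (hn : ¬ N ≤ K)
include h1 h2 h3 hn

theorem trans_V {v w : G} (hv : v ∈ h.V 0) (vQ : v ∉ Q) (hw : w ∈ h.V 0) (wQ : w ∉ Q) :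
    ∃ n ∈ N, n * v * n⁻¹ * w⁻¹ ∈ Q := by
  let r : G → G → Prop := fun v w => ∃ n ∈ N, n * v * n⁻¹ * w⁻¹ ∈ Q
  have tr : ∀ {a b c}, r a b → r b c → r a c := fun ⟨n, hn, e⟩ ⟨m, hm, e'⟩ =>
    ⟨m * n, mul_mem hm hn, by convert mul_mem (h.conj_Q (h1 hm) e) e' using 1; group⟩
  have sy : ∀ {a b}, r a b → r b a := fun ⟨n, hn, e⟩ =>
    ⟨n⁻¹, inv_mem hn, by convert h.conj_Q' (h1 hn) (inv_mem e) using 1; group⟩
  have i1 : ∀ a ∈ h.V 0, a ∈ L → a ∉ Q → ∀ b ∈ h.V 0, b ∈ L → b ∉ Q → r a b := by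
    intro a ha aL aQ b hb bL bQ
    have d : ∀ p, onL 0 p → p ≠ 0 → ∀ r, onL 0 r → r ≠ 0 →
      ∃ σ : Perm (Fin 5), σ 0 = 0 ∧ rho σ p = r := by decide +kernel
    obtain ⟨σ, e0, e⟩ := d _ ((h.V_L aL).1 ha).1 (by rwa [Ne, ← h.QL a aL]) _ ((h.V_L bL).1 hb).1
      (by rwa [Ne, ← h.QL b bL])
    obtain ⟨k, hk, rfl, e2⟩ := h.exC σ
    refine ⟨k, h3 k hk e2 e0, (h.QL _ (mul_mem (h.conj_L hk aL) (inv_mem bL))).2 ?_⟩
    rw [h.Φ_mul _ (h.conj_L hk aL) _ (inv_mem bL), h.Φ_inv bL, h.Φ_conj0 hk e2 aL, Prod.fst_add, e,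
      Bits.add_self]
  have i2 : ∀ a ∈ h.V 0, a ∉ L → ∀ b ∈ h.V 0, b ∉ L → r a b := by
    intro a ha aL b hb bL
    have d : ∀ σ, FixL 0 σ → σ ≠ 1 → (∀ p, onL 0 p → ∃ u, u + rho σ u = p) ∧ ∀ τ, FixL 0 τ → τ ≠ 1 →
      ∃ ρ : Perm (Fin 5), ρ 0 = 0 ∧ ρ * τ * ρ⁻¹ = σ := by decide +kernel
    obtain ⟨d1, d2⟩ := d (π b) (h.V_π hb) fun e => bL (h.mem_L (h.V_K hb).1 e (h.V_K hb).2)
    obtain ⟨ρ, e0, e⟩ := d2 (π a) (h.V_π ha) fun e => aL (h.mem_L (h.V_K ha).1 e (h.V_K ha).2)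
    obtain ⟨k, hk, rfl, e2⟩ := h.exC ρ
    have hc := h.V_conj hk ha
    rw [e0] at hc
    rw [← h.π_conj hk (h.V_K ha).1] at e
    refine tr (b := k * a * k⁻¹) ⟨k, h3 k hk e2 e0, by simp⟩ ?_
    obtain ⟨c, ec⟩ : ∃ c, c = k * a * k⁻¹ := ⟨_, rfl⟩
    rw [← ec] at hc e ⊢
    have cL := h.inv_mul_mem_L (h.V_K hb) (h.V_K hc) e.symm
    obtain ⟨u, hu⟩ := d1 _ ((h.V_L cL).1 (mul_mem (inv_mem hb) hc)).1
    obtain ⟨l, hl, el⟩ := h.Φ_surj (u, 0, 0)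
    have l1 := h.conj_L (h.V_K hc).1 (inv_mem hl)
    refine ⟨l, h3 l (h.LK hl) (h.κ_L hl) (by rw [h.π_L hl]; rfl), ?_⟩
    rw [show l * c * l⁻¹ * b⁻¹ = l * (c * l⁻¹ * c⁻¹) * (c * b⁻¹) by group,
      h.V_comm hc (inv_mem hb), h.QL _ (mul_mem (mul_mem hl l1) cL), h.Φ_mul _ (mul_mem hl l1) _ cL,
      h.Φ_mul _ hl _ l1, h.Φ_conj0 (h.V_K hc).1 (h.V_K hc).2 (inv_mem hl), h.Φ_inv hl, el, e,
      Prod.fst_add, Prod.fst_add, hu, Bits.add_self]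
  obtain ⟨n, hn, nK⟩ := SetLike.not_le_iff_exists.1 hn
  have := mt (h.mem_K_of_V (h1 hn)) nK
  push Not at this
  obtain ⟨a, ha, aL, aQ, hb⟩ := this
  have hb' := (mem_normalizer_iff.1 (h2 hn) a).1 ha
  have i3 : ∀ v ∈ h.V 0, v ∉ Q → r a v := fun v hv vQ => by
    by_cases e : v ∈ L
    · exact i1 a ha aL aQ v hv e vQ
    · exact tr ⟨n, hn, by simp⟩ (i2 _ hb' hb v hv e)
  exact tr (sy (i3 v hv vQ)) (i3 w hw wQ)

theorem five_dvd : 5 ∣ Nat.card N := by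
  have : (Q.subgroupOf (centralizer ({z} : Set G))).Normal :=
    (normal_subgroupOf_iff_le_normalizer h.QH).2 h.pre.norm
  let φ := QuotientGroup.mk' (Q.subgroupOf (centralizer ({z} : Set G)))
  have VH : h.V 0 ≤ centralizer ({z} : Set G) := fun v hv =>
    (h.mem_H (h.V_K hv).1).2 (by rw [(h.V_K hv).2]; rfl)
  have eq : ∀ a b : centralizer ({z} : Set G), φ a = φ b ↔ (a : G) * (b : G)⁻¹ ∈ Q := fun a b => by
    rw [← mul_inv_eq_one, ← map_inv, ← map_mul]; exact QuotientGroup.eq_one_iff _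
  obtain ⟨a, ha, ea⟩ := h.Φ_surj (bv 4 1, 0, 0)
  have aV := (h.V_L ha).2 (show Φ a ∈ lineA 0 by rw [ea, mem_lineA]; decide)
  have aQ : a ∉ Q := by rw [h.QL a ha, ea]; decide
  have c1 := CIT.card_eq_ncard_mul ((N.subgroupOf _).map φ) (φ ⟨a, VH aV⟩)
  have c2 := FT.card_eq_card_map_mul φ ((h.V 0).subgroupOf _)
  have c3 := FT.card_eq_card_map_mul φ (N.subgroupOf _)
  rw [Nat.card_congr (subgroupOfEquivOfLe h1).toEquiv] at c3
  rw [Nat.card_congr (subgroupOfEquivOfLe VH).toEquiv, h.card_V, QuotientGroup.ker_mk', inf_comm,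
    show (h.V 0).subgroupOf _ ⊓ Q.subgroupOf _ = (h.V 0 ⊓ Q).subgroupOf _ from rfl, Nat.card_congr (subgroupOfEquivOfLe (inf_le_left.trans VH)).toEquiv,
    h.card_VQ] at c2
  have e : {y | ∃ b ∈ (N.subgroupOf _).map φ, b * φ ⟨a, VH aV⟩ * b⁻¹ = y} =
      (((h.V 0).subgroupOf _).map φ : Set _) \ {1} := by
    ext y
    constructor
    · rintro ⟨_, ⟨n, hn, rfl⟩, rfl⟩
      refine ⟨⟨n * ⟨a, VH aV⟩ * n⁻¹, (mem_normalizer_iff.1 (h2 hn) a).1 aV, by simp⟩, fun e => aQ ?_⟩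
      exact (QuotientGroup.eq_one_iff (⟨a, VH aV⟩ : centralizer ({z} : Set G))).1
        (show φ _ = 1 by simpa using e)
    · rintro ⟨⟨v, hv, rfl⟩, e⟩
      obtain ⟨n, hn', e'⟩ := h.trans_V h1 h2 h3 hn aV aQ hv fun e' =>
        e ((QuotientGroup.eq_one_iff v).2 e')
      exact ⟨φ ⟨n, h1 hn'⟩, ⟨_, hn', rfl⟩, by
        rw [← map_inv, ← map_mul, ← map_mul]; exact (eq _ _).2 e'⟩
  rw [e, Set.ncard_sdiff_singleton_of_mem (one_mem _), ← Nat.card_coe_set_eq, SetLike.coe_sort_coe,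
    show Nat.card (((h.V 0).subgroupOf _).map φ) = 16 by omega] at c1
  rw [c3, c1]
  exact ((show 5 ∣ 16 - 1 by norm_num).mul_right _).mul_right _

end PQ

end Cfsg.Lib.J4T
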