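import Cfsg.Agent.SporChar.LargeX
import Cfsg.Agent.Gold.TFMod
import Cfsg.Agent.FT.BG4.Elem
import Cfsg.Agent.Local.ProdCard

/-!
# Elements of the centraliser acting on an extraspecial group of order `2 ^ 13`
-/

set_option autoImplicit false

namespace Cfsg.Lib.J4T

open Subgroup Cfsg.Lib.Local
open scoped commutatorElement

variable {G : Type*} [Group G] {Q : Subgroup G} {z x g t y q : G}

theorem card_zz (pre : PreLX Q z) : Nat.card (zpowers z) = 2 := by rw [Nat.card_zpowers, pre.ord]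

theorem comm_zz (hg : g ∈ centralizer ({z} : Set G)) {w : G} (hw : w ∈ zpowers z) :
    g * w * g⁻¹ = w := by
  obtain ⟨k, rfl⟩ := hw
  rw [(Commute.zpow_right (mem_centralizer_singleton_iff.1 hg) k).eq, mul_inv_cancel_right]

/-- The elements of `C(z)` fixing `q` modulo `z`. -/
def stz (z q : G) : Subgroup G where
  carrier := {h | h ∈ centralizer ({z} : Set G) ∧ h * q * h⁻¹ * q⁻¹ ∈ zpowers z}
  mul_mem' := fun {a b} ⟨a1, a2⟩ ⟨b1, b2⟩ => ⟨mul_mem a1 b1, by
    rw [show a * b * q * (a * b)⁻¹ * q⁻¹ = a * (b * q * b⁻¹ * q⁻¹) * a⁻¹ * (a * q * a⁻¹ * q⁻¹) by group,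
      comm_zz a1 b2]
    exact mul_mem b2 a2⟩
  one_mem' := ⟨one_mem _, by simp⟩
  inv_mem' := fun {a} ⟨a1, a2⟩ => ⟨inv_mem a1, by
    rw [show a⁻¹ * q * a⁻¹⁻¹ * q⁻¹ = a⁻¹ * (a * q * a⁻¹ * q⁻¹)⁻¹ * a⁻¹⁻¹ by group,
      comm_zz (inv_mem a1) (inv_mem a2)]
    exact inv_mem a2⟩

theorem le_stz (pre : PreLX Q z) (hq : q ∈ Q) : Q ≤ stz z q := fun _ ha =>
  ⟨pre.le_cent ha, pre.comm_mem ha hq⟩

theorem cjQ (pre : PreLX Q z) (hg : g ∈ centralizer ({z} : Set G)) (hq : q ∈ Q) :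
    g * q * g⁻¹ ∈ Q := (mem_normalizer_iff.1 (pre.norm hg) q).1 hq

theorem pow_four (pre : PreLX Q z) (hq : q ∈ Q) : q ^ 4 = 1 := by
  rw [show q ^ 4 = q * q * (q * q) by simp only [pow_succ, pow_zero, one_mul, mul_assoc],
    pre.mul_self_of_mem (pre.sq_mem q hq)]

theorem comm_mem_fix (pre : PreLX Q z) (ht : t ∈ centralizer ({z} : Set G)) (t2 : t * t ∈ Q)
    (hq : q ∈ Q) : ⁅q, t⁆ ∈ pre.toSympPair.fixMod (pre.norm ht) := by
  have b := cjQ pre ht hq
  refine (pre.mem_fixMod _).2 ⟨by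
    rw [show ⁅q, t⁆ = q * (t * q * t⁻¹)⁻¹ by rw [commutatorElement_def]; group]
    exact mul_mem hq (inv_mem b), ?_⟩
  have w := pre.comm_mem t2 (inv_mem hq)
  rw [show t * ⁅q, t⁆ * t⁻¹ * ⁅q, t⁆⁻¹ = (t * q * t⁻¹) * (t * t * q⁻¹ * (t * t)⁻¹ * q⁻¹⁻¹) *
    (t * q * t⁻¹)⁻¹ * ((t * q * t⁻¹ * q⁻¹) * (t * q * t⁻¹ * q⁻¹)) by
      rw [commutatorElement_def]; group, comm_zz (pre.le_cent b) w]
  exact mul_mem w (pre.sq_mem _ (mul_mem b (inv_mem hq)))

theorem mem_fix_of_comm (pre : PreLX Q z) (ht : t ∈ centralizer ({z} : Set G)) (hq : q ∈ Q)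
    (e : q ∈ centralizer ({t} : Set G)) : q ∈ pre.toSympPair.fixMod (pre.norm ht) :=
  (pre.mem_fixMod _).2 ⟨hq, by rw [← mem_centralizer_singleton_iff.1 e]; simp⟩

variable [Finite G]

theorem norm_fix (pre : PreLX Q z) (ht : t ∈ centralizer ({z} : Set G))
    (hg : g ∈ centralizer ({z} : Set G)) (e : t * g * t⁻¹ * g⁻¹ ∈ Q) :
    g ∈ normalizer (pre.toSympPair.fixMod (pre.norm ht) : Set G) :=
  mem_normalizer_fintype fun q hq => by
    obtain ⟨h1, h2⟩ := (pre.mem_fixMod _).1 hq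
    refine (pre.mem_fixMod _).2 ⟨cjQ pre hg h1, ?_⟩
    have k : t * ((g * t)⁻¹ * (t * g * t⁻¹ * g⁻¹) * (g * t)⁻¹⁻¹) ∈ stz z q :=
      mul_mem ⟨ht, h2⟩ (le_stz pre h1 (cjQ pre (inv_mem (mul_mem hg ht)) e))
    have k2 := k.2
    rw [← comm_zz hg k2] at k2
    convert k2 using 1
    group

theorem card_two_pow (pre : PreLX Q z) {D : Subgroup G} (hD : D ≤ Q) (hz : z ∈ D) :
    ∃ j, 1 ≤ j ∧ Nat.card D = 2 ^ j := by
  obtain ⟨j, hj⟩ := (IsPGroup.iff_card (p := 2)).1 (pre.isPGroup.to_le hD)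
  refine ⟨j, Nat.pos_of_ne_zero ?_, hj⟩
  rintro rfl
  exact pre.ne_one (mem_bot.1 (card_eq_one.1 hj ▸ hz))

theorem card_cent_prime (pre : PreLX Q z) (cQ : Nat.card Q = 2 ^ 13) {p : ℕ} (hp : p.Prime)
    (h2 : p ≠ 2) (hg : g ∈ centralizer ({z} : Set G)) (o : orderOf g = p) :
    ∃ j, 1 ≤ j ∧ j ≤ 12 ∧ j ≠ 2 ∧ Nat.card ↥(Q ⊓ centralizer {g}) = 2 ^ j ∧
      2 ^ 13 ≡ 2 ^ j [MOD p] := by
  obtain ⟨j, j1, hj⟩ := card_two_pow pre (D := Q ⊓ centralizer {g}) inf_le_left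
    ⟨pre.mem, mem_centralizer_singleton_iff.2 (mem_centralizer_singleton_iff.1 hg).symm⟩
  refine ⟨j, j1, ?_, ?_, hj, ?_⟩
  · by_contra! lt
    have e : Q ⊓ centralizer {g} = Q := eq_of_le_of_card_ge inf_le_left
      (by rw [hj, cQ]; exact Nat.pow_le_pow_right two_pos lt)
    have m : g ∈ zpowers z := pre.cent fun q hq =>
      mem_centralizer_singleton_iff.1 (inf_eq_left.1 e hq)
    have := orderOf_dvd_of_pow_eq_one (x := g) (n := 2) (by rw [pow_two, pre.mul_self_of_mem m])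
    exact h2 ((Nat.prime_dvd_prime_iff_eq hp Nat.prime_two).1 (o ▸ this))
  · rintro rfl
    have k := pre.toSympPair.center_inf_centralizer_le (A := zpowers g)
      (zpowers_le.2 (pre.norm hg)) (by rw [Nat.card_zpowers, o]; exact hp.odd_of_ne_two h2)
    rw [centralizer_zpowers_eq_sing, pre.center_eq] at k
    have : Fact (Nat.Prime 2) := ⟨Nat.prime_two⟩
    have c := IsPGroup.isMulCommutative_of_card_eq_prime_sq hj
    have := card_le_of_le ((le_inf le_rfl fun a ha b hb =>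
      congrArg Subtype.val (c.1.1 ⟨b, hb⟩ ⟨a, ha⟩)).trans k)
    rw [hj, card_zz pre] at this
    omega
  · rw [← cQ, ← hj]
    exact Gold.TF.card_modEq_inf_centralizer hp (j := 1) (by rw [pow_one, ← o, pow_orderOf_eq_one])
      (pre.norm hg)

theorem card_cent_11 (pre : PreLX Q z) (cQ : Nat.card Q = 2 ^ 13)
    (hg : g ∈ centralizer ({z} : Set G)) (o : orderOf g = 11) :
    Nat.card ↥(Q ⊓ centralizer {g}) = 8 := by
  obtain ⟨j, j1, j2, -, hj, k⟩ := card_cent_prime pre cQ (by norm_num) (by norm_num) hg o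
  rw [hj]
  interval_cases j <;> first | rfl | exact absurd k (by decide)

theorem card_fix (pre : PreLX Q z) (cQ : Nat.card Q = 2 ^ 13)
    (ht : t ∈ centralizer ({z} : Set G)) (tQ : t ∉ Q) (t2 : t * t ∈ Q)
    (hg : g ∈ centralizer ({z} : Set G)) (o : orderOf g = 11) (e : t * g * t⁻¹ * g⁻¹ ∈ Q) :
    Nat.card (pre.toSympPair.fixMod (pre.norm ht)) = 2 ^ 11 ∧
      Nat.card ↥(pre.toSympPair.fixMod (pre.norm ht) ⊓ centralizer {g}) = 2 ∨
    Nat.card (pre.toSympPair.fixMod (pre.norm ht)) = 2 ^ 12 := by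
  have FQ : pre.toSympPair.fixMod (pre.norm ht) ≤ Q := fun q hq => ((pre.mem_fixMod _).1 hq).1
  have zF := mem_fix_of_comm pre ht pre.mem
    (mem_centralizer_singleton_iff.2 (mem_centralizer_singleton_iff.1 ht).symm)
  have c1 := FT.BG4.card_le_card_mul_card_inf_centralizer (H := Q) fun q hq =>
    comm_mem_fix pre ht t2 hq
  have c2 := card_le_of_le (H := Q ⊓ centralizer {t}) fun q hq => mem_fix_of_comm pre ht hq.1 hq.2
  have c3 := Gold.TF.card_modEq_inf_centralizer (r := 11) (by norm_num) (j := 1)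
    (by rw [pow_one, ← o, pow_orderOf_eq_one]) (norm_fix pre ht hg e)
  have c4 := card_le_of_le (inf_le_inf_right (centralizer {g}) FQ)
  have c5 : ¬ Nat.card Q ≤ Nat.card (pre.toSympPair.fixMod (pre.norm ht)) := fun k =>
    tQ (pre.largeSymp.mem_of_comm t ht fun q hq =>
      ((pre.mem_fixMod _).1 ((eq_of_le_of_card_ge FQ k).ge hq)).2)
  obtain ⟨k, -, hk⟩ := card_two_pow pre FQ zF
  obtain ⟨j, j1, hj⟩ := card_two_pow pre (inf_le_left.trans FQ)
    (D := pre.toSympPair.fixMod (pre.norm ht) ⊓ centralizer {g})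
    ⟨zF, mem_centralizer_singleton_iff.2 (mem_centralizer_singleton_iff.1 hg).symm⟩
  have c6 := c1.trans (Nat.mul_le_mul_left _ c2)
  rw [card_cent_11 pre cQ hg o] at c4
  rw [hk, hj] at c3 ⊢
  rw [hj] at c4
  rw [cQ, hk] at c5 c6
  have j3 : j ≤ 3 := (Nat.pow_le_pow_iff_right (a := 2) one_lt_two).1 c4
  have k1 : k < 13 := (Nat.pow_lt_pow_iff_right (a := 2) one_lt_two).1 (not_le.1 c5)
  have k2 : 13 ≤ k + k := (Nat.pow_le_pow_iff_right (a := 2) one_lt_two).1 (pow_add 2 k k ▸ c6)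
  have k3 : 7 ≤ k := by omega
  interval_cases k <;> interval_cases j <;> first | exact absurd c3 (by decide) | simp

theorem no_comm_11 (pre : PreLX Q z) (cQ : Nat.card Q = 2 ^ 13)
    (hg : g ∈ centralizer ({z} : Set G)) (o : orderOf g = 11) (hy : y ∈ centralizer ({z} : Set G))
    {r : ℕ} (hr : r = 5 ∨ r = 7) (oy : orderOf y = r) (c : Commute g y) : False := by
  have rp : r.Prime := by rcases hr with rfl | rfl <;> norm_num
  have nrm : ∀ a b : G, a ∈ centralizer ({z} : Set G) → Commute a b →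
      a ∈ normalizer ((Q ⊓ centralizer {b} : Subgroup G) : Set G) := fun a b ha e =>
    mem_normalizer_fintype fun q hq => mem_inf.2 ⟨cjQ pre ha hq.1, mul_mem (mul_mem
      (mem_centralizer_singleton_iff.2 e) hq.2) (inv_mem (mem_centralizer_singleton_iff.2 e))⟩
  have c1 := Gold.TF.card_modEq_inf_centralizer rp (j := 1)
    (by rw [pow_one, ← oy, pow_orderOf_eq_one]) (nrm y g hy c.symm)
  have c2 := Gold.TF.card_modEq_inf_centralizer (r := 11) (by norm_num) (j := 1)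
    (by rw [pow_one, ← o, pow_orderOf_eq_one]) (nrm g y hg c)
  rw [inf_right_comm] at c2
  have c3 := card_le_of_le (inf_le_left (a := Q ⊓ centralizer {g}) (b := centralizer {y}))
  obtain ⟨j, j1, hj⟩ := card_two_pow pre (inf_le_left.trans inf_le_left)
    (D := Q ⊓ centralizer {g} ⊓ centralizer {y})
    ⟨⟨pre.mem, mem_centralizer_singleton_iff.2 (mem_centralizer_singleton_iff.1 hg).symm⟩,
      mem_centralizer_singleton_iff.2 (mem_centralizer_singleton_iff.1 hy).symm⟩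
  obtain ⟨k, k1, k2, -, hk, c4⟩ := card_cent_prime pre cQ rp (by omega) hy oy
  rw [card_cent_11 pre cQ hg o] at c1 c3
  rw [hj] at c1 c2 c3
  rw [hk] at c2
  have j3 : j ≤ 3 := (Nat.pow_le_pow_iff_right (a := 2) one_lt_two).1 c3
  rcases hr with rfl | rfl <;> interval_cases j <;> first | exact absurd c1 (by decide) | skip
  all_goals interval_cases k <;> first | exact absurd c2 (by decide) | exact absurd c4 (by decide)

theorem no_two_11 (pre : PreLX Q z) (cQ : Nat.card Q = 2 ^ 13) (x3 : orderOf x = 3)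
    (xH : x ∈ centralizer ({z} : Set G)) (fix : ∀ q ∈ Q, x * q = q * x → q ∈ zpowers z)
    (ht : t ∈ centralizer ({z} : Set G)) (tQ : t ∉ Q) (t2 : t * t ∈ Q)
    (tx : t * x * t⁻¹ * x⁻¹ ∈ Q) (hg : g ∈ centralizer ({z} : Set G)) (o : orderOf g = 11)
    (c : Commute t g) : False := by
  have FQ : pre.toSympPair.fixMod (pre.norm ht) ≤ Q := fun q hq => ((pre.mem_fixMod _).1 hq).1
  have c1 := Gold.TF.card_modEq_inf_centralizer Nat.prime_three (j := 1)
    (by rw [pow_one, ← x3, pow_orderOf_eq_one]) (norm_fix pre ht xH tx)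
  have e : pre.toSympPair.fixMod (pre.norm ht) ⊓ centralizer {x} = zpowers z :=
    le_antisymm (fun q hq => fix q (FQ hq.1) (mem_centralizer_singleton_iff.1 hq.2).symm)
      (zpowers_le.2 ⟨mem_fix_of_comm pre ht pre.mem
        (mem_centralizer_singleton_iff.2 (mem_centralizer_singleton_iff.1 ht).symm),
        mem_centralizer_singleton_iff.2 (mem_centralizer_singleton_iff.1 xH).symm⟩)
  rw [e, card_zz pre] at c1
  rcases card_fix pre cQ ht tQ t2 hg o (by rw [c.eq]; simp) with ⟨-, k⟩ | k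
  swap
  · rw [k] at c1
    exact absurd c1 (by decide)
  have tg : t ∈ centralizer ({g} : Set G) := mem_centralizer_singleton_iff.2 c
  have c2 := FT.BG4.card_le_card_mul_card_inf_centralizer (H := Q ⊓ centralizer {g})
    (S := pre.toSympPair.fixMod (pre.norm ht) ⊓ centralizer {g}) (v := t) fun q hq =>
      mem_inf.2 ⟨comm_mem_fix pre ht t2 hq.1,
        mul_mem (mul_mem (mul_mem hq.2 tg) (inv_mem (mem_inf.1 hq).2)) (inv_mem tg)⟩
  have c3 := card_le_of_le (H := Q ⊓ centralizer {g} ⊓ centralizer {t})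
    (K := pre.toSympPair.fixMod (pre.norm ht) ⊓ centralizer {g}) fun q hq =>
      ⟨mem_fix_of_comm pre ht hq.1.1 hq.2, hq.1.2⟩
  rw [card_cent_11 pre cQ hg o, k] at c2
  omega

theorem no_inv_11 (pre : PreLX Q z) (cQ : Nat.card Q = 2 ^ 13) (x3 : orderOf x = 3)
    (xH : x ∈ centralizer ({z} : Set G)) (fix : ∀ q ∈ Q, x * q = q * x → q ∈ zpowers z)
    (ht : t ∈ centralizer ({z} : Set G)) (tQ : t ∉ Q) (t2 : t * t ∈ Q)
    (tx : t * x * t⁻¹ * x ∈ Q) (hg : g ∈ centralizer ({z} : Set G)) (o : orderOf g = 11)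
    (e : t * g * t⁻¹ * g⁻¹ ∈ Q) : False := by
  have FQ : pre.toSympPair.fixMod (pre.norm ht) ≤ Q := fun q hq => ((pre.mem_fixMod _).1 hq).1
  have c1 : 2 ^ 11 ≤ Nat.card (pre.toSympPair.fixMod (pre.norm ht)) := by
    rcases card_fix pre cQ ht tQ t2 hg o e with ⟨k, -⟩ | k <;> rw [k]
    norm_num
  have x1 : x ^ 3 = 1 := x3 ▸ pow_orderOf_eq_one x
  have c2 := CD.card_mul_le_card_sup_mul_card_inf (pre.toSympPair.fixMod (pre.norm ht))
    (Trans.cj x (pre.toSympPair.fixMod (pre.norm ht)))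
  have c3 := card_le_of_le (sup_le FQ (Trans.cj_le_iff.2 fun q hq => cjQ pre xH (FQ hq)))
  have c4 : pre.toSympPair.fixMod (pre.norm ht) ⊓ Trans.cj x (pre.toSympPair.fixMod (pre.norm ht)) ≤
      zpowers z := fun q ⟨h1, h2⟩ => by
    have a1 : t ∈ stz z q := ⟨ht, ((pre.mem_fixMod _).1 h1).2⟩
    have a2 : x * t * x⁻¹ ∈ stz z q := ⟨mul_mem (mul_mem xH ht) (inv_mem xH), by
      have k := ((pre.mem_fixMod _).1 (Trans.mem_cj.1 h2)).2
      rw [← comm_zz xH k] at k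
      convert k using 1
      group⟩
    have a3 : x * x ∈ stz z q := by
      rw [show x * x = (t * (x * t * x⁻¹)⁻¹)⁻¹ * (t * x * t⁻¹ * x) by group]
      exact mul_mem (inv_mem (mul_mem a1 (inv_mem a2))) (le_stz pre (FQ h1) tx)
    have a4 : x ∈ stz z q := by
      rw [show x = x ^ 3 * x by rw [x1, one_mul], show x ^ 3 * x = x * x * (x * x) by
        simp only [pow_succ, pow_zero, one_mul, mul_assoc]]
      exact mul_mem a3 a3
    refine fix q (FQ h1) ?_
    rcases pre.mem_iff.1 a4.2 with k | k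
    · exact mul_inv_eq_iff_eq_mul.1 (mul_inv_eq_one.1 k)
    have k1 : x * q * x⁻¹ = z * q := mul_inv_eq_iff_eq_mul.1 k
    have k2 : x * z * x⁻¹ = z := comm_zz xH (mem_zpowers z)
    have k3 : x ^ 3 * q * (x ^ 3)⁻¹ = z * q := by
      rw [show x ^ 3 * q * (x ^ 3)⁻¹ = x * (x * (x * q * x⁻¹) * x⁻¹) * x⁻¹ by rw [pow_three]; group,
        k1, ← @conj_mul _ _ z x q, k1, k2, ← mul_assoc z, pre.mul_self, one_mul, k1]
    exact absurd (by simpa [x1] using k3) pre.ne_one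
  have c5 := card_le_of_le c4
  rw [Trans.card_cj] at c2
  rw [cQ] at c3
  rw [card_zz pre] at c5
  have := (Nat.mul_le_mul c1 c1).trans (c2.trans (Nat.mul_le_mul c3 c5))
  omega

end Cfsg.Lib.J4T
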