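import Cfsg.Agent.J4T.PE2
import Cfsg.Agent.J4T.PD2
import Cfsg.Agent.J4T.PGA

/-! Coordinates for a group of shape `2^(3+12).(S₅ × L₃(2))`: the order of `C(z)`. -/

set_option autoImplicit false
set_option maxRecDepth 100000
set_option synthInstance.maxSize 2048

namespace Cfsg.Lib.J4T

open Subgroup Equiv Cfsg.Lib.Local

/-- The type of an element of `M12`. -/
def ty (f : M12) : Fin 4 :=
  if f.1 ≠ 0 then 3 else if f.2.1 = 0 ∧ f.2.2 = 0 then 0 else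
    if f.2.1 = 0 ∨ f.2.2 = 0 ∨ f.2.1 = f.2.2 then 1 else if line f.2.1 = line f.2.2 then 2 else 3

/-- Representatives of the types. -/
def tyR (t : Fin 4) : M12 := ![0, (0, 0, bv 4 1), (0, bv 4 1, bv 4 2), 0] t

theorem ty_trans : ∀ u v : N4, ty (0, u, v) = 3 ∨ ∃ σ, ∃ b ∈ [b2, b3], ∃ c ∈ [b3, b2, b2 + b3],
    pull σ b1 b c (tyR (ty (0, u, v))) = (0, u, v) ∧ Ind b1 b c := by decide +kernel

theorem ty_ne : ∀ u v : N4, (u = 0 ∨ v = 0 ∨ line u = line v) → ty (0, u, v) ≠ 3 := by decide +kernel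

theorem sum_ty (p : M12 → Prop) [DecidablePred p] (c : Fin 4 → ℕ) :
    ∑ f, (if p f then c (ty f) else 0) =
      ∑ t, (Finset.univ.filter fun f => p f ∧ ty f = t).card * c t := by
  rw [← Finset.sum_filter, ← Finset.sum_fiberwise (Finset.univ.filter p) ty]
  refine Finset.sum_congr rfl fun t _ => ?_
  rw [Finset.filter_filter, Finset.sum_congr rfl (g := fun _ => c t) fun f hf => by
    rw [(Finset.mem_filter.1 hf).2.2], Finset.sum_const, smul_eq_mul]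

variable {G : Type*} [Group G] {K L Z Q X : Subgroup G} {π : G → Perm (Fin 5)} {κ : G → Perm Z3}
  {ψ : G → Z3} {Φ : G → M12} {z s g x : G}

/-- The class of `s` under `X`. -/
def cls (X : Subgroup G) (s : G) : Set G := {y | ∃ b ∈ X, b * s * b⁻¹ = y}

theorem cls_conj {y : G} (hg : g ∈ X) (hy : y ∈ cls X s) : g * y * g⁻¹ ∈ cls X s := by
  obtain ⟨b, hb, rfl⟩ := hy
  exact ⟨g * b, mul_mem hg hb, by group⟩

namespace PQ

variable [Finite G] (h : PQ K L Z Q π κ ψ Φ z s)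
include h

omit [Finite G] in
theorem ncard_eq_card {Ω : Set G} {l : G} (hl : l ∈ L) (T : Finset Z3)
    (e : ∀ w ∈ Z, ψ w ∈ T ↔ l * w ∈ Ω) : {a | a ∈ Ω ∧ a ∈ L ∧ Φ a = Φ l}.ncard = T.card := by
  rw [← Set.ncard_coe_finset]
  refine Set.ncard_congr (fun a _ => ψ (l⁻¹ * a)) (fun a ⟨h1, h2, h3⟩ => ?_)
    (fun a b ⟨_, h2, h3⟩ ⟨_, h2', h3'⟩ e => ?_) fun ζ hζ => ?_
  · exact (e _ ((h.Φ_eq_iff hl h2).1 h3.symm)).2 (by simpa using h1)
  · simpa using h.ψ_ext ((h.Φ_eq_iff hl h2).1 h3.symm) ((h.Φ_eq_iff hl h2').1 h3'.symm) e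
  · obtain ⟨w, hw, rfl⟩ := h.ψ_surj ζ
    exact ⟨l * w, ⟨(e w hw).1 hζ, mul_mem hl (h.ZL hw), by
      rw [h.Φ_mul l hl w (h.ZL hw), h.Φ_Z hw, add_zero]⟩, by simp⟩

theorem card_CS : Nat.card ↥(centralizer ({z} : Set G) ⊓ centralizer ({s} : Set G)) =
    2 ^ 15 * 480 := by
  rw [← SetLike.coe_sort_coe, Nat.card_coe_set_eq, ncard_eq_sum _ fun k => (π k, κ k b3),
    Finset.sum_congr rfl (g := fun p => if Ind b1 b2 p.2 then 2 ^ 15 else 0) fun p _ => ?_,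
    ← Finset.sum_filter, Finset.sum_const, smul_eq_mul, mul_comm,
    show (Finset.univ.filter fun p : Perm (Fin 5) × Z3 => Ind b1 b2 p.2).card = 480 by decide +kernel]
  obtain ⟨σ, c⟩ := p
  have m : ∀ a ∈ centralizer ({z} : Set G) ⊓ centralizer ({s} : Set G),
      a ∈ K ∧ κ a b1 = b1 ∧ κ a b2 = b2 := fun a ha =>
    ⟨h.cent2 ha, (h.mem_H (h.cent2 ha)).1 ha.1, (h.mem_S (h.cent2 ha)).1 ha.2⟩
  split_ifs with e
  · obtain ⟨k, hk, e0, e1, e2, e3⟩ := h.exK σ e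
    rw [← h.ncard_fibK hk]
    congr 1; ext a
    constructor
    · rintro ⟨ha, e'⟩
      obtain ⟨a0, a1, a2⟩ := m a ha
      rw [Prod.mk.injEq] at e'
      exact ⟨a0, by rw [e0, e'.1], h.κ_ext a0 hk (by rw [a1, e1]) (by rw [a2, e2]) (by rw [e3, e'.2])⟩
    · rintro ⟨a0, a1, a2⟩
      exact ⟨⟨(h.mem_H a0).2 (by rw [a2, e1]), (h.mem_S a0).2 (by rw [a2, e2])⟩,
        by rw [a1, a2, e0, e3]⟩
  · rw [Set.ncard_eq_zero]
    refine Set.eq_empty_of_forall_notMem fun a ⟨ha, e'⟩ => e ?_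
    obtain ⟨a0, a1, a2⟩ := m a ha
    have := h.κ_ind a0
    rwa [a1, a2, show κ a b3 = c from congrArg Prod.snd e'] at this

theorem not_five {N : Subgroup G} (h1 : N ≤ centralizer ({z} : Set G))
    (h2 : N ≤ normalizer (h.V 0 : Set G)) : ¬ 5 ∣ Nat.card ↥(N ⊓ centralizer ({s} : Set G)) := by
  intro e
  have : Fact (Nat.Prime 5) := ⟨by norm_num⟩
  obtain ⟨⟨y, hy⟩, o⟩ := exists_prime_orderOf_dvd_card' 5 e
  rw [← orderOf_coe] at o
  have yK := h.cent2 ⟨h1 hy.1, hy.2⟩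
  have y1 := (h.mem_H yK).1 (h1 hy.1)
  obtain ⟨a, ha, ea⟩ := h.Φ_surj (bv 4 1, 0, 0)
  have e1 := ((h.V_L (h.conj_L yK ha)).1 ((mem_normalizer_iff.1 (h2 hy.1) a).1
    ((h.V_L ha).2 (by rw [ea, mem_lineA]; decide)))).1
  rw [h.Φ_conj1 yK y1 ha, ea] at e1
  have d : ∀ σ : Perm (Fin 5), onL 0 (rho σ (bv 4 1)) → σ ^ 12 = 1 := by decide +kernel
  have d2 : ∀ c, Ind b1 b2 c → ∀ ζ, comb b1 b2 c (comb b1 b2 c ζ) = ζ := by decide
  have y2 := (h.mem_S yK).1 hy.2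
  have k2 : κ y ^ 2 = 1 := Equiv.ext fun ζ => by
    rw [pow_two, Perm.mul_apply, h.κ_eq yK, h.κ_eq yK ζ, y1, y2]
    exact d2 _ (y1 ▸ y2 ▸ h.κ_ind yK) ζ
  have := h.L_pow (h.mem_L (pow_mem yK 12) (by rw [h.π_pow yK, d _ e1])
    (by rw [h.κ_pow yK, show 12 = 2 * 6 from rfl, pow_mul, k2, one_pow]))
  rw [← pow_mul, ← orderOf_dvd_iff_pow_eq_one] at this
  change orderOf y = 5 at o
  rw [o] at this; omega

variable (h1 : K ⊓ centralizer ({z} : Set G) ≤ X) (h2 : X ≤ centralizer ({z} : Set G))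
include h1 h2

omit [Finite G] h1 in
theorem cls_Q {w : G} (hw : w ∈ cls X s) : w ∈ Q ∧ w * w = 1 := by
  obtain ⟨b, hb, rfl⟩ := hw
  exact ⟨h.conj_Q (h2 hb) h.sQ, by
    rw [show b * s * b⁻¹ * (b * s * b⁻¹) = b * (s * s) * b⁻¹ by group, h.Z_sq h.sZ]; simp⟩

theorem cnt_ty (f : M12) : {a | a ∈ cls X s ∧ a ∈ L ∧ Φ a = f}.ncard =
    if ty f = 3 then 0 else {a | a ∈ cls X s ∧ a ∈ L ∧ Φ a = tyR (ty f)}.ncard := by
  split_ifs with e
  · rw [Set.ncard_eq_zero]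
    refine Set.eq_empty_of_forall_notMem fun a ⟨a1, a2, a3⟩ => ?_
    have a0 := (h.QL a a2).1 (h.cls_Q h2 a1).1
    obtain ⟨g, hg, rfl⟩ := a1
    exact ty_ne _ _ (h.not_baer (h2 hg) a2) (by rw [← e, ← a3, ← a0])
  obtain ⟨p, u, v⟩ := f
  obtain rfl : p = 0 := by_contra fun hp => e (if_pos hp)
  obtain ⟨σ, b, -, c, -, e1, hi⟩ := (ty_trans u v).resolve_left e
  obtain ⟨k, hk, e0, k1, k2, k3⟩ := h.exK σ⁻¹ hi
  have kX := h1 ⟨hk, (h.mem_H hk).2 k1⟩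
  have t : ∀ a ∈ L, Φ a = tyR (ty (0, u, v)) → Φ (k⁻¹ * a * k) = (0, u, v) := fun a ha e => by
    rw [h.Φ_pull hk ha, e0, k1, k2, k3, inv_inv, e, e1]
  symm
  refine Set.ncard_congr (fun a _ => k⁻¹ * a * k) (fun a ⟨a1, a2, a3⟩ => ⟨by
    simpa using cls_conj (inv_mem kX) a1, h.conj_L' hk a2, t a a2 a3⟩) (fun a b _ _ e => by
    simpa using e) fun a ⟨a1, a2, a3⟩ => ⟨k * a * k⁻¹, ⟨cls_conj kX a1, h.conj_L hk a2, ?_⟩,
      by group⟩
  obtain ⟨l, hl, el⟩ := h.Φ_surj (tyR (ty (0, u, v)))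
  rw [← el]
  refine ((h.Φ_eq_iff hl (h.conj_L hk a2)).2 ?_).symm
  convert h.conj_Z hk ((h.Φ_eq_iff (h.conj_L' hk hl) a2).1 (by rw [t l hl el, a3])) using 1
  group

omit [Finite G] in
theorem cnt_zero : {a | a ∈ cls X s ∧ a ∈ L ∧ Φ a = tyR 0}.ncard = 6 := by
  rw [show tyR 0 = Φ 1 from h.Φ_one.symm, h.ncard_eq_card L.one_mem
    (Finset.univ.filter fun ζ => ¬ (ζ = 0 ∨ ζ = b1)) fun w hw => ?_]
  · decide
  rw [one_mul, Finset.mem_filter_univ]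
  refine ⟨fun e => ?_, fun ⟨g, hg, e⟩ e' => h.s_not ((h.conj_zp' (h2 hg)).1 (e ▸ h.zp.2 ⟨hw, e'⟩))⟩
  obtain ⟨k, hk, kH, -, e⟩ := h.trans hw fun e' => e (h.zp.1 e').2
  exact ⟨k, h1 ⟨hk, kH⟩, e⟩

omit [Finite G] h2 in
theorem cnt_inv (f : M12) : ∃ T : Finset Z3, {a | a ∈ cls X s ∧ a ∈ L ∧ Φ a = f}.ncard = T.card ∧
    ∀ g, ∀ ζ ∈ T, br g f + ζ ∈ T := by
  classical
  obtain ⟨l, hl, rfl⟩ := h.Φ_surj f
  have t : ∀ w ∈ Z, ψ w ∈ (Finset.univ.filter fun ζ => ∃ w ∈ Z, ψ w = ζ ∧ l * w ∈ cls X s) ↔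
      l * w ∈ cls X s := fun w hw => by
    rw [Finset.mem_filter_univ]
    exact ⟨fun ⟨w', hw', e, e'⟩ => h.ψ_ext hw' hw e ▸ e', fun e => ⟨w, hw, rfl, e⟩⟩
  refine ⟨_, h.ncard_eq_card hl _ t, fun g ζ hζ => ?_⟩
  obtain ⟨a, ha, rfl⟩ := h.Φ_surj g
  obtain ⟨w, hw, rfl⟩ := h.ψ_surj ζ
  obtain ⟨c1, c2⟩ := h.comm a ha l hl
  rw [← c2, ← h.ψ_mul _ c1 _ hw, t _ (mul_mem c1 hw), ← mul_assoc, h.LZ hl c1]
  convert cls_conj (h1 ⟨h.LK ha, h.LH ha⟩) ((t w hw).1 hζ) using 1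
  rw [show a * (l * w) * a⁻¹ = a * l * (w * a⁻¹) by group, ← h.LZ (inv_mem ha) hw]; group

theorem cnt_pre (p : M12 → Prop) [DecidablePred p] :
    {a | a ∈ cls X s ∧ a ∈ L ∧ p (Φ a)}.ncard =
      (Finset.univ.filter fun f => p f ∧ ty f = 0).card * 6 +
      (Finset.univ.filter fun f => p f ∧ ty f = 1).card *
        {a | a ∈ cls X s ∧ a ∈ L ∧ Φ a = tyR 1}.ncard +
      (Finset.univ.filter fun f => p f ∧ ty f = 2).card *
        {a | a ∈ cls X s ∧ a ∈ L ∧ Φ a = tyR 2}.ncard := by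
  rw [ncard_eq_sum _ Φ, Finset.sum_congr rfl (g := fun f => if p f then (fun t => if t = 3 then 0
    else {a | a ∈ cls X s ∧ a ∈ L ∧ Φ a = tyR t}.ncard) (ty f) else 0) fun f _ => ?_,
    sum_ty p fun t => if t = 3 then 0 else {a | a ∈ cls X s ∧ a ∈ L ∧ Φ a = tyR t}.ncard,
    Fin.sum_univ_four, if_neg (by decide), if_neg (by decide), if_neg (by decide), if_pos rfl,
    h.cnt_zero h1 h2, mul_zero, add_zero]
  by_cases e : p f
  · rw [if_pos e]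
    refine Eq.trans ?_ (h.cnt_ty h1 h2 f)
    congr 1; ext a
    exact ⟨fun ⟨⟨a1, a2, _⟩, a3⟩ => ⟨a1, a2, a3⟩, fun ⟨a1, a2, a3⟩ => ⟨⟨a1, a2, a3 ▸ e⟩, a3⟩⟩
  · rw [if_neg e, Set.ncard_eq_zero]
    exact Set.eq_empty_of_forall_notMem fun a ⟨⟨_, _, a2⟩, a3⟩ => e (a3 ▸ a2)

theorem cls_V : {a | a ∈ cls X s ∧ a ∈ L ∧ onL 0 (Φ a).1 ∧ onL 0 (Φ a).2.1 ∧ onL 0 (Φ a).2.2} =
    cls (X ⊓ normalizer (h.V 0 : Set G)) s := by
  ext a
  constructor
  · rintro ⟨⟨g, hg, rfl⟩, a2, a3⟩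
    obtain ⟨k, hk, e, e'⟩ := h.fusion (h2 hg) ((h.V_L a2).2 a3)
    refine ⟨g * k, ⟨mul_mem hg (h1 ⟨hk, (h.mem_H hk).2 (by rw [e]; rfl)⟩), e'⟩, ?_⟩
    rw [show g * k * s * (g * k)⁻¹ = g * (k * s * k⁻¹) * g⁻¹ by group, h.comm_Z hk e h.sZ,
      mul_inv_cancel_right]
  · rintro ⟨g, hg, rfl⟩
    have h3 := (mem_normalizer_iff.1 hg.2 s).1
      ((h.V_L (h.ZL h.sZ)).2 (by rw [h.Φ_Z h.sZ]; exact zero_mem _))
    have h4 := h.V_Q h3 (h.conj_Q (h2 hg.1) h.sQ)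
    exact ⟨⟨g, hg.1, rfl⟩, h4, (h.V_L h4).1 h3⟩

theorem count (hn : ¬ X ≤ K) : ¬ X ⊓ normalizer (h.V 0 : Set G) ≤ K ∧
    Nat.card X = 2 ^ 21 * 3 ^ 3 * 5 * 7 * 11 ∧ ∀ l ∈ L, Φ l = tyR 2 → l ∈ cls X s := by
  classical
  obtain ⟨m, hm, e1⟩ := h.outer (cls X s) (fun w => h.cls_Q h2) fun k hk kH w =>
    cls_conj (h1 ⟨hk, kH⟩)
  have e2 := h.cnt_pre h1 h2 fun _ => True
  have e3 := h.cnt_pre h1 h2 fun f => onL 0 f.1 ∧ onL 0 f.2.1 ∧ onL 0 f.2.2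
  have n : ((Finset.univ.filter fun f : M12 => True ∧ ty f = 0).card = 1 ∧
      (Finset.univ.filter fun f : M12 => True ∧ ty f = 1).card = 45 ∧
      (Finset.univ.filter fun f : M12 => True ∧ ty f = 2).card = 30) ∧
      (Finset.univ.filter fun f : M12 => (onL 0 f.1 ∧ onL 0 f.2.1 ∧ onL 0 f.2.2) ∧ ty f = 0).card = 1 ∧
      (Finset.univ.filter fun f : M12 => (onL 0 f.1 ∧ onL 0 f.2.1 ∧ onL 0 f.2.2) ∧ ty f = 1).card = 9 ∧
      (Finset.univ.filter fun f : M12 => (onL 0 f.1 ∧ onL 0 f.2.1 ∧ onL 0 f.2.2) ∧ ty f = 2).card = 6 := by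
    decide +kernel
  rw [n.1.1, n.1.2.1, n.1.2.2] at e2
  rw [n.2.1, n.2.2.1, n.2.2.2, h.cls_V h1 h2] at e3
  have e4 : (cls X s).ncard = {a | a ∈ cls X s ∧ a ∈ L ∧ True}.ncard + 96 * m := by
    rw [← e1, ← Set.ncard_union_eq (Set.disjoint_left.2 fun a b c => c.2 b.2.1)]
    congr 1; ext a; by_cases a ∈ L <;> simp [*]
  have e5 := CIT.card_eq_ncard_mul X s
  rw [show X ⊓ centralizer {s} = centralizer {z} ⊓ centralizer {s} from le_antisymm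
    (inf_le_inf_right _ h2) fun a ha => ⟨h1 ⟨h.cent2 ha, ha.1⟩, ha.2⟩, h.card_CS] at e5
  change _ = (cls X s).ncard * _ at e5
  have key : ∀ p, p.Prime → p ≠ 2 → p ∣ (cls X s).ncard →
      ∃ j ∈ Finset.range 13, 1 ≤ j ∧ j ≠ 2 ∧ 2 ^ 13 % p = 2 ^ j % p := fun p hp p2 e => by
    have := Fact.mk hp
    obtain ⟨y, o⟩ := exists_prime_orderOf_dvd_card' (G := X) p (e5 ▸ e.mul_right _)
    obtain ⟨j, j1, j2, j3, -, j4⟩ := card_cent_prime h.pre h.cardQ hp p2 (h2 y.2)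
      (by rwa [orderOf_coe])
    exact ⟨j, Finset.mem_range.2 (by omega), j1, j3, j4⟩
  obtain ⟨T1, t1, i1⟩ := h.cnt_inv h1 (tyR 1)
  obtain ⟨T2, t2, i2⟩ := h.cnt_inv h1 (tyR 2)
  have d1 : ∀ T : Finset Z3, (∀ ζ ∈ T, b1 + ζ ∈ T) → (∀ ζ ∈ T, b2 + ζ ∈ T) →
    (T.card = 0 ∨ T.card = 4 ∨ T.card = 8) ∧ ((∀ ζ ∈ T, b3 + ζ ∈ T) → T.card = 0 ∨ T.card = 8) := by
    decide +kernel
  have c1 := (d1 T1 (i1 (0, bv 4 8, 0)) (i1 (bv 4 8, 0, 0))).1
  have c2 := (d1 T2 (i2 (0, bv 4 4, 0)) (i2 (bv 4 4, 0, 0))).2 (i2 (bv 4 12, 0, 0))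
  simp only [Finset.mem_insert, Finset.mem_singleton] at hm
  have nK : ¬ X ⊓ normalizer (h.V 0 : Set G) ≤ K := fun e => by
    have s1 : (cls (X ⊓ normalizer (h.V 0 : Set G)) s).ncard ≤ 8 := by
      rw [← h.cardZ, ← SetLike.coe_sort_coe, Nat.card_coe_set_eq]
      exact Set.ncard_le_ncard fun a ⟨g, hg, e'⟩ => e' ▸ h.conj_Z (e hg) h.sZ
    have s2 : (cls X s).ncard = 6 + 96 * m := by omega
    rw [s2] at key
    rcases hm with rfl | rfl | rfl | rfl | rfl | rfl | rfl | rfl | rfl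
    · refine hn fun g hg => h.mem_K_of_conj (h2 hg) h.sZ h.s_not ?_
      have := Set.eq_of_subset_of_ncard_le (s := {a | a ∈ cls X s ∧ a ∈ L ∧ Φ a = tyR 0})
        (t := cls X s) (fun a ha => ha.1) (by rw [h.cnt_zero h1 h2, s2])
      obtain ⟨-, a1, a2⟩ := this.ge ⟨g, hg, rfl⟩
      exact (h.Φ_ker _ a1).1 a2
    exacts [absurd (key 97 (by norm_num) (by decide) (by decide)) (by decide),
      absurd (key 23 (by norm_num) (by decide) (by decide)) (by decide),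
      absurd (key 193 (by norm_num) (by decide) (by decide)) (by decide),
      absurd (key 257 (by norm_num) (by decide) (by decide)) (by decide),
      absurd (key 107 (by norm_num) (by decide) (by decide)) (by decide),
      absurd (key 353 (by norm_num) (by decide) (by decide)) (by decide),
      absurd (key 139 (by norm_num) (by decide) (by decide)) (by decide),
      absurd (key 19 (by norm_num) (by decide) (by decide)) (by decide)]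
  have f5 := h.five_dvd (inf_le_left.trans h2) inf_le_right (fun k hk e e' =>
    ⟨h1 ⟨hk, (h.mem_H hk).2 (by rw [e]; rfl)⟩, h.mem_NV hk e'⟩) nK
  rw [CIT.card_eq_ncard_mul _ s] at f5
  have f6 : 5 ∣ (cls (X ⊓ normalizer (h.V 0 : Set G)) s).ncard :=
    ((Nat.Prime.dvd_mul (by norm_num)).1 f5).resolve_right
      (h.not_five (inf_le_left.trans h2) inf_le_right)
  have s2 : (cls X s).ncard = 426 + 96 * m ∧ T2.card = 8 := by omega
  refine ⟨nK, ?_, fun l hl e => ?_⟩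
  · rw [e5, s2.1]
    rw [s2.1] at key
    rcases hm with rfl | rfl | rfl | rfl | rfl | rfl | rfl | rfl | rfl
    exacts [absurd (key 71 (by norm_num) (by decide) (by decide)) (by decide),
      absurd (key 167 (by norm_num) (by decide) (by decide)) (by decide), rfl,
      absurd (key 263 (by norm_num) (by decide) (by decide)) (by decide),
      absurd (key 109 (by norm_num) (by decide) (by decide)) (by decide),
      absurd (key 23 (by norm_num) (by decide) (by decide)) (by decide),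
      absurd (key 47 (by norm_num) (by decide) (by decide)) (by decide),
      absurd (key 487 (by norm_num) (by decide) (by decide)) (by decide),
      absurd (key 53 (by norm_num) (by decide) (by decide)) (by decide)]
  · exact ((Set.eq_of_subset_of_ncard_le (s := {a | a ∈ cls X s ∧ a ∈ L ∧ Φ a = tyR 2})
      (t := {a | a ∈ L ∧ Φ a = tyR 2}) (fun a ha => ha.2)
      (by rw [h.ncard_fib, t2, s2.2])).ge ⟨hl, e⟩).1

end PQ

end Cfsg.Lib.J4T
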