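import Cfsg.Agent.S1663
import Cfsg.Agent.Known.J1Spec
import Cfsg.Agent.Gold.TFMod
import Cfsg.Agent.Solv.CoprimeSylow

/-! A group of order `443520` without elements of order `22`, `55`, `77` is `M₂₂`. -/

set_option autoImplicit false

namespace Cfsg.Lib.J4T

open Subgroup Cfsg.Lib.Known Cfsg.Lib.Known.SC

theorem isoM22_of_orders {X : Type*} [Group X] [Finite X] (hc : Nat.card X = 443520)
    (h22 : ∀ g : X, orderOf g ≠ 22) (h55 : ∀ g : X, orderOf g ≠ 55)
    (h77 : ∀ g : X, orderOf g ≠ 77) : Cfsg.Spor.IsoM22 X := by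
  have p11 : Nat.Prime 11 := by norm_num
  have := Fact.mk p11
  obtain ⟨g, hg⟩ := exists_prime_orderOf_dvd_card' 11 (G := X) (by rw [hc]; norm_num)
  obtain ⟨P, hP⟩ := J1Spec.exists_sylow_eq hg (by rw [hc]; norm_num)
  have cP : Nat.card (zpowers g) = 11 := by rw [Nat.card_zpowers, hg]
  have h1 := relIndex_centralizer_dvd_sub_one p11 _ cP
  have h2 := card_normalizer_mul_card_sylow P
  have h3 := card_normalizer_eq_mul (zpowers g)
  have h4 : Nat.card (Sylow 11 X) % 11 = 1 := card_sylow_modEq_one 11 X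
  have gC : zpowers g ≤ centralizer {g} := zpowers_le.2 (mem_centralizer_singleton_iff.2 rfl)
  have nd : ∀ p, p.Prime → (Nat.Coprime 11 p) → (∀ g : X, orderOf g ≠ 11 * p) →
      (Nat.card (centralizer ({g} : Set X))).Coprime p := fun p hp c h =>
    (hp.coprime_iff_not_dvd.2 fun k => (J1Spec.exists_orderOf_mul hp c hg k).elim h).symm
  have h5 : Nat.card (centralizer ({g} : Set X)) ∣ 99 :=
    (((nd 2 (by norm_num) (by norm_num) h22).pow_right 7).mul_right
      ((nd 5 (by norm_num) (by norm_num) h55).mul_right (nd 7 (by norm_num) (by norm_num) h77))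
      ).dvd_of_dvd_mul_left (by
        rw [show 2 ^ 7 * (5 * 7) * 99 = 443520 from rfl, ← hc]; exact card_subgroup_dvd_card _)
  have h6 := cP ▸ card_dvd_of_le gC
  rw [hP, h3, hc, centralizer_zpowers] at h2
  rw [centralizer_zpowers] at h1 h3
  obtain ⟨cC, cN⟩ : Nat.card (centralizer ({g} : Set X)) = 11 ∧
      Nat.card (normalizer (zpowers g : Set X)) = 55 := by
    rw [h3]
    generalize Nat.card (centralizer ({g} : Set X)) = c at *
    generalize (centralizer ({g} : Set X)).relIndex _ = e at *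
    have := Nat.le_of_dvd (by decide) h1
    obtain ⟨c, rfl⟩ := h6
    have := Nat.le_of_dvd (by decide) h5
    have : c ≤ 9 := by omega
    interval_cases c <;> interval_cases e <;> omega
  have key : ∀ K : Subgroup X, g ∈ normalizer (K : Set X) → ¬ 11 ∣ Nat.card K → K = ⊥ := by
    intro K hK h
    by_contra h0
    obtain ⟨p, hp, hd⟩ := Nat.exists_prime_and_dvd (mt card_eq_one.1 h0)
    have := Fact.mk hp
    obtain ⟨S, s1, s2, s3, s4⟩ := Solv.Coprime.exists_invariant_sylow' (zpowers_le.2 hK)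
      (cP ▸ p11.coprime_iff_not_dvd.2 h) (.inl inferInstance) p
    obtain ⟨k, hk⟩ := s2.exists_card_eq
    have s5 := Gold.TF.card_modEq_inf_centralizer p11 (j := 1) (by
      rw [pow_one, ← hg, pow_orderOf_eq_one]) (s4 (mem_zpowers g))
    rw [Nat.eq_one_of_dvd_coprimes (p11.coprime_iff_not_dvd.2 h) (cC ▸ card_dvd_of_le inf_le_right)
      (card_dvd_of_le (inf_le_left.trans s1)), hk] at s5
    have s6 : p ^ k ∣ 443520 := hk ▸ hc ▸ card_subgroup_dvd_card S
    have k0 : k ≠ 0 := by
      rintro rfl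
      rw [card_eq_one.1 hk, relIndex_bot_left] at s3
      exact s3 hd
    have s7 : p ∈ Nat.primeFactors 443520 :=
      Nat.mem_primeFactors.2 ⟨hp, (dvd_pow_self p k0).trans s6, by decide⟩
    rw [show Nat.primeFactors 443520 = {2, 3, 5, 7, 11} by simp [Nat.primeFactors]] at s7
    have s8 : k < 8 := by
      by_contra! k8
      have := (pow_dvd_pow p k8).trans s6
      simp only [Finset.mem_insert, Finset.mem_singleton] at s7
      rcases s7 with rfl | rfl | rfl | rfl | rfl <;> omega
    simp only [Finset.mem_insert, Finset.mem_singleton] at s7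
    unfold Nat.ModEq at s5
    rcases s7 with rfl | rfl | rfl | rfl | rfl <;> interval_cases k <;> omega
  have : Nontrivial X := Finite.one_lt_card_iff_nontrivial.1 (by omega)
  refine Agent.S1663.result ⟨⟨fun Y hY => or_iff_not_imp_left.2 fun h0 => ?_⟩, hc⟩
  have gY : zpowers g ≤ Y := by
    obtain ⟨y, hy⟩ := exists_prime_orderOf_dvd_card' 11 (G := Y)
      (by_contra fun h => h0 (key Y (by rw [normalizer_eq_top]; trivial) h))
    obtain ⟨Q, hQ⟩ := J1Spec.exists_sylow_eq ((orderOf_coe y).trans hy) (by rw [hc]; norm_num)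
    obtain ⟨x, rfl⟩ := MulAction.exists_smul_eq X Q P
    rw [← hP, Sylow.coe_subgroup_smul, hQ]
    rintro _ ⟨z, hz, rfl⟩
    exact hY.conj_mem _ (zpowers_le.2 y.2 hz) x
  have fr : normalizer (zpowers g : Set X) ⊔ Y = ⊤ := hP ▸ P.normalizer_sup_eq_top' (hP ▸ gY)
  have d1 : Nat.card ↥(Y ⊓ normalizer (zpowers g : Set X)) ∣ 55 := cN ▸ card_dvd_of_le inf_le_right
  have d2 : zpowers g ≤ Y ⊓ normalizer (zpowers g : Set X) := le_inf gY le_normalizer
  have d3 := cP ▸ card_dvd_of_le d2
  by_cases e : Nat.card ↥(Y ⊓ normalizer (zpowers g : Set X)) = 55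
  · rw [← fr, eq_comm, sup_eq_right, ← eq_of_le_of_card_ge inf_le_right (cN.trans e.symm).le]
    exact inf_le_left
  have e1 := eq_of_le_of_card_ge d2 (by
    have := Nat.le_of_dvd (by decide) d1
    obtain ⟨c, hc⟩ := d3
    rw [hc] at d1 e this
    have : c ≤ 5 := by omega
    rw [hc, cP]
    interval_cases c <;> omega)
  obtain ⟨K, _, e3⟩ : ∃ K : Subgroup Y, K.Normal ∧ Nat.card K *
      Nat.card (P.subtype (hP ▸ gY) : Subgroup Y) = Nat.card Y := ⟨_, MonoidHom.normal_ker _,
    (MonoidHom.ker_transferSylow_isComplement' (P.subtype (hP ▸ gY)) (by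
    change normalizer ((P : Subgroup X).subgroupOf Y : Set Y) ≤
      centralizer ((P : Subgroup X).subgroupOf Y : Set Y)
    rw [hP, ← subgroupOf_normalizer_eq gY]
    exact fun n hn m hm => Subtype.ext (Subtype.ext_iff.1
      (mul_comm' (⟨_, hm⟩ : zpowers g) ⟨_, e1.ge ⟨n.2, hn⟩⟩) :))).card_mul_card⟩
  rw [Sylow.coe_subtype, hP, Nat.card_congr (subgroupOfEquivOfLe gY).toEquiv, cP] at e3
  rw [(map_eq_bot_iff_of_injective _ Y.subtype_injective).1 (key (K.map _)
    (Solv.le_normalizer_map_subtype _ (gY (mem_zpowers g))) (by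
      rw [card_map_of_injective Y.subtype_injective]
      exact fun k => absurd (hc ▸ (Nat.mul_dvd_mul_right k 11).trans
        (e3 ▸ card_subgroup_dvd_card Y)) (by norm_num))), card_bot] at e3
  rw [← eq_of_le_of_card_ge gY (by omega), sup_eq_left.2 le_normalizer] at fr
  rw [fr, card_top] at cN
  omega

end Cfsg.Lib.J4T
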