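import Cfsg.Agent.J4T.PGA
import Cfsg.Agent.J4T.PS
import Cfsg.Agent.SporChar.J4Set

/-!
# Recognition of the centraliser `2^(1+12).3.M₂₂.2` from its order
-/

set_option autoImplicit false

namespace Cfsg.Lib.J4T

open Subgroup Cfsg.Lib.Local Cfsg.Lib.SporChar.J4
open scoped commutatorElement

theorem eq_one_of_pows {X : Type*} [Group X] {w : X} {a b : ℕ} (h : a.Coprime b) (ha : w ^ a = 1)
    (hb : w ^ b = 1) : w = 1 :=
  orderOf_eq_one_iff.1 (Nat.eq_one_of_dvd_coprimes h (orderOf_dvd_of_pow_eq_one ha)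
    (orderOf_dvd_of_pow_eq_one hb))

theorem janko_of_count {G : Type*} [Group G] [Finite G] {z x : G} {Q : Subgroup G}
    (pre : PreLX Q z) (cQ : Nat.card Q = 2 ^ 13) (x3 : orderOf x = 3)
    (xH : x ∈ centralizer ({z} : Set G)) (fix : ∀ q ∈ Q, x * q = q * x → q ∈ zpowers z)
    (hN : ∀ h ∈ centralizer ({z} : Set G), h * x * h⁻¹ * x⁻¹ ∈ Q ∨ h * x * h⁻¹ * x ∈ Q)
    (inv : ∃ h ∈ centralizer ({z} : Set G), h * x * h⁻¹ * x ∈ Q)
    (cH : Nat.card (centralizer ({z} : Set G)) = 2 ^ 21 * 3 ^ 3 * 5 * 7 * 11)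
    (perf : ∀ D : Subgroup G, Q ≤ D → centralizer ({z} : Set G) ≤ normalizer (D : Set G) →
      (∀ m ∈ centralizer ({z} : Set G), m * x * m⁻¹ * x⁻¹ ∈ Q → m ^ 8 = 1 → m ∈ D) → x ∈ D) :
    Cfsg.IsOfJankoFourType G := by
  obtain ⟨Q', hQ'⟩ : ∃ Q', Q' = Q.subgroupOf (centralizer ({z} : Set G)) := ⟨_, rfl⟩
  have mQ : ∀ g, g ∈ Q' ↔ (g : G) ∈ Q := fun g => hQ' ▸ mem_subgroupOf
  have nQ : Q'.Normal := ⟨fun n hn g => (mQ _).2 (cjQ pre g.2 ((mQ _).1 hn))⟩
  have eQ : Q' ≃* Q := hQ' ▸ subgroupOfEquivOfLe pre.le_cent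
  have cQ' : Nat.card Q' = 2 ^ 13 := (Nat.card_congr eQ.toEquiv).trans cQ
  obtain ⟨φ, hφ⟩ : ∃ φ, φ = QuotientGroup.mk' Q' := ⟨_, rfl⟩
  have kφ : ∀ g, φ g = 1 ↔ (g : G) ∈ Q := fun g => by
    rw [hφ, QuotientGroup.mk'_apply, QuotientGroup.eq_one_iff, mQ]
  obtain ⟨x', hx'⟩ : ∃ x' : centralizer ({z} : Set G), x' = ⟨x, xH⟩ := ⟨_, rfl⟩
  have cx : (x' : G) = x := by rw [hx']
  have x1 : x ^ 3 = 1 := x3 ▸ pow_orderOf_eq_one x
  have b3 : φ x' ^ 3 = 1 := by rw [← map_pow, kφ, coe_pow, cx, x1]; exact one_mem _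
  have b2 : φ x' ^ 2 ≠ 1 := fun e => by
    have := pow_four pre ((kφ _).1 (map_pow φ x' 2 ▸ e))
    rw [coe_pow, cx, ← pow_mul] at this
    have := eq_one_of_pows (by norm_num) this x1
    simp [this] at x3
  have o3 : orderOf (φ x') = 3 := orderOf_eq_prime b3 fun e => b2 (by rw [e, one_pow])
  obtain ⟨N, hN'⟩ : ∃ N, N = (zpowers (φ x')).comap φ := ⟨_, rfl⟩
  obtain ⟨M, hM⟩ : ∃ M, M = (centralizer {φ x'}).comap φ := ⟨_, rfl⟩
  have mN : ∀ g, g ∈ N ↔ φ g ∈ zpowers (φ x') := fun g => hN' ▸ mem_comap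
  have mM : ∀ g, g ∈ M ↔ φ g * φ x' = φ x' * φ g := fun g => by
    rw [hM, mem_comap, mem_centralizer_singleton_iff]
  have mM' : ∀ g, g ∈ M ↔ (g : G) * x * (g : G)⁻¹ * x⁻¹ ∈ Q := fun g => by
    rw [mM, ← mul_inv_eq_iff_eq_mul, ← mul_inv_eq_one, ← map_inv, ← map_inv, ← map_mul, ← map_mul,
      ← map_mul, kφ, ← cx]
    rfl
  have mI : ∀ g, φ g * φ x' * (φ g)⁻¹ = (φ x')⁻¹ ↔ (g : G) * x * (g : G)⁻¹ * x ∈ Q := fun g => by
    rw [← mul_eq_one_iff_eq_inv, ← map_inv, ← map_mul, ← map_mul, ← map_mul, kφ, ← cx]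
    rfl
  have out : ∀ g, g ∉ M ↔ φ g * φ x' * (φ g)⁻¹ = (φ x')⁻¹ := fun g =>
    ⟨fun k => (mI g).2 ((hN g g.2).resolve_left (mt (mM' g).2 k)), fun k e => b2 (by
      rw [(mM g).1 e, mul_inv_cancel_right] at k
      rw [pow_two, mul_eq_one_iff_eq_inv, ← k])⟩
  have iM : M.index = 2 := by
    obtain ⟨a, ha, e⟩ := inv
    have e' := (mI ⟨a, ha⟩).2 e
    refine index_eq_two_iff.2 ⟨⟨a, ha⟩, fun b => ?_⟩
    by_cases hb : b ∈ M
    · exact Or.inr ⟨hb, fun k => (out _).2 e' ((mul_mem_cancel_left hb).1 k)⟩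
    refine Or.inl ⟨(mM _).2 (mul_inv_eq_iff_eq_mul.1 ?_), hb⟩
    rw [map_mul, show ∀ s t u : _ ⧸ Q', s * t * u * (s * t)⁻¹ = s * (t * u * t⁻¹) * s⁻¹ from
      fun s t u => by group, e', ← conj_inv, (out b).1 hb, inv_inv]
  have nM : M.Normal := normal_of_index_eq_two iM
  have nN : N.Normal := ⟨fun n hn g => by
    obtain ⟨k, hk⟩ := (mN n).1 hn
    rw [mN, map_mul, map_mul, map_inv, ← hk, ← conj_zpow]
    refine zpow_mem ?_ k
    by_cases hg : g ∈ M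
    · rw [(mM g).1 hg, mul_inv_cancel_right]
      exact mem_zpowers _
    · rw [(out g).1 hg]
      exact inv_mem (mem_zpowers _)⟩
  have QN : Q' ≤ N := fun g hg => (mN g).2 ((kφ g).2 ((mQ g).1 hg) ▸ one_mem _)
  have cMN : ∀ m ∈ M, ∀ w ∈ zpowers (φ x'), Commute (φ m) w := fun m hm w ⟨k, hk⟩ =>
    hk ▸ Commute.zpow_right ((mM m).1 hm) k
  have xM : x' ∈ M := (mM _).2 rfl
  have NM : N ≤ M := fun g hg => (mM g).2 (cMN x' xM _ ((mN g).1 hg)).symm
  have cN : Nat.card N = 3 * Nat.card Q' := by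
    have := QuotientGroup.card_preimage_mk Q' (zpowers (φ x') : Set _)
    rw [SetLike.coe_sort_coe, Nat.card_zpowers, o3, mul_comm] at this
    rw [← this, hN', hφ]
    rfl
  have p3 : ∀ w ∈ zpowers (φ x'), w ^ 3 = 1 := fun w hw =>
    orderOf_dvd_iff_pow_eq_one.1 (o3 ▸ orderOf_dvd_of_mem_zpowers hw)
  have n3 : ∀ n ∈ N, (n : G) ^ 3 ∈ Q := fun n hn =>
    (kφ (n ^ 3)).1 (by rw [map_pow, p3 _ ((mN n).1 hn)])
  have cY : Nat.card (M ⧸ N.subgroupOf M) = 443520 := by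
    have e1 := M.card_mul_index
    have e2 := (N.subgroupOf M).card_mul_index
    rw [Nat.card_congr (subgroupOfEquivOfLe NM).toEquiv, cN, cQ', index_eq_card] at e2
    rw [iM, cH] at e1
    omega
  have lift : ∀ {n : ℕ} {g : M ⧸ N.subgroupOf M}, orderOf g = n → ∃ h ∈ centralizer ({z} : Set G),
      h ^ (n * 3) ∈ Q ∧ h ^ (n * 12) = 1 ∧ (∀ k, h ^ k ∈ Q → n ∣ k) ∧
      ∀ k, h ^ k * x * (h ^ k)⁻¹ * x⁻¹ ∈ Q := fun {n g} o => by
    obtain ⟨h, rfl⟩ := QuotientGroup.mk_surjective g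
    have e : ∀ k, (h : centralizer ({z} : Set G)) ^ k ∈ N ↔ n ∣ k := fun k => by
      rw [← o, orderOf_dvd_iff_pow_eq_one, ← QuotientGroup.mk_pow, QuotientGroup.eq_one_iff]
      rfl
    have e1 := n3 _ ((e n).2 dvd_rfl)
    rw [coe_pow, ← pow_mul] at e1
    exact ⟨_, h.1.2, e1, by rw [show n * 12 = n * 3 * 4 by ring, pow_mul, pow_four pre e1],
      fun k hk => (e k).1 (QN ((mQ _).2 hk)), fun k => (mM' (h ^ k)).1 (pow_mem h.2 k)⟩
  have o11 : ∀ {r : ℕ} {h : G}, h ^ (11 * r * 12) = 1 → (∀ k, h ^ k ∈ Q → 11 * r ∣ k) → 0 < r →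
      orderOf (h ^ (r * 12)) = 11 := fun {r h} e1 e2 hr => by
    have : Fact (Nat.Prime 11) := ⟨by norm_num⟩
    refine orderOf_eq_prime (by rw [← pow_mul, ← e1]; congr 1; ring) fun e => ?_
    have := e2 _ (e ▸ one_mem _)
    rw [mul_comm 11, Nat.mul_dvd_mul_iff_left hr] at this
    omega
  have n57 : ∀ r, r = 5 ∨ r = 7 → ∀ g : M ⧸ N.subgroupOf M, orderOf g ≠ 11 * r := fun r hr g o => by
    obtain ⟨h, hH, -, e1, e2, -⟩ := lift o
    have : Fact r.Prime := ⟨by rcases hr with rfl | rfl <;> norm_num⟩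
    refine no_comm_11 pre cQ (pow_mem hH _) (o11 e1 e2 (by omega)) (pow_mem hH (11 * 12)) hr
      (orderOf_eq_prime (by rw [← pow_mul, ← e1]; congr 1; ring) fun e => ?_)
      (Commute.pow_pow_self h _ _)
    have := e2 _ (e ▸ one_mem _)
    rcases hr with rfl | rfl <;> omega
  have iso : Spor.IsoM22 (M ⧸ N.subgroupOf M) := isoM22_of_orders cY (fun g o => by
    obtain ⟨h, hH, e0, e1, e2, e3⟩ := lift o
    exact no_two_11 pre cQ x3 xH fix (pow_mem hH 33) (fun k => absurd (e2 _ k) (by decide))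
      (by rw [← pow_add]; exact e0) (e3 33) (pow_mem hH _) (o11 (r := 2) e1 e2 two_pos)
      (Commute.pow_pow_self h _ _)) (n57 5 (Or.inl rfl)) (n57 7 (Or.inr rfl))
  obtain ⟨ρ, sρ, kρ⟩ : ∃ ρ : M →* Spor.M22, Function.Surjective ρ ∧ ρ.ker = N.subgroupOf M := by
    obtain ⟨e⟩ := iso
    exact ⟨e.toMonoidHom.comp (QuotientGroup.mk' _),
      e.surjective.comp (QuotientGroup.mk'_surjective _), by
        rw [← MonoidHom.comap_ker, (MonoidHom.ker_eq_bot_iff _).2 e.injective, MonoidHom.comap_bot,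
          QuotientGroup.ker_mk']⟩
  refine ⟨z, jankoFour_of_centralizer pre.ord QN NM iM
    (Solv.PG.isExtraspecial_of_mulEquiv eQ.symm pre.isExtraspecial) cQ' cN
    (commutator_le.2 fun m hm n hn => (mQ _).2 ((kφ _).1 ?_)) ?_
    (fun c hc => (mQ c).2 (pre.zpowers_le (pre.cent fun q hq =>
      congrArg Subtype.val (hc ⟨q, pre.le_cent hq⟩ ((mQ _).2 hq))))) (fun c hc => ?_) iso⟩
  · rw [map_commutatorElement, commutatorElement_eq_one_iff_commute]
    exact cMN m hm _ ((mN n).1 hn)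
  · have e1 : M ≤ ⁅M, M⁆ ⊔ N := by
      have c : _root_.commutator Spor.M22 = ⊤ := map_injective (subtype_injective _) (by
        rw [map_subtype_commutator, commutator_M22, ← MonoidHom.range_eq_map, range_subtype])
      have k : _root_.commutator M ⊔ N.subgroupOf M = ⊤ := by
        rw [← kρ, ← comap_map_eq, _root_.commutator_def, map_commutator, map_top_of_surjective _ sρ,
          ← _root_.commutator_def, c, comap_top]
      have := congrArg (map M.subtype) k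
      rw [Subgroup.map_sup, map_subtype_commutator, subgroupOf_map_subtype, ← MonoidHom.range_eq_map,
        range_subtype] at this
      exact this.ge.trans (sup_le_sup_left inf_le_left _)
    have xD : x' ∈ ⁅M, M⁆ ⊔ Q' := by
      rw [← mem_map_iff_mem (subtype_injective _), coe_subtype, cx]
      refine perf _ (fun q hq => ⟨⟨q, pre.le_cent hq⟩, mem_sup_right ((mQ _).2 hq), rfl⟩)
        (fun g hg => mem_normalizer_fintype ?_) fun m hm e e8 => ⟨⟨m, hm⟩, ?_, rfl⟩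
      · rintro _ ⟨d, hd, rfl⟩
        exact ⟨_, (inferInstance : (⁅M, M⁆ ⊔ Q').Normal).conj_mem d hd ⟨g, hg⟩, rfl⟩
      obtain ⟨d, hd, n, hn, k⟩ := (mem_sup_of_normal_right).1 (e1 ((mM' ⟨m, hm⟩).2 e))
      rw [SetLike.mem_coe, ← QuotientGroup.eq_one_iff]
      refine eq_one_of_pows (a := 8) (b := 3) (by norm_num) ?_ ?_
      · rw [← QuotientGroup.mk_pow, show (⟨m, hm⟩ : centralizer ({z} : Set G)) ^ 8 = 1 from
          Subtype.ext e8, QuotientGroup.mk_one]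
      · rw [← k, QuotientGroup.mk_mul, (QuotientGroup.eq_one_iff d).2 (mem_sup_left hd), one_mul,
          ← QuotientGroup.mk_pow, QuotientGroup.eq_one_iff]
        exact mem_sup_right ((mQ _).2 (n3 n hn))
    refine e1.trans (sup_le le_sup_left fun n hn => ?_)
    obtain ⟨k, hk⟩ := (mN n).1 hn
    rw [← mul_inv_cancel_left (x' ^ k) n]
    exact mul_mem (zpow_mem xD k) (mem_sup_right ((mQ _).2 ((kφ _).1 (by
      rw [map_mul, map_inv, map_zpow, ← hk, inv_mul_cancel]))))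
  by_contra cM
  have c2 : c * c ∈ M := mul_self_mem_of_index_two iM c
  have c2N : c * c ∈ N := by
    have : ρ ⟨c * c, c2⟩ ∈ center Spor.M22 := mem_center_iff.2 fun τ => by
      obtain ⟨m, rfl⟩ := sρ τ
      rw [eq_comm, ← mul_inv_eq_iff_eq_mul, ← mul_inv_eq_one, ← map_inv, ← map_inv, ← map_mul,
        ← map_mul, ← map_mul, ← MonoidHom.mem_ker, kρ, mem_subgroupOf]
      have := mul_mem (nN.conj_mem _ (hc m m.2) c) (hc m m.2)
      convert this using 1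
      simp only [coe_mul, coe_inv]
      group
    rwa [center_M22, mem_bot, ← MonoidHom.mem_ker, kρ] at this
  have c2Q : (c : G) * c ∈ Q := (kφ (c * c)).1 (by
    obtain ⟨k, hk⟩ := (mN _).1 c2N
    refine eq_one_of_pows (a := 2) (b := 3) (by norm_num) ?_ (p3 _ ((mN _).1 c2N))
    have e : φ c * φ (c * c) * (φ c)⁻¹ = (φ (c * c))⁻¹ := by
      rw [← hk, ← conj_zpow, (out c).1 cM, inv_zpow]
    rw [pow_two, mul_eq_one_iff_eq_inv, ← e, map_mul]
    group)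
  have : Fact (Nat.Prime 11) := ⟨by norm_num⟩
  obtain ⟨g, og⟩ := exists_prime_orderOf_dvd_card' (G := centralizer ({z} : Set G)) 11
    (by rw [cH]; norm_num)
  have g1 : g ^ 11 = 1 := og ▸ pow_orderOf_eq_one g
  have gM : g ∈ M := by
    rw [← mul_one g, ← g1, ← pow_succ', show 11 + 1 = 2 * 6 from rfl, pow_mul]
    exact pow_mem (sq_mem_of_index_two iM g) 6
  refine no_inv_11 pre cQ x3 xH fix c.2 (fun k => cM (NM (QN ((mQ c).2 k)))) c2Q
    ((mI c).1 ((out c).1 cM)) g.2 ((orderOf_coe g).trans og) ((kφ (c * g * c⁻¹ * g⁻¹)).1 ?_)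
  have w := (mN _).1 (hc g gM)
  refine eq_one_of_pows (a := 11) (b := 3) (by norm_num) ?_ (p3 _ w)
  have e := (cMN g gM _ w).symm.mul_pow 11
  rwa [← map_mul, inv_mul_cancel_right, ← map_pow, ← map_pow φ g, conj_pow, g1, mul_one,
    mul_inv_cancel, map_one, mul_one, eq_comm] at e

end Cfsg.Lib.J4T
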