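import Cfsg.Agent.J4T.PDefs
import Cfsg.Agent.FT.BG4.Elem

/-! Groups of shape `2^(3+12).(S₅ × L₃(2))`: finite checks and pairs of eight-groups. -/

set_option autoImplicit false
set_option maxRecDepth 100000

namespace Cfsg.Lib.J4T.PH

open Subgroup Equiv
open scoped commutatorElement

theorem s5_rank : ∀ σ : Perm (Fin 5), σ * σ = 1 → ∀ τ : Perm (Fin 5), τ * τ = 1 → σ * τ = τ * σ →
    ∀ υ : Perm (Fin 5), υ * υ = 1 → σ * υ = υ * σ → τ * υ = υ * τ →
    σ = 1 ∨ τ = 1 ∨ σ * τ = 1 ∨ υ = 1 ∨ σ * υ = 1 ∨ τ * υ = 1 ∨ σ * τ * υ = 1 := by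
  decide +kernel

theorem fix_card : ∀ σ : Perm (Fin 5), σ * σ = 1 → σ ≠ 1 →
    (Finset.univ.filter fun u => rho σ u = u).card = 4 := by decide +kernel

theorem fix_two : ∀ σ : Perm (Fin 5), σ * σ = 1 →
    ∃ u, rho σ u = u ∧ u ≠ 0 ∧ ∃ v, rho σ v = v ∧ v ≠ 0 ∧ u + v ≠ 0 := by decide +kernel

theorem rho_inj : ∀ σ : Perm (Fin 5), (∀ u, rho σ u = u) → σ = 1 := by decide +kernel

theorem beta_nd : ∀ u : N4, (∀ v, beta v u = false) → u = 0 := by decide +kernel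

theorem z3_trans : ∀ ζ η : Z3, ζ ≠ 0 → η ≠ 0 → ∃ a b c, comb a b c ζ = η ∧ Ind a b c := by
  decide +kernel

theorem z3_ext : ∀ u v : Z3, u ≠ 0 → v ≠ 0 → u ≠ v → ∃ ζ, Ind ζ u v := by decide +kernel

theorem z3_ind : ∀ ζ u v : Z3, Ind ζ u v → ∀ e, Ind e u v → e ≠ ζ → ∀ e', Ind e' u v → e' ≠ ζ →
    e ≠ e' → Ind ζ (ζ + e) (ζ + e') ∧ (ζ + e = u ∨ ζ + e = v ∨ ζ + e = u + v) ∧
      (ζ + e' = u ∨ ζ + e' = v ∨ ζ + e' = u + v) := by decide +kernel

theorem z3_span : ∀ a b c : Z3, Ind a b c → ∀ ζ, ∃ η, ζ = comb a b c η := by decide +kernel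

theorem z3_fix : ∀ a b c : Z3, Ind a b c → ∀ η, comb (a + b) b c η = comb a b c η →
    (comb a b c η = 0 ∨ comb a b c η = b) ∨ (comb a b c η = c ∨ comb a b c η = b + c) := by
  decide +kernel

theorem z3_sum : ∀ b c x y : Z3, x = c ∨ x = b + c → y = c ∨ y = b + c → x + y = 0 ∨ x + y = b := by
  decide +kernel

theorem comb_bv : ∀ a b c : Z3, comb a b c (bv 3 1) = a ∧ comb a b c (bv 3 2) = b ∧
    comb a b c (bv 3 4) = c := by decide +kernel

theorem ind_basis : Ind (bv 3 1) (bv 3 2) (bv 3 4) := by decide +kernel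

theorem mk3_eq : ∀ a b c : Bool, mk3 a b c = 0 ↔ a = false ∧ b = false ∧ c = false := by
  decide +kernel

theorem br_one (v : N4) (f : M12) : br (v, 0, 0) f = 0 ↔ beta v f.2.2 = false ∧ beta v f.2.1 = false := by
  simp [br, mk3_eq, beta_zero]

theorem br_two (v : N4) (f : M12) : br (0, v, 0) f = 0 ↔ beta v f.2.2 = false ∧ beta v f.1 = false := by
  simp [br, mk3_eq, beta_zero]

theorem eq_zero_of_br {f : M12} (h1 : ∀ v, br (v, 0, 0) f = 0) (h2 : ∀ v, br (0, v, 0) f = 0) :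
    f = 0 :=
  Prod.ext (beta_nd _ fun v => ((br_two v f).1 (h2 v)).2) (Prod.ext
    (beta_nd _ fun v => ((br_one v f).1 (h1 v)).2) (beta_nd _ fun v => ((br_one v f).1 (h1 v)).1))

variable {G : Type*} [Group G]

theorem exists_notMem {V : Subgroup G} (s : Finset G) (h : s.card < Nat.card V) :
    ∃ v ∈ V, v ∉ s := by
  by_contra hn
  push Not at hn
  have := Set.ncard_le_ncard (show (V : Set G) ⊆ s from hn) s.finite_toSet
  rw [Set.ncard_coe_finset] at this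
  exact absurd (h.trans_le this) (lt_irrefl _)

theorem comm_of_sq {V : Subgroup G} (h : ∀ a ∈ V, a * a = 1) {a b : G} (ha : a ∈ V) (hb : b ∈ V) :
    a * b = b * a := by
  have h1 := h _ (mul_mem ha hb)
  calc a * b = b * b * (a * b) * (a * a) := by rw [h b hb, h a ha, one_mul, mul_one]
    _ = b * (b * a * (b * a)) * a := by group
    _ = b * a := by rw [h _ (mul_mem hb ha), mul_one]

/-- An elementary abelian group of order eight controlling the centralizers of its involutions. -/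
structure E8 (V : Subgroup G) : Prop where
  card : Nat.card V = 8
  sq : ∀ a ∈ V, a * a = 1
  cent : ∀ a ∈ V, a ≠ 1 → centralizer ({a} : Set G) ≤ normalizer (V : Set G)

theorem conj_mem {V : Subgroup G} {g a : G} (hg : g ∈ normalizer (V : Set G)) (ha : a ∈ V) :
    g * a * g⁻¹ ∈ V := (mem_normalizer_iff.1 hg a).1 ha

variable [Finite G] {U V : Subgroup G}

omit [Finite G] in
theorem E8.mem_norm (h : E8 V) {a g : G} (ha : a ∈ V) (h1 : a ≠ 1) (e : g * a = a * g) :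
    g ∈ normalizer (V : Set G) := h.cent a ha h1 (mem_centralizer_singleton_iff.2 e)

theorem E8.exists_two (h : E8 U) {w : G} (hw : w ∈ normalizer (U : Set G)) (h2 : w * w = 1) :
    ∃ b ∈ U, ∃ c ∈ U, b ≠ 1 ∧ c ≠ 1 ∧ b ≠ c ∧ b * w = w * b ∧ c * w = w * c := by
  classical
  have hi : w⁻¹ = w := inv_eq_of_mul_eq_one_right h2
  have h1 := FT.BG4.card_le_card_mul_card_inf_centralizer (H := U) (v := w)
    (S := U ⊓ centralizer ({w} : Set G)) fun x hx => by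
      have e : ⁅x, w⁆ = x * (w * x⁻¹ * w⁻¹) := by rw [commutatorElement_def]; group
      have h3 := conj_mem hw (inv_mem hx)
      refine ⟨e ▸ mul_mem hx h3, mem_centralizer_singleton_iff.2 ?_⟩
      rw [e]
      calc _ = x * (w * x⁻¹ * w⁻¹) * w := rfl
        _ = w * x⁻¹ * w⁻¹ * x * w := by rw [comm_of_sq h.sq hx h3]
        _ = w * (x⁻¹ * (w * x * w⁻¹)) := by rw [hi]; group
        _ = _ := by rw [inv_eq_of_mul_eq_one_right (h.sq x hx)]
  rw [h.card] at h1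
  have h3 : 2 < Nat.card ↥(U ⊓ centralizer ({w} : Set G)) := by
    by_contra hn
    have := Nat.mul_le_mul (not_lt.1 hn) (not_lt.1 hn)
    omega
  obtain ⟨b, hb, hb1⟩ := exists_notMem {1} (lt_of_le_of_lt (by simp) h3)
  obtain ⟨c, hc, hc1⟩ := exists_notMem {1, b} (lt_of_le_of_lt Finset.card_le_two h3)
  simp only [Finset.mem_insert, Finset.mem_singleton, not_or] at hb1 hc1
  exact ⟨b, hb.1, c, hc.1, hb1, hc1.1, Ne.symm hc1.2, mem_centralizer_singleton_iff.1 hb.2,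
    mem_centralizer_singleton_iff.1 hc.2⟩

omit [Finite G] in
theorem comm_of_norm (hd : ∀ x ∈ U, x ∈ V → x = 1) {a b : G} (ha : a ∈ V)
    (ha' : a ∈ normalizer (U : Set G)) (hb : b ∈ U) (hb' : b ∈ normalizer (V : Set G)) :
    a * b = b * a := by
  have := hd (a * b * a⁻¹ * b⁻¹) (mul_mem (conj_mem ha' hb) (inv_mem hb)) (by
    rw [mul_assoc, mul_assoc, ← mul_assoc b]
    exact mul_mem ha (conj_mem hb' (inv_mem ha)))
  rwa [mul_inv_eq_one, mul_inv_eq_iff_eq_mul] at this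

theorem E8.le_norm (hU : E8 U) (hV : E8 V) (h : U ≤ normalizer (V : Set G)) :
    V ≤ normalizer (U : Set G) := fun v hv => by
  by_cases h1 : v = 1
  · exact h1 ▸ one_mem _
  by_contra hn
  let φ : U → V := fun x => ⟨x * v * x⁻¹, conj_mem (h x.2) hv⟩
  have hφ : Function.Injective φ := fun x y e => by
    by_contra hne
    refine hn (hU.mem_norm (mul_mem (inv_mem y.2) x.2)
      (fun e1 => hne (Subtype.ext (inv_mul_eq_one.1 e1).symm)) ?_)
    have e1 : (x : G) * v * (x : G)⁻¹ = y * v * (y : G)⁻¹ := congrArg Subtype.val e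
    calc _ = (y : G)⁻¹ * (y * v * (y : G)⁻¹) * x := by group
      _ = _ := by rw [← e1]; group
  obtain ⟨x, e⟩ := ((Nat.bijective_iff_injective_and_card φ).2 ⟨hφ, hU.card.trans hV.card.symm⟩).2 1
  have e1 : (x : G) * v * (x : G)⁻¹ = 1 := congrArg Subtype.val e
  exact h1 (by simpa using e1)

theorem E8.dich (hU : E8 U) (hV : E8 V) (hd : ∀ x ∈ U, x ∈ V → x = 1) {w : G} (hw : w ∈ V)
    (h1 : w ≠ 1) (hn : w ∈ normalizer (U : Set G)) :
    (∀ a ∈ V, ∀ b ∈ U, a * b = b * a) ∨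
      (∀ a ∈ V, a ≠ 1 → ¬ ∀ b ∈ U, a * b = b * a) ∧
      ∃ a ∈ V, ∃ a' ∈ V, ∃ b ∈ U, ∃ b' ∈ U, a ≠ 1 ∧ a' ≠ 1 ∧ a ≠ a' ∧ b ≠ 1 ∧ b' ≠ 1 ∧ b ≠ b' ∧
        a * b = b * a ∧ a * b' = b' * a ∧ a' * b = b * a' ∧ a' * b' = b' * a' := by
  by_cases h : ∀ a ∈ V, a ≠ 1 → ¬ ∀ b ∈ U, a * b = b * a
  · obtain ⟨b, hb, b', hb', b1, b1', bb, e, e'⟩ := hU.exists_two hn (hV.sq w hw)
    obtain ⟨a, ha, a', ha', a1, a1', aa, f, f'⟩ := hV.exists_two (hV.mem_norm hw h1 e) (hU.sq b hb)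
    exact Or.inr ⟨h, a, ha, a', ha', b, hb, b', hb', a1, a1', aa, b1, b1', bb, f,
      comm_of_norm hd ha (hU.mem_norm hb b1 f) hb' (hV.mem_norm hw h1 e'), f',
      comm_of_norm hd ha' (hU.mem_norm hb b1 f') hb' (hV.mem_norm hw h1 e')⟩
  · push Not at h
    obtain ⟨a, ha, a1, e⟩ := h
    have h2 : U ≤ normalizer (V : Set G) := fun b hb => hV.mem_norm ha a1 (e b hb).symm
    exact Or.inl fun x hx b hb => comm_of_norm hd hx (hU.le_norm hV h2 hx) hb (h2 hb)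

end Cfsg.Lib.J4T.PH
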