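import Cfsg.Agent.J4T.PF
import Cfsg.Agent.J4T.PG

/-! Coordinates for a group of shape `2^(3+12).(S₅ × L₃(2))`: the group is of type `J₄`. -/

set_option autoImplicit false
set_option maxRecDepth 100000
set_option synthInstance.maxSize 2048

namespace Cfsg.Lib.J4T

open Subgroup Equiv Cfsg.Lib.Local

variable {G : Type*} [Group G] {K L Z Q : Subgroup G} {π : G → Perm (Fin 5)} {κ : G → Perm Z3}
  {ψ : G → Z3} {Φ : G → M12} {z s g x y : G}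

theorem x_one {A : Perm Z3} (kx : ∀ ζ, A ζ = comb b1 b3 (b2 + b3) ζ) : A b1 = b1 := by
  rw [kx]; decide

namespace PQ

variable (h : PQ K L Z Q π κ ψ Φ z s)
include h

theorem exists_x : ∃ x ∈ K, x ^ 3 = 1 ∧ π x = 1 ∧ ∀ ζ, κ x ζ = comb b1 b3 (b2 + b3) ζ := by
  obtain ⟨k, hk, e, e'⟩ := h.surj 1 b1 b3 (b2 + b3) (by decide)
  have k3 : κ k ^ 3 = 1 := Equiv.ext fun ζ => by
    simp only [pow_succ, pow_zero, Perm.mul_apply, Perm.one_apply, e']; revert ζ; decide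
  refine ⟨k ^ 4, pow_mem hk 4, ?_, by rw [h.π_pow hk, e, one_pow], fun ζ => by
    rw [h.κ_pow hk, pow_succ, k3, one_mul, e']⟩
  rw [← pow_mul, mul_comm, pow_mul]
  exact h.L_pow (h.mem_L (pow_mem hk 3) (by rw [h.π_pow hk, e, one_pow]) (by rw [h.κ_pow hk, k3]))

variable (hx : x ∈ K) (x3 : x ^ 3 = 1) (px : π x = 1) (kx : ∀ ζ, κ x ζ = comb b1 b3 (b2 + b3) ζ)
include hx x3 px kx

theorem tri (hy : y ∈ K) (h1 : κ y b1 = b1) (h2 : π y = 1) (h3 : y ^ 3 = 1) :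
    y ∈ Q ∨ y * x⁻¹ ∈ Q ∨ y * x ∈ Q := by
  have x1 := x_one kx
  have t : ∀ u ∈ K, u ^ 3 = 1 → π u = 1 → κ u b1 = b1 →
      (κ y (κ u b2) = b2 ∨ κ y (κ u b2) = b2 + b1) → (κ y (κ u b3) = b3 ∨ κ y (κ u b3) = b3 + b1) →
      y * u ∈ Q := fun u hu u3 u1 u2 e2 e3 => by
    obtain ⟨q, hq, c, hc, e⟩ := h.decomp (mul_mem hy hu) (by rw [h.π_mul y hy u hu, h2, u1, one_mul])
      (by rw [h.κ_mul y hy u hu, Perm.mul_apply, u2, h1]) (by rwa [h.κ_mul y hy u hu])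
      (by rwa [h.κ_mul y hy u hu])
    have yH := (h.mem_H hy).2 h1
    refine e ▸ mul_mem hq (h.cube hc (inv_mem hu) (by rw [h.π_inv hu, u1, inv_one])
      ((h.mem_H (inv_mem hu)).1 (inv_mem ((h.mem_H hu).2 u2))) (by rw [inv_pow, u3, inv_one]) ?_)
    rw [show c * u⁻¹ = q⁻¹ * y by rw [eq_inv_mul_iff_mul_eq, ← mul_assoc, ← e]; group,
      show (q⁻¹ * y) ^ 3 = q⁻¹ * (y * q⁻¹ * y⁻¹) * (y * (y * q⁻¹ * y⁻¹) * y⁻¹) * y ^ 3 by
        simp [pow_succ, mul_assoc], h3, mul_one]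
    exact mul_mem (mul_mem (inv_mem hq) (h.conj_Q yH (inv_mem hq)))
      (h.conj_Q yH (h.conj_Q yH (inv_mem hq)))
  have d : ∀ b c, (∀ ζ, comb b1 b c (comb b1 b c (comb b1 b c ζ)) = ζ) →
      ((b = b2 ∨ b = b2 + b1) ∧ (c = b3 ∨ c = b3 + b1)) ∨
      ((b + c = b2 ∨ b + c = b2 + b1) ∧ (b = b3 ∨ b = b3 + b1)) ∨
      ((c = b2 ∨ c = b2 + b1) ∧ (b + c = b3 ∨ b + c = b3 + b1)) := by decide +kernel
  have xi : x⁻¹ = x * x := by rw [inv_eq_iff_mul_eq_one, ← x3, pow_three]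
  have f : ∀ ζ, κ y ζ = comb b1 (κ y b2) (κ y b3) ζ := fun ζ => by rw [h.κ_eq hy, h1]
  rcases d (κ y b2) (κ y b3) (fun ζ => by
      rw [← f, ← f, ← f, ← Perm.mul_apply, ← Perm.mul_apply, ← pow_three', ← h.κ_pow hy, h3, h.κ_one]
      rfl) with ⟨e, e'⟩ | ⟨e, e'⟩ | ⟨e, e'⟩
  · simpa using Or.inl (t 1 K.one_mem (one_pow _) h.π_one (by rw [h.κ_one]; rfl)
      (by rwa [h.κ_one]) (by rwa [h.κ_one]))
  · refine .inr (.inl (t _ (inv_mem hx) (by rw [inv_pow, x3, inv_one]) (by rw [h.π_inv hx, px, inv_one])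
      ?_ ?_ ?_)) <;> rw [xi, h.κ_mul x hx x hx, Perm.mul_apply, kx, kx]
    · decide
    · rwa [show comb b1 b3 (b2 + b3) (comb b1 b3 (b2 + b3) b2) = b2 + b3 by decide, h.κ_add y hy]
    · rwa [show comb b1 b3 (b2 + b3) (comb b1 b3 (b2 + b3) b3) = b2 by decide]
  · refine .inr (.inr (t x hx x3 px x1 ?_ ?_)) <;> rw [kx]
    · rwa [show comb b1 b3 (b2 + b3) b2 = b3 by decide]
    · rwa [show comb b1 b3 (b2 + b3) b3 = b2 + b3 by decide, h.κ_add y hy]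

theorem comm_x {c : G} (hc : c ∈ K) (e : κ c = 1) : c * x * c⁻¹ * x⁻¹ ∈ Q := by
  have h1 := mul_mem (mul_mem hc hx) (inv_mem hc)
  refine h.cube (h.mem_L (mul_mem h1 (inv_mem hx)) ?_ ?_) hx px (x_one kx) x3 ?_
  · rw [h.π_mul _ h1 _ (inv_mem hx), h.π_conj hc hx, h.π_inv hx, px]; simp
  · rw [h.κ_mul _ h1 _ (inv_mem hx), h.κ_conj hc hx, h.κ_inv hx, e]; simp
  · rw [inv_mul_cancel_right, conj_pow, x3]; simp

variable [Finite G]

theorem conj_x (hg : g ∈ centralizer ({z} : Set G)) : g * x * g⁻¹ ∈ K ∧ π (g * x * g⁻¹) = 1 := by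
  have xH := (h.mem_H hx).2 (x_one kx)
  have t : ∀ g ∈ centralizer ({z} : Set G), g * x * g⁻¹ ∈ K → π (g * x * g⁻¹) = 1 →
      g ∈ centralizer ({z} : Set G) ⊓ normalizer ((Q ⊔ zpowers x : Subgroup G) : Set G) := by
    intro g hg h1 h2
    refine ⟨hg, mem_normalizer_fintype fun n hn => ?_⟩
    refine (show Q ⊔ zpowers x ≤ (Q ⊔ zpowers x).comap (MulAut.conj g).toMonoidHom from
      sup_le (fun q hq => mem_sup_left (h.conj_Q hg hq)) (zpowers_le.2 ?_)) hn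
    show g * x * g⁻¹ ∈ Q ⊔ zpowers x
    rcases h.tri hx x3 px kx h1 ((h.mem_H h1).1 (mul_mem (mul_mem hg xH) (inv_mem hg))) h2
      (by rw [conj_pow, x3]; simp) with e | e | e
    · exact mem_sup_left e
    · simpa using mul_mem (mem_sup_left e) (mem_sup_right (mem_zpowers x))
    · simpa using mul_mem (mem_sup_left e) (mem_sup_right (inv_mem (mem_zpowers x)))
  obtain ⟨c1, c2, -⟩ := h.count (X := centralizer {z}) inf_le_right le_rfl h.nle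
  have c3 := (h.count (X := centralizer ({z} : Set G) ⊓
      normalizer ((Q ⊔ zpowers x : Subgroup G) : Set G)) (fun k hk => t k hk.2
      (mul_mem (mul_mem hk.1 hx) (inv_mem hk.1)) (by rw [h.π_conj hk.1 hx, px]; simp)) inf_le_left
      fun e => c1 fun n hn => e ?_).2.1
  · have h1 := (eq_of_le_of_card_ge inf_le_left (c2.trans c3.symm).le).ge hg
    obtain ⟨⟨y, hy⟩, e1, e2⟩ := (show Q ⊔ zpowers x ≤ h.πh.ker.map K.subtype from sup_le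
      (fun q hq => ⟨⟨q, h.QK hq⟩, h.πQ q hq, rfl⟩) (zpowers_le.2 ⟨⟨x, hx⟩, px, rfl⟩))
      ((mem_normalizer_iff.1 h1.2 x).1 (mem_sup_right (mem_zpowers x)))
    exact e2 ▸ ⟨hy, e1⟩
  replace hn := mem_inf.1 hn
  have yH := mul_mem (mul_mem hn.1 xH) (inv_mem hn.1)
  have v1 : ∀ v ∈ h.V 0, n * x * n⁻¹ * v * (n * x * n⁻¹)⁻¹ * v⁻¹ ∈ Q := fun v hv => by
    have h1 := (mem_normalizer_iff.1 (inv_mem hn.2) v).1 hv
    convert h.conj_Q hn.1 (inv_mem (h.comm_x hx x3 px kx (h.V_K h1).1 (h.V_K h1).2)) using 1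
    group
  have v2 : ∀ v ∈ h.V 0, n * x * n⁻¹ * v * (n * x * n⁻¹)⁻¹ ∈ h.V 0 ∧
      π (n * x * n⁻¹ * v * (n * x * n⁻¹)⁻¹) = π v := fun v hv => ⟨(mem_normalizer_iff.1
    (mul_mem (mul_mem hn.2 (h.mem_NV hx (by rw [px]; rfl))) (inv_mem hn.2)) v).1 hv, by
      rw [← inv_mul_cancel_right (_ * v * _) v, h.π_mul _ (h.QK (v1 v hv)) _ (h.V_K hv).1,
        h.πQ _ (v1 v hv), one_mul]⟩
  have yK := h.mem_K_of_V yH fun a ha aL _ => h.mem_L (h.V_K (v2 a ha).1).1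
    (by rw [(v2 a ha).2, h.π_L aL]) (h.V_K (v2 a ha).1).2
  have d : ∀ σ : Perm (Fin 5), σ ^ 3 = 1 → σ * (swap 1 2 * swap 3 4) * σ⁻¹ = swap 1 2 * swap 3 4 →
    σ = 1 := by decide +kernel
  obtain ⟨v, hv, e⟩ := h.V_surj (i := 0) (σ := swap 1 2 * swap 3 4) (by decide +kernel)
  exact t n hn.1 yK (d _ (by rw [← h.π_pow yK, conj_pow, x3]; simp [h.π_one])
    (by rw [← e, ← h.π_conj yK (h.V_K hv).1, (v2 v hv).2]))

omit hx x3 px kx in
theorem janko : IsOfJankoFourType G := by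
  obtain ⟨x, hx, x3, px, kx⟩ := h.exists_x
  have x1 := x_one kx
  have xH := (h.mem_H hx).2 x1
  have xn : ∀ g ∈ centralizer ({z} : Set G), g * x * g⁻¹ ∉ Q := fun g hg e => by
    have := h.κQ x (by simpa [mul_assoc] using h.conj_Q' hg e) b2
    rw [kx] at this; exact absurd this (by decide)
  have hN : ∀ g ∈ centralizer ({z} : Set G), g * x * g⁻¹ * x⁻¹ ∈ Q ∨ g * x * g⁻¹ * x ∈ Q :=
    fun g hg => (h.tri hx x3 px kx (h.conj_x hx x3 px kx hg).1 ((h.mem_H (h.conj_x hx x3 px kx hg).1).1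
      (mul_mem (mul_mem hg xH) (inv_mem hg))) (h.conj_x hx x3 px kx hg).2
      (by rw [conj_pow, x3]; simp)).resolve_left (xn g hg)
  have kq : ∀ k ∈ K, κ k b1 = b1 → k * x * k⁻¹ * x⁻¹ ∈ Q → ∀ ζ,
      comb b1 (κ k b2) (κ k b3) (comb b1 b3 (b2 + b3) ζ) =
        comb b1 b3 (b2 + b3) (comb b1 (κ k b2) (κ k b3) ζ) ∨
      comb b1 (κ k b2) (κ k b3) (comb b1 b3 (b2 + b3) ζ) =
        comb b1 b3 (b2 + b3) (comb b1 (κ k b2) (κ k b3) ζ) + b1 := fun k hk e1 e ζ => by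
    have f : ∀ ζ, κ k ζ = comb b1 (κ k b2) (κ k b3) ζ := fun ζ => by rw [h.κ_eq hk, e1]
    have := h.κQ _ e (κ x (κ k ζ))
    rw [h.κ_mul _ (mul_mem (mul_mem hk hx) (inv_mem hk)) _ (inv_mem hx), h.κ_conj hk hx,
      h.κ_inv hx] at this
    simpa [← f, ← kx] using this
  obtain ⟨-, c2, c3⟩ := h.count (X := centralizer {z}) inf_le_right le_rfl h.nle
  refine janko_of_count h.pre h.cardQ (ord3 x3 fun e => xn 1 (one_mem _) (by simp [e])) xH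
    (fun q hq e => ?_) hN ?_ c2 fun D QD nD hD => ?_
  · have qK := h.QK hq
    have d : ∀ b c, (b = b2 ∨ b = b2 + b1) → (c = b3 ∨ c = b3 + b1) → c = comb b1 b3 (b2 + b3) b →
      b + c = comb b1 b3 (b2 + b3) c → b = b2 ∧ c = b3 := by decide
    have e1 : ∀ ζ, κ q (κ x ζ) = κ x (κ q ζ) := fun ζ => by
      rw [← Perm.mul_apply, ← Perm.mul_apply, ← h.κ_mul _ qK _ hx, ← e, h.κ_mul _ hx _ qK]
    obtain ⟨e2, e3⟩ := d _ _ (h.κQ q hq b2) (h.κQ q hq b3) (by rw [← kx, ← e1, kx]; rfl)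
      (by rw [← kx, ← e1, kx, ← h.κ_add q qK]; rfl)
    have qL := h.mem_L_of_Q hq (h.κ_eq_one qK (h.κQ1 hq) e2 e3)
    have e4 := h.Φ_pull hx qL
    rw [mul_assoc, ← e, inv_mul_cancel_left, px, inv_one, x1, kx, kx,
      show comb b1 b3 (b2 + b3) b2 = b3 by decide, show comb b1 b3 (b2 + b3) b3 = b2 + b3 by decide,
      pull, ev_add, ev_two, ev_four, rho_one, rho_one, rho_one] at e4
    have e5 : (Φ q).2.1 = 0 := by simpa using congrArg (·.2.2) e4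
    have qZ := (h.Φ_ker q qL).1 (Prod.ext ((h.QL q qL).1 hq) (Prod.ext e5
      ((congrArg (·.2.1) e4).symm.trans e5)))
    have d' : ∀ ζ, comb b1 b3 (b2 + b3) ζ = ζ → ζ = 0 ∨ ζ = b1 := by decide
    exact h.zp.2 ⟨qZ, d' _ (by rw [← kx]; exact (h.comm_Z_iff hx qZ).1 e)⟩
  · obtain ⟨k, hk, -, k1, k2, k3⟩ := h.exK 1 (a := b1) (b := b3) (c := b2) (by decide)
    refine ⟨k, (h.mem_H hk).2 k1, (hN k ((h.mem_H hk).2 k1)).resolve_left fun e => ?_⟩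
    have := kq k hk k1 e b2
    rw [k2, k3] at this; exact absurd this (by decide)
  have two : ∀ c ∈ K, κ c = 1 → π c * π c = 1 → c ∈ D := fun c hc e e' =>
    hD c ((h.mem_H hc).2 (by rw [e]; rfl)) (h.comm_x hx x3 px kx hc e) (by
      rw [show 8 = 2 * 4 from rfl, pow_mul]
      exact h.L_pow (h.mem_L (pow_mem hc 2) (by rw [h.π_pow hc, pow_two, e'])
        (by rw [h.κ_pow hc, e, one_pow])))
  have C0 : ∀ σ, ∀ c ∈ K, κ c = 1 → π c = σ → c ∈ D := fun σ => by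
    induction σ using Perm.swap_induction_on with
    | one => exact fun c hc e e' => two c hc e (by rw [e', one_mul])
    | swap_mul f i j _ ih =>
      intro c hc e e'
      obtain ⟨k, hk, k1, k2⟩ := h.exC (swap i j)
      simpa using mul_mem (two k hk k2 (by rw [k1, swap_mul_self])) (ih (k⁻¹ * c)
        (mul_mem (inv_mem hk) hc) (by rw [h.κ_mul _ (inv_mem hk) _ hc, h.κ_inv hk, k2, e]; simp)
        (by rw [h.π_mul _ (inv_mem hk) _ hc, h.π_inv hk, k1, e']; simp))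
  have st : ∀ k ∈ centralizer ({z} : Set G), k * x * k⁻¹ * x⁻¹ ∈ Q → k * s * k⁻¹ * s⁻¹ ∈ zpowers z →
      k ∈ D := fun k kH e e' => by
    have hk := h.mem_K_of_mod kH e'
    have k1 := (h.mem_H hk).1 kH
    have e1 := (h.zp.1 e').2
    rw [(h.ψ_comm hk h.sZ).2, h.ψs] at e1
    have d : ∀ b c, (b + b2 = 0 ∨ b + b2 = b1) → (comb b1 b c (comb b1 b3 (b2 + b3) b2) =
        comb b1 b3 (b2 + b3) (comb b1 b c b2) ∨ comb b1 b c (comb b1 b3 (b2 + b3) b2) =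
        comb b1 b3 (b2 + b3) (comb b1 b c b2) + b1) →
        (b = b2 ∨ b = b2 + b1) ∧ (c = b3 ∨ c = b3 + b1) := by decide +kernel
    obtain ⟨e2, e3⟩ := d _ (κ k b3) e1 (kq k hk k1 e b2)
    obtain ⟨c, hc, c1, c2⟩ := h.exC (π k)
    have f : κ (c⁻¹ * k) = κ k := by rw [h.κ_mul _ (inv_mem hc) _ hk, h.κ_inv hc, c2]; simp
    obtain ⟨q, hq, a, ha, e4⟩ := h.decomp (mul_mem (inv_mem hc) hk)
      (by rw [h.π_mul _ (inv_mem hc) _ hk, h.π_inv hc, c1]; simp) (f ▸ k1) (f ▸ e2) (f ▸ e3)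
    rw [inv_mul_eq_iff_eq_mul.1 e4]
    exact mul_mem (C0 _ c hc c2 rfl) (mul_mem (QD hq) (C0 _ a (h.LK ha) (h.κ_L ha) rfl))
  obtain ⟨σ, hσ⟩ : ∃ σ, pull σ⁻¹ b1 b3 (b2 + b3) (tyR 2) = tyR 2 := by decide +kernel
  obtain ⟨c, hc, c1, c2⟩ := h.exC σ
  have kK := mul_mem hc hx
  have kk : ∀ ζ, κ (c * x) ζ = comb b1 b3 (b2 + b3) ζ := fun ζ => by
    rw [h.κ_mul c hc x hx, c2, one_mul, kx]
  have kH := (h.mem_H kK).2 (by rw [kk]; decide)
  obtain ⟨l, hl, el⟩ := h.Φ_surj (tyR 2)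
  have w0 := (h.Φ_eq_iff hl (h.conj_L' kK hl)).1 (by
    rw [h.Φ_pull kK hl, kk, kk, kk, h.π_mul c hc x hx, px, c1, mul_one, el]; exact hσ.symm)
  have d : ∀ η, ∃ ζ, comb b1 b3 (b2 + b3) ζ + (η + ζ) = 0 ∨ comb b1 b3 (b2 + b3) ζ + (η + ζ) = b1 := by
    decide
  obtain ⟨ζ, hζ⟩ := d (ψ (l⁻¹ * ((c * x)⁻¹ * l * (c * x))))
  obtain ⟨w, hw, rfl⟩ := h.ψ_surj ζ
  have w1 := h.conj_Z kK hw
  have e1 := h.zp.2 ⟨mul_mem w1 (mul_mem w0 hw), by
    rwa [h.ψ_mul _ w1 _ (mul_mem w0 hw), h.ψ_mul _ w0 _ hw, h.ψ_conj _ kK _ hw, kk]⟩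
  obtain ⟨g, hg, e2⟩ := c3 _ (mul_mem hl (h.ZL w1)) (by
    rw [h.Φ_mul _ hl _ (h.ZL w1), h.Φ_Z w1, add_zero, el])
  have kM : c * x * x * (c * x)⁻¹ * x⁻¹ ∈ Q := by
    convert h.comm_x hx x3 px kx hc c2 using 1; group
  obtain ⟨k, ek⟩ : ∃ k, k = c * x := ⟨_, rfl⟩
  rw [← ek] at e1 e2 kM kH w1
  have e3 := st (g⁻¹ * k * g) (mul_mem (mul_mem (inv_mem hg) kH) hg) (by
      rcases hN g hg with e | e
      · convert h.conj_Q' hg (mul_mem (mul_mem (h.conj_Q kH e) kM) (inv_mem e)) using 1; group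
      · convert h.conj_Q' hg (mul_mem (mul_mem (h.conj_Q kH e) (h.conj_Q' xH (inv_mem kM)))
          (inv_mem e)) using 1; group) (by
      rw [← h.Z_inv w1] at e1
      have := inv_mem e1
      rw [← h.conj_zp (mul_mem (mul_mem (inv_mem hg) kH) (h.LH (mul_mem hl (h.ZL w1)))) this] at this
      rw [show s = g⁻¹ * (l * (k * w * k⁻¹)) * g by rw [← e2]; group]
      convert this using 1; group)
  have e4 := (mem_normalizer_iff.1 (nD hg) _).1 e3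
  rw [show g * (g⁻¹ * k * g) * g⁻¹ = c * x by rw [ek]; group] at e4
  simpa using mul_mem (inv_mem (C0 _ c hc c2 rfl)) e4

end PQ

end Cfsg.Lib.J4T
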